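import Mathlib

set_option autoImplicit false

namespace Cfsg.Agent.Lib.Helper63.S3A

/-- A self-map of prime order dividing `p` on a finite set of size prime to `p` has a fixed
point. -/
theorem exists_fixed_of_iterate {X : Type*} [Finite X] (p : ℕ) [hp : Fact p.Prime] (f : X → X)
    (hf : ∀ x, f^[p] x = x) (hc : ¬ p ∣ Nat.card X) : ∃ x, f x = x := by
  classical
  letI : Fintype X := Fintype.ofFinite X
  let F : Function.End X := f
  have hpow : ∀ n : ℕ, ∀ x, (F ^ n) x = f^[n] x := by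
    intro n
    induction n with
    | zero => intro x; rfl
    | succ n ih =>
      intro x
      rw [pow_succ, Function.iterate_succ_apply]
      exact ih (f x)
  have hF : F ^ p ^ 1 = 1 := by
    rw [pow_one]; funext x; rw [hpow]; exact hf x
  have hmod := Equiv.Perm.card_fixedPoints_modEq (p := p) (n := 1) hF
  by_contra hne
  rw [not_exists] at hne
  have hempty : IsEmpty (Function.fixedPoints F) := ⟨fun Q => hne Q.1 Q.2⟩
  have h0 : Fintype.card (Function.fixedPoints F) = 0 := Fintype.card_eq_zero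
  rw [h0] at hmod
  apply hc
  rw [Nat.card_eq_fintype_card]
  exact (Nat.modEq_zero_iff_dvd).1 hmod

/-- Fixed point in an invariant coset. -/
theorem fp_coset {K : Type*} [Group K] (p : ℕ) [Fact p.Prime] (σ : K →* K)
    (hσ : ∀ x, σ^[p] x = x) (N : Subgroup K) [Finite N] (hcop : ¬ p ∣ Nat.card N)
    (hN : ∀ k ∈ N, σ k ∈ N) (y : K) (hy : y⁻¹ * σ y ∈ N) :
    ∃ k ∈ N, σ (y * k) = y * k := by
  let f : N → N := fun k => ⟨y⁻¹ * σ (y * k), by
    rw [map_mul, ← mul_assoc]; exact N.mul_mem hy (hN k k.2)⟩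
  have hit : ∀ n : ℕ, ∀ k : N, ((f^[n] k : N) : K) = y⁻¹ * σ^[n] (y * k) := by
    intro n
    induction n with
    | zero => intro k; simp
    | succ n ih =>
      intro k
      rw [Function.iterate_succ_apply, ih, Function.iterate_succ_apply]
      show y⁻¹ * σ^[n] (y * (y⁻¹ * σ (y * k))) = _
      rw [mul_inv_cancel_left]
  obtain ⟨k, hk⟩ := exists_fixed_of_iterate p f (fun k => by
    apply Subtype.ext; rw [hit, hσ]; simp) hcop
  refine ⟨k, k.2, ?_⟩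
  have h1 : y⁻¹ * σ (y * k) = k := congrArg Subtype.val hk
  calc σ (y * (k : K)) = y * (y⁻¹ * σ (y * k)) := by group
    _ = y * k := by rw [h1]

/-- The relations of `S₃` for two endomorphisms. -/
structure Rel {K : Type*} [Group K] (α τ : K →* K) : Prop where
  h3 : ∀ x, α (α (α x)) = x
  h2 : ∀ x, τ (τ x) = x
  hr : ∀ x, τ (α (τ x)) = α (α x)

theorem Rel.ατ {K : Type*} [Group K] {α τ : K →* K} (h : Rel α τ) (x : K) :
    α (τ x) = τ (α (α x)) := by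
  have h1 := congrArg τ (h.hr x)
  rw [h.h2] at h1
  exact h1

theorem Rel.αατ {K : Type*} [Group K] {α τ : K →* K} (h : Rel α τ) (x : K) :
    α (α (τ x)) = τ (α x) := by
  have h1 := h.hr (τ x)
  rw [h.h2] at h1
  exact h1.symm

theorem finite_of_le {K : Type*} [Group K] {H N : Subgroup K} [Finite N] (h : H ≤ N) :
    Finite H :=
  Finite.of_injective (Subgroup.inclusion h) (Subgroup.inclusion_injective h)

/-- A common fixed point of `S₃` in an invariant coset of a subgroup of order prime to 6. -/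
theorem fp_coset_S3 {K : Type*} [Group K] {α τ : K →* K} (h : Rel α τ)
    (N : Subgroup K) [Finite N] (hcop : (Nat.card N).Coprime 6)
    (hNα : ∀ k ∈ N, α k ∈ N) (hNτ : ∀ k ∈ N, τ k ∈ N) (y : K)
    (hyα : y⁻¹ * α y ∈ N) (hyτ : y⁻¹ * τ y ∈ N) :
    ∃ k ∈ N, α (y * k) = y * k ∧ τ (y * k) = y * k := by
  haveI : Fact (Nat.Prime 3) := ⟨Nat.prime_three⟩
  haveI : Fact (Nat.Prime 2) := ⟨Nat.prime_two⟩
  have h3N : ¬ 3 ∣ Nat.card N := by
    intro hd
    have := Nat.Coprime.coprime_dvd_left hd hcop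
    revert this; decide
  have h2N : ¬ 2 ∣ Nat.card N := by
    intro hd
    have := Nat.Coprime.coprime_dvd_left hd hcop
    revert this; decide
  obtain ⟨k₁, hk₁, hk₁α⟩ := fp_coset 3 α (fun x => h.h3 x) N h3N hNα y hyα
  set N₁ : Subgroup K := N ⊓ MonoidHom.eqLocus α (MonoidHom.id K) with hN₁
  haveI : Finite N₁ := finite_of_le (inf_le_left : N₁ ≤ N)
  have h2N₁ : ¬ 2 ∣ Nat.card N₁ := by
    intro hd
    exact h2N (hd.trans (Subgroup.card_dvd_of_le inf_le_left))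
  have hN₁τ : ∀ k ∈ N₁, τ k ∈ N₁ := by
    intro k hk
    obtain ⟨hk1, hk2⟩ := Subgroup.mem_inf.1 hk
    refine Subgroup.mem_inf.2 ⟨hNτ k hk1, ?_⟩
    have hk3 : α k = k := hk2
    show α (τ k) = τ k
    rw [h.ατ, hk3, hk3]
  have hy₁ : (y * k₁)⁻¹ * τ (y * k₁) ∈ N₁ := by
    refine Subgroup.mem_inf.2 ⟨?_, ?_⟩
    · have e : (y * k₁)⁻¹ * τ (y * k₁) = k₁⁻¹ * (y⁻¹ * τ y) * τ k₁ := by
        rw [map_mul]; group
      rw [e]
      exact N.mul_mem (N.mul_mem (N.inv_mem hk₁) hyτ) (hNτ k₁ hk₁)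
    · show α ((y * k₁)⁻¹ * τ (y * k₁)) = (y * k₁)⁻¹ * τ (y * k₁)
      rw [map_mul, map_inv, hk₁α, h.ατ, hk₁α, hk₁α]
  obtain ⟨k₂, hk₂, hk₂τ⟩ := fp_coset 2 τ (fun x => h.h2 x) N₁ h2N₁ hN₁τ (y * k₁) hy₁
  obtain ⟨hk21, hk22⟩ := Subgroup.mem_inf.1 hk₂
  have hk23 : α k₂ = k₂ := hk22
  refine ⟨k₁ * k₂, N.mul_mem hk₁ hk21, ?_, ?_⟩
  · rw [← mul_assoc, map_mul, hk₁α, hk23]
  · rw [← mul_assoc]; exact hk₂τ

/-- On a finite invariant subgroup without fixed points, `y ↦ y⁻¹ σ(y)` is onto. -/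
theorem lamSurj {K : Type*} [Group K] (s : K →* K) (M : Subgroup K) [Finite M]
    (hM : ∀ k ∈ M, s k ∈ M) (hfp : ∀ k ∈ M, s k = k → k = 1) :
    ∀ m ∈ M, ∃ y ∈ M, y⁻¹ * s y = m := by
  have hinj : Function.Injective (fun y : M => (⟨(y : K)⁻¹ * s y, M.mul_mem (M.inv_mem y.2) (hM y y.2)⟩ : M)) := by
    intro y y' h
    have h1 : (y : K)⁻¹ * s y = (y' : K)⁻¹ * s y' := congrArg Subtype.val h
    have h2 : s ((y' : K) * (y : K)⁻¹) = (y' : K) * (y : K)⁻¹ := by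
      rw [map_mul, map_inv]
      have : s (y' : K) = (y' : K) * ((y : K)⁻¹ * s y) := by rw [h1]; group
      rw [this]; group
    have h3 := hfp _ (M.mul_mem y'.2 (M.inv_mem y.2)) h2
    exact Subtype.ext (mul_inv_eq_one.1 h3).symm
  have hsurj := Finite.surjective_of_injective hinj
  intro m hm
  obtain ⟨y, hy⟩ := hsurj ⟨m, hm⟩
  exact ⟨y, y.2, congrArg Subtype.val hy⟩

/-- A fixed-point-free involution inverts. -/
theorem inv_of_fpf {K : Type*} [Group K] (τ : K →* K) (h2 : ∀ x, τ (τ x) = x)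
    (Q : Subgroup K) [Finite Q] (hQ : ∀ x ∈ Q, τ x ∈ Q) (hfp : ∀ x ∈ Q, τ x = x → x = 1) :
    ∀ x ∈ Q, τ x = x⁻¹ := by
  intro x hx
  obtain ⟨y, -, rfl⟩ := lamSurj τ Q hQ hfp x hx
  rw [map_mul, map_inv, h2, mul_inv_rev, inv_inv]

theorem comm_of_inv {K : Type*} [Group K] (τ : K →* K) (Q : Subgroup K)
    (h : ∀ x ∈ Q, τ x = x⁻¹) : ∀ x ∈ Q, ∀ y ∈ Q, x * y = y * x := by
  intro x hx y hy
  have h1 := h (x * y) (Q.mul_mem hx hy)
  rw [map_mul, h x hx, h y hy, ← mul_inv_rev, inv_inj] at h1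
  exact h1.symm

section Three

variable {K : Type*} [Group K] (α : K →* K) (h3 : ∀ x, α (α (α x)) = x)
  (Q : Subgroup K) [Finite Q] (hQ : ∀ x ∈ Q, α x ∈ Q) (hfp : ∀ x ∈ Q, α x = x → x = 1)

include h3 hQ hfp

theorem three_norm : ∀ g ∈ Q, g * α g * α (α g) = 1 := by
  intro g hg
  obtain ⟨y, -, rfl⟩ := lamSurj α Q hQ hfp g hg
  simp only [map_mul, map_inv, h3]
  group

theorem three_comm1 : ∀ g ∈ Q, g * α g = α g * g := by
  intro g hg
  have h1 := three_norm α h3 Q hQ hfp g hg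
  have h2 := three_norm α h3 Q hQ hfp g⁻¹ (Q.inv_mem hg)
  simp only [map_inv] at h2
  have e1 : α (α g) = (g * α g)⁻¹ := eq_inv_of_mul_eq_one_right h1
  have e2 : α (α g) = (α g * g)⁻¹ := by
    have : (α (α g))⁻¹ = α g * g := by
      have h2' : (α g * g)⁻¹ * (α (α g))⁻¹ = 1 := by rw [mul_inv_rev]; exact h2
      exact (eq_inv_of_mul_eq_one_right h2').trans (inv_inv _)
    rw [← this, inv_inv]
  have := e1.symm.trans e2
  exact inv_injective this

theorem three_comm2 : ∀ g ∈ Q, ∀ u ∈ Q, g * (u * α g * u⁻¹) = (u * α g * u⁻¹) * g := by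
  intro g hg u hu
  obtain ⟨v, hv, rfl⟩ := lamSurj α Q hQ hfp u hu
  have h1 := three_comm1 α h3 Q hQ hfp (v * g * v⁻¹) (Q.mul_mem (Q.mul_mem hv hg) (Q.inv_mem hv))
  simp only [map_mul, map_inv] at h1
  calc g * (v⁻¹ * α v * α g * (v⁻¹ * α v)⁻¹)
      = v⁻¹ * (v * g * v⁻¹ * (α v * α g * (α v)⁻¹)) * v := by group
    _ = v⁻¹ * (α v * α g * (α v)⁻¹ * (v * g * v⁻¹)) * v := by rw [h1]
    _ = (v⁻¹ * α v * α g * (v⁻¹ * α v)⁻¹) * g := by group

theorem three_comm3 : ∀ g ∈ Q, ∀ u ∈ Q, g * (u * α (α g) * u⁻¹) = (u * α (α g) * u⁻¹) * g := by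
  intro g hg u hu
  have h1 := three_comm2 α h3 Q hQ hfp (α (α g)) (hQ _ (hQ g hg)) u⁻¹ (Q.inv_mem hu)
  rw [h3, inv_inv] at h1
  calc g * (u * α (α g) * u⁻¹) = u * (u⁻¹ * g * u * α (α g)) * u⁻¹ := by group
    _ = u * (α (α g) * (u⁻¹ * g * u)) * u⁻¹ := by rw [h1]
    _ = (u * α (α g) * u⁻¹) * g := by group

theorem three_comm4 : ∀ g ∈ Q, ∀ u ∈ Q, g * (u * g * u⁻¹) = (u * g * u⁻¹) * g := by
  intro g hg u hu
  have h1 := three_norm α h3 Q hQ hfp g hg
  have e : g = (α g * α (α g))⁻¹ := by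
    rw [mul_assoc] at h1
    exact eq_inv_of_mul_eq_one_left h1
  have c2 := three_comm2 α h3 Q hQ hfp g hg u hu
  have c3 := three_comm3 α h3 Q hQ hfp g hg u hu
  have e2 : u * g * u⁻¹ = ((u * α g * u⁻¹) * (u * α (α g) * u⁻¹))⁻¹ := by
    conv_lhs => rw [e]
    group
  rw [e2]
  have hc : Commute g ((u * α g * u⁻¹) * (u * α (α g) * u⁻¹)) :=
    Commute.mul_right c2 c3
  exact hc.inv_right

/-- all conjugates of `g, α g, α² g` commute with each other -/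
theorem three_orbit_comm : ∀ g ∈ Q, ∀ y ∈ ({g, α g, α (α g)} : Set K),
    ∀ y' ∈ ({g, α g, α (α g)} : Set K), ∀ u ∈ Q, y * (u * y' * u⁻¹) = (u * y' * u⁻¹) * y := by
  intro g hg y hy y' hy' u hu
  have c4 := three_comm4 α h3 Q hQ hfp
  have c2 := three_comm2 α h3 Q hQ hfp
  have c3 := three_comm3 α h3 Q hQ hfp
  have hg1 : α g ∈ Q := hQ g hg
  have hg2 : α (α g) ∈ Q := hQ _ hg1
  simp only [Set.mem_insert_iff, Set.mem_singleton_iff] at hy hy'
  rcases hy with rfl | rfl | rfl <;> rcases hy' with rfl | rfl | rfl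
  · exact c4 _ hg u hu
  · exact c2 _ hg u hu
  · exact c3 _ hg u hu
  · have := c3 _ hg1 u hu; rw [h3] at this; exact this
  · exact c4 _ hg1 u hu
  · exact c2 _ hg1 u hu
  · have := c2 _ hg2 u hu; rw [h3] at this; exact this
  · have := c3 _ hg2 u hu; rw [h3] at this; exact this
  · exact c4 _ hg2 u hu

end Three

end Cfsg.Agent.Lib.Helper63.S3A
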