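import Mathlib
import Cfsg.Agent.Lib.Helper63.S3Grp

set_option autoImplicit false

namespace Cfsg.Agent.Lib.Helper63.S3A

/-- additive automorphisms, as a multiplicative group -/
abbrev LAut (W : Type*) [AddCommGroup W] := W ≃ₗ[ℤ] W

section Basic

variable {W : Type*} [AddCommGroup W]

instance instFiniteLAut [Finite W] : Finite (LAut W) :=
  Finite.of_injective (fun e : LAut W => (e : W → W)) DFunLike.coe_injective

@[simp] theorem inv_app (e : LAut W) (w : W) : e⁻¹ (e w) = w := e.symm_apply_apply w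

@[simp] theorem app_inv (e : LAut W) (w : W) : e (e⁻¹ w) = w := e.apply_symm_apply w

@[simp] theorem one_app (w : W) : (1 : LAut W) w = w := rfl

theorem exists_zsmul [Finite W] (n : ℕ) (hc : n.Coprime (Nat.card W)) :
    ∃ x : ℤ, ∀ w : W, x • (n • w) = w := by
  refine ⟨Nat.gcdA n (Nat.card W), fun w => ?_⟩
  have h1 := Nat.gcd_eq_gcd_ab n (Nat.card W)
  rw [hc.gcd_eq_one] at h1
  have h2 : ∀ v : W, (Nat.card W : ℤ) • v = 0 := by
    intro v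
    rw [natCast_zsmul]; exact card_nsmul_eq_zero'
  calc Nat.gcdA n (Nat.card W) • (n • w) = ((n : ℤ) * Nat.gcdA n (Nat.card W)) • w := by
        rw [mul_comm, mul_smul, natCast_zsmul]
    _ = (1 - (Nat.card W : ℤ) * Nat.gcdB n (Nat.card W)) • w := by
        congr 1; push_cast at h1; linarith
    _ = w := by rw [sub_smul, one_smul, mul_smul, h2, sub_zero]

theorem eq_zero_of_nsmul [Finite W] (n : ℕ) (hc : n.Coprime (Nat.card W)) (w : W)
    (h : n • w = 0) : w = 0 := by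
  obtain ⟨x, hx⟩ := exists_zsmul (W := W) n hc
  rw [← hx w, h, smul_zero]

theorem mem_of_nsmul [Finite W] (P : AddSubgroup W) (n : ℕ) (hc : n.Coprime (Nat.card W))
    (w : W) (h : n • w ∈ P) : w ∈ P := by
  obtain ⟨x, hx⟩ := exists_zsmul (W := W) n hc
  rw [← hx w]
  exact P.zsmul_mem h x

/-- if `g` normalizes the finite subgroup `Z` then so does `g⁻¹` -/
theorem norm_inv {K : Type*} [Group K] (Z : Subgroup K) [Finite Z] (g : K)
    (hg : ∀ z ∈ Z, g * z * g⁻¹ ∈ Z) : ∀ z ∈ Z, g⁻¹ * z * g ∈ Z := by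
  have hinj : Function.Injective (fun z : Z => (⟨g * z * g⁻¹, hg z z.2⟩ : Z)) := by
    intro z z' h
    have h1 : g * (z : K) * g⁻¹ = g * (z' : K) * g⁻¹ := congrArg Subtype.val h
    apply Subtype.ext
    simpa using h1
  have hsurj := Finite.surjective_of_injective hinj
  intro z hz
  obtain ⟨z', hz'⟩ := hsurj ⟨z, hz⟩
  have h1 : g * (z' : K) * g⁻¹ = z := congrArg Subtype.val hz'
  have : g⁻¹ * z * g = z' := by rw [← h1]; group
  rw [this]; exact z'.2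

/-- conjugation as a permutation of a normalized finite subgroup -/
def conjEquiv {K : Type*} [Group K] (Z : Subgroup K) [Finite Z] (g : K)
    (hg : ∀ z ∈ Z, g * z * g⁻¹ ∈ Z) : Z ≃ Z where
  toFun z := ⟨g * z * g⁻¹, hg z z.2⟩
  invFun z := ⟨g⁻¹ * z * g, norm_inv Z g hg z z.2⟩
  left_inv z := by apply Subtype.ext; show g⁻¹ * (g * (z : K) * g⁻¹) * g = z; group
  right_inv z := by apply Subtype.ext; show g * (g⁻¹ * (z : K) * g) * g⁻¹ = z; group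

end Basic

section Tr

variable {W : Type*} [AddCommGroup W] (Z : Subgroup (LAut W)) [Fintype Z]

/-- trace over a finite group of automorphisms -/
noncomputable def tr : W →ₗ[ℤ] W := ∑ z : Z, ((z : LAut W) : W →ₗ[ℤ] W)

theorem tr_apply (w : W) : tr Z w = ∑ z : Z, (z : LAut W) w := by
  simp [tr, LinearMap.sum_apply]

/-- twisted trace -/
noncomputable def sc (c : LAut W) : W →ₗ[ℤ] W :=
  ∑ z : Z, (((z : LAut W) * c * (z : LAut W)⁻¹ * c⁻¹ : LAut W) : W →ₗ[ℤ] W)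

theorem sc_apply (c : LAut W) (w : W) :
    sc Z c w = ∑ z : Z, ((z : LAut W) * c * (z : LAut W)⁻¹ * c⁻¹) w := by
  simp only [sc, LinearMap.sum_apply, LinearEquiv.coe_coe]

theorem tr_fix (w : W) (y : LAut W) (hy : y ∈ Z) : y (tr Z w) = tr Z w := by
  rw [tr_apply, map_sum]
  exact Fintype.sum_equiv (Equiv.mulLeft (⟨y, hy⟩ : Z)) _ _ (fun z => rfl)

theorem tr_of_fix (w : W) (h : ∀ z ∈ Z, z w = w) : tr Z w = Fintype.card Z • w := by
  rw [tr_apply, Finset.sum_congr rfl (fun (z : Z) _ => h z z.2), Finset.sum_const, Finset.card_univ]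

theorem tr_conj (g : LAut W) (hg : ∀ z ∈ Z, g * z * g⁻¹ ∈ Z) (w : W) :
    g (tr Z w) = tr Z (g w) := by
  rw [tr_apply, tr_apply, map_sum]
  refine Fintype.sum_equiv (conjEquiv Z g hg) _ _ (fun z => ?_)
  show g ((z : LAut W) w) = (g * (z : LAut W) * g⁻¹) (g w)
  simp

theorem sc_one (w : W) : sc Z 1 w = Fintype.card Z • w := by
  rw [sc_apply]
  simp [Finset.sum_const, Finset.card_univ]

theorem sc_of_fix (c : LAut W) (w : W) (h : ∀ z ∈ Z, (z * c * z⁻¹ * c⁻¹) w = w) :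
    sc Z c w = Fintype.card Z • w := by
  rw [sc_apply, Finset.sum_congr rfl (fun (z : Z) _ => h z z.2), Finset.sum_const, Finset.card_univ]

theorem sc_sum (c : LAut W) (w : W) :
    sc Z c (c w) = ∑ z : Z, (z : LAut W) (c ((z : LAut W)⁻¹ w)) := by
  rw [sc_apply]
  refine Finset.sum_congr rfl (fun z _ => ?_)
  simp

theorem theta_mem (c : LAut W) (hc : ∀ z ∈ Z, c * z * c⁻¹ ∈ Z) (z : LAut W) (hz : z ∈ Z) :
    z * c * z⁻¹ * c⁻¹ ∈ Z := by
  have : z * c * z⁻¹ * c⁻¹ = z * (c * z⁻¹ * c⁻¹) := by group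
  rw [this]
  exact Z.mul_mem hz (hc _ (Z.inv_mem hz))

theorem theta_mul (hZc : ∀ x ∈ Z, ∀ y ∈ Z, x * y = y * x) (c : LAut W)
    (hc : ∀ z ∈ Z, c * z * c⁻¹ ∈ Z) (y z : LAut W) (hy : y ∈ Z) (hz : z ∈ Z) :
    (y * c * y⁻¹ * c⁻¹) * (z * c * z⁻¹ * c⁻¹) = (y * z) * c * (y * z)⁻¹ * c⁻¹ := by
  have h1 : (c * y⁻¹ * c⁻¹) * z = z * (c * y⁻¹ * c⁻¹) := hZc _ (hc _ (Z.inv_mem hy)) _ hz
  have h2 : y⁻¹ * z⁻¹ = z⁻¹ * y⁻¹ := hZc _ (Z.inv_mem hy) _ (Z.inv_mem hz)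
  calc (y * c * y⁻¹ * c⁻¹) * (z * c * z⁻¹ * c⁻¹)
      = y * ((c * y⁻¹ * c⁻¹) * z) * c * z⁻¹ * c⁻¹ := by group
    _ = y * (z * (c * y⁻¹ * c⁻¹)) * c * z⁻¹ * c⁻¹ := by rw [h1]
    _ = y * z * c * (y⁻¹ * z⁻¹) * c⁻¹ := by group
    _ = y * z * c * (z⁻¹ * y⁻¹) * c⁻¹ := by rw [h2]
    _ = (y * z) * c * (y * z)⁻¹ * c⁻¹ := by group

theorem sc_fix (hZc : ∀ x ∈ Z, ∀ y ∈ Z, x * y = y * x) (c : LAut W)
    (hc : ∀ z ∈ Z, c * z * c⁻¹ ∈ Z) (w : W) (y : LAut W) (hy : y ∈ Z) :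
    (y * c * y⁻¹ * c⁻¹) (sc Z c w) = sc Z c w := by
  rw [sc_apply, map_sum]
  refine Fintype.sum_equiv (Equiv.mulLeft (⟨y, hy⟩ : Z)) _ _ (fun z => ?_)
  show (y * c * y⁻¹ * c⁻¹) (((z : LAut W) * c * (z : LAut W)⁻¹ * c⁻¹) w) =
    ((y * (z : LAut W)) * c * (y * (z : LAut W))⁻¹ * c⁻¹) w
  rw [← theta_mul Z hZc c hc y z hy z.2]
  rfl

theorem sc_comm (hZc : ∀ x ∈ Z, ∀ y ∈ Z, x * y = y * x) (c : LAut W)
    (hc : ∀ z ∈ Z, c * z * c⁻¹ ∈ Z) (w : W) (y : LAut W) (hy : y ∈ Z) :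
    y (sc Z c w) = sc Z c (y w) := by
  rw [sc_apply, sc_apply, map_sum]
  refine Finset.sum_congr rfl (fun z _ => ?_)
  have h1 := hZc y hy _ (theta_mem Z c hc z z.2)
  have h2 := congrArg (fun e : LAut W => e w) h1
  simpa using h2

theorem sc_eq_tr (c : LAut W) (hc : ∀ z ∈ Z, c * z * c⁻¹ ∈ Z)
    (hfp : ∀ z ∈ Z, c * z * c⁻¹ = z → z = 1) (w : W) : sc Z c w = tr Z w := by
  rw [sc_apply, tr_apply]
  have hinj : Function.Injective (fun z : Z => (⟨(z : LAut W) * c * (z : LAut W)⁻¹ * c⁻¹,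
      theta_mem Z c hc z z.2⟩ : Z)) := by
    intro z z' hh
    have h1 : (z : LAut W) * c * (z : LAut W)⁻¹ * c⁻¹ = (z' : LAut W) * c * (z' : LAut W)⁻¹ * c⁻¹ :=
      congrArg Subtype.val hh
    have h1' : (z : LAut W) * c * (z : LAut W)⁻¹ = (z' : LAut W) * c * (z' : LAut W)⁻¹ := by
      simpa using congrArg (· * c) h1
    have h2 : c * ((z' : LAut W)⁻¹ * z) * c⁻¹ = (z' : LAut W)⁻¹ * z := by
      have e1 : c * ((z' : LAut W)⁻¹ * z) * c⁻¹ =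
          (z' : LAut W)⁻¹ * ((z' : LAut W) * c * (z' : LAut W)⁻¹) * z * c⁻¹ := by group
      rw [e1, ← h1']; group
    have h3 := hfp _ (Z.mul_mem (Z.inv_mem z'.2) z.2) h2
    exact Subtype.ext (inv_mul_eq_one.1 h3).symm
  have hbij : Function.Bijective (fun z : Z => (⟨(z : LAut W) * c * (z : LAut W)⁻¹ * c⁻¹,
      theta_mem Z c hc z z.2⟩ : Z)) :=
    ⟨hinj, Finite.surjective_of_injective hinj⟩
  exact Fintype.sum_bijective _ hbij _ _ (fun z => rfl)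

theorem sc_conj (g c : LAut W) (hg : ∀ z ∈ Z, g * z * g⁻¹ ∈ Z) (w : W) :
    sc Z (g * c * g⁻¹) (g w) = g (sc Z c w) := by
  rw [sc_apply, sc_apply, map_sum]
  symm
  refine Fintype.sum_equiv (conjEquiv Z g hg) _ _ (fun z => ?_)
  show g (((z : LAut W) * c * (z : LAut W)⁻¹ * c⁻¹) w) =
    ((g * (z : LAut W) * g⁻¹) * (g * c * g⁻¹) * (g * (z : LAut W) * g⁻¹)⁻¹ * (g * c * g⁻¹)⁻¹) (g w)
  have e : (g * (z : LAut W) * g⁻¹) * (g * c * g⁻¹) * (g * (z : LAut W) * g⁻¹)⁻¹ * (g * c * g⁻¹)⁻¹ * g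
      = g * ((z : LAut W) * c * (z : LAut W)⁻¹ * c⁻¹) := by group
  have e2 := congrArg (fun e : LAut W => e w) e
  simpa using e2.symm

theorem tr_sc (hZc : ∀ x ∈ Z, ∀ y ∈ Z, x * y = y * x) (c : LAut W)
    (hc : ∀ z ∈ Z, c * z * c⁻¹ ∈ Z) (w : W) : tr Z (sc Z c w) = sc Z c (tr Z w) := by
  rw [tr_apply, tr_apply, map_sum]
  exact Finset.sum_congr rfl (fun z _ => sc_comm Z hZc c hc w z z.2)

end Tr

section S3def

variable {W : Type*} [AddCommGroup W]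

/-- `S₃` acting without fixed points, generated by `a` of order 3 and `t` of order 2 -/
structure S3 (a t : LAut W) : Prop where
  a3 : ∀ w, a (a (a w)) = w
  t2 : ∀ w, t (t w) = w
  rel : ∀ w, t (a w) = a (a (t w))
  fp : ∀ w, a w = w → t w = w → w = 0

variable {a t : LAut W} (h : S3 a t)

include h

theorem S3.rel2 (w : W) : t (a (a w)) = a (t w) := by
  rw [h.rel, h.rel, h.a3]

theorem S3.ainv : a⁻¹ = a * a := by
  apply inv_eq_of_mul_eq_one_left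
  ext w; simp [h.a3]

theorem S3.tinv : t⁻¹ = t := by
  apply inv_eq_of_mul_eq_one_left
  ext w; simp [h.t2]

theorem S3.ta : t * a = a * a * t := by
  ext w; simp [h.rel]

theorem S3.at : a * t = t * a * a := by
  ext w; simp [h.rel2]

theorem S3.ainv_app (w : W) : a⁻¹ w = a (a w) := by rw [h.ainv]; rfl

theorem S3.tinv_app (w : W) : t⁻¹ w = t w := by rw [h.tinv]

theorem S3.norm (w : W) : w + a w + a (a w) + t w + t (a w) + t (a (a w)) = 0 := by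
  apply h.fp
  · simp only [map_add, h.a3]
    rw [← h.rel2 w, ← h.rel2 (a w), ← h.rel2 (a (a w))]
    simp only [h.a3]
    abel
  · simp only [map_add, h.t2]
    abel

theorem S3.neg (w : W) (hw : a w = w) : t w = -w := by
  have : w + t w = 0 := by
    apply h.fp
    · rw [map_add, hw, ← h.rel2, hw, hw]
    · rw [map_add, h.t2, add_comm]
  exact (neg_eq_of_add_eq_zero_right this).symm

end S3def

section Dec

/-- an element with a power in `H` of exponent prime to its order lies in `H` -/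
theorem root_mem {K : Type*} [Group K] (H : Subgroup K) (z : K) (n k : ℕ) (hn : z ^ n = 1)
    (hc : n.Coprime k) (hk : z ^ k ∈ H) : z ∈ H := by
  have h1 := Nat.gcd_eq_gcd_ab n k
  rw [hc.gcd_eq_one] at h1
  have h2 : z = (z ^ k) ^ (Nat.gcdB n k) := by
    have : z ^ ((n : ℤ) * Nat.gcdA n k + (k : ℤ) * Nat.gcdB n k) = (z ^ k) ^ (Nat.gcdB n k) := by
      rw [zpow_add, zpow_mul, zpow_mul, zpow_natCast, zpow_natCast, hn, one_zpow, one_mul]
    rw [← this, ← h1]; simp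
  rw [h2]
  exact H.zpow_mem hk _

/-- the stabilizer of a vector -/
def stab {W : Type*} [AddCommGroup W] (v : W) : Subgroup (LAut W) where
  carrier := {e | e v = v}
  mul_mem' := by
    intro x y hx hy
    show x (y v) = v
    rw [show y v = v from hy, show x v = v from hx]
  one_mem' := rfl
  inv_mem' := by
    intro x hx
    show x⁻¹ v = v
    have hx' : x v = v := hx
    calc x⁻¹ v = x⁻¹ (x v) := by rw [hx']
      _ = v := inv_app x v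

theorem mem_stab {W : Type*} [AddCommGroup W] (v : W) (e : LAut W) : e ∈ stab v ↔ e v = v :=
  Iff.rfl

variable {M : Type*} [AddCommGroup M] [Finite M] {a t : LAut M}

/-- two of the three twisted fixed conditions force a fixed vector -/
theorem two_inv_fix (Z : Subgroup (LAut M)) [Fintype Z]
    (hZc : ∀ x ∈ Z, ∀ y ∈ Z, x * y = y * x) (hcop3 : (Fintype.card Z).Coprime 3)
    (s s' s'' : LAut M) (hs : ∀ z ∈ Z, s * z * s⁻¹ ∈ Z) (hs' : ∀ z ∈ Z, s' * z * s'⁻¹ ∈ Z)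
    (hs'' : ∀ z ∈ Z, s'' * z * s''⁻¹ ∈ Z)
    (hprod : ∀ z ∈ Z, (s * z * s⁻¹) * (s' * z * s'⁻¹) * (s'' * z * s''⁻¹) = 1)
    (hsq : s'' * s'' = 1) (v : M)
    (h1 : ∀ z ∈ Z, (z * s * z⁻¹ * s⁻¹) v = v) (h2 : ∀ z ∈ Z, (z * s' * z⁻¹ * s'⁻¹) v = v) :
    ∀ z ∈ Z, z v = v := by
  have hsinv : s''⁻¹ = s'' := inv_eq_of_mul_eq_one_left hsq
  have hA : ∀ y ∈ Z, (y * s'' * y⁻¹ * s''⁻¹) v = v := by
    intro y hy
    set b := y * s'' * y⁻¹ * s''⁻¹ with hb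
    have hbZ : b ∈ Z := theta_mem Z s'' hs'' y hy
    have hb1 : s'' * b * s''⁻¹ = b⁻¹ := by
      have e1 : s'' * b * s''⁻¹ = (s'' * y * s''⁻¹) * y⁻¹ := by
        rw [hb, hsinv]
        calc s'' * (y * s'' * y⁻¹ * s'') * s'' = s'' * y * s'' * y⁻¹ * (s'' * s'') := by group
          _ = s'' * y * s'' * y⁻¹ := by rw [hsq, mul_one]
      have e2 : b⁻¹ = (s'' * y * s''⁻¹) * y⁻¹ := by
        rw [hb]; group
      rw [e1, e2]
    have hp := hprod b hbZ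
    rw [hb1] at hp
    have hp' : (s * b * s⁻¹) * (s' * b * s'⁻¹) = b := by
      have := congrArg (· * b) hp
      simpa using this
    have hbb : (b * s * b⁻¹ * s⁻¹) * (b * s' * b⁻¹ * s'⁻¹) = b := by
      have c1 : (s * b * s⁻¹)⁻¹ * b = b * (s * b * s⁻¹)⁻¹ :=
        hZc _ (Z.inv_mem (hs b hbZ)) _ hbZ
      calc (b * s * b⁻¹ * s⁻¹) * (b * s' * b⁻¹ * s'⁻¹)
          = b * ((s * b * s⁻¹)⁻¹ * b) * (s' * b * s'⁻¹)⁻¹ := by group
        _ = b * (b * (s * b * s⁻¹)⁻¹) * (s' * b * s'⁻¹)⁻¹ := by rw [c1]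
        _ = b * b * ((s' * b * s'⁻¹) * (s * b * s⁻¹))⁻¹ := by group
        _ = b * b * ((s * b * s⁻¹) * (s' * b * s'⁻¹))⁻¹ := by
            rw [hZc _ (hs' b hbZ) _ (hs b hbZ)]
        _ = b := by rw [hp']; group
    calc b v = ((b * s * b⁻¹ * s⁻¹) * (b * s' * b⁻¹ * s'⁻¹)) v := by rw [hbb]
      _ = (b * s * b⁻¹ * s⁻¹) ((b * s' * b⁻¹ * s'⁻¹) v) := rfl
      _ = v := by rw [h2 b hbZ, h1 b hbZ]
  intro z hz
  have h3 : z * z * z ∈ stab v := by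
    have hzz : (z * s * z⁻¹ * s⁻¹) * (z * s' * z⁻¹ * s'⁻¹) * (z * s'' * z⁻¹ * s''⁻¹) = z * z * z := by
      have c1 : (s * z * s⁻¹)⁻¹ * z = z * (s * z * s⁻¹)⁻¹ := hZc _ (Z.inv_mem (hs z hz)) _ hz
      have c2 : (s' * z * s'⁻¹)⁻¹ * z = z * (s' * z * s'⁻¹)⁻¹ := hZc _ (Z.inv_mem (hs' z hz)) _ hz
      have c3 : (s * z * s⁻¹)⁻¹ * (z * z) = (z * z) * (s * z * s⁻¹)⁻¹ :=
        hZc _ (Z.inv_mem (hs z hz)) _ (Z.mul_mem hz hz)
      have c4 : (s' * z * s'⁻¹)⁻¹ * (s * z * s⁻¹)⁻¹ = (s * z * s⁻¹)⁻¹ * (s' * z * s'⁻¹)⁻¹ :=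
        hZc _ (Z.inv_mem (hs' z hz)) _ (Z.inv_mem (hs z hz))
      calc (z * s * z⁻¹ * s⁻¹) * (z * s' * z⁻¹ * s'⁻¹) * (z * s'' * z⁻¹ * s''⁻¹)
          = z * ((s * z * s⁻¹)⁻¹ * z) * ((s' * z * s'⁻¹)⁻¹ * z) * (s'' * z * s''⁻¹)⁻¹ := by group
        _ = z * (z * (s * z * s⁻¹)⁻¹) * (z * (s' * z * s'⁻¹)⁻¹) * (s'' * z * s''⁻¹)⁻¹ := by
            rw [c1, c2]
        _ = z * z * ((s * z * s⁻¹)⁻¹ * z) * (s' * z * s'⁻¹)⁻¹ * (s'' * z * s''⁻¹)⁻¹ := by group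
        _ = z * z * (z * (s * z * s⁻¹)⁻¹) * (s' * z * s'⁻¹)⁻¹ * (s'' * z * s''⁻¹)⁻¹ := by rw [c1]
        _ = z * z * z * ((s'' * z * s''⁻¹) * ((s' * z * s'⁻¹) * (s * z * s⁻¹)))⁻¹ := by group
        _ = z * z * z * ((s'' * z * s''⁻¹) * ((s * z * s⁻¹) * (s' * z * s'⁻¹)))⁻¹ := by
            rw [hZc _ (hs' z hz) _ (hs z hz)]
        _ = z * z * z * (((s * z * s⁻¹) * (s' * z * s'⁻¹)) * (s'' * z * s''⁻¹))⁻¹ := by
            rw [hZc _ (hs'' z hz) _ (Z.mul_mem (hs z hz) (hs' z hz))]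
        _ = z * z * z := by rw [hprod z hz]; group
    rw [mem_stab]
    calc (z * z * z) v
        = ((z * s * z⁻¹ * s⁻¹) * (z * s' * z⁻¹ * s'⁻¹) * (z * s'' * z⁻¹ * s''⁻¹)) v := by rw [hzz]
      _ = (z * s * z⁻¹ * s⁻¹) ((z * s' * z⁻¹ * s'⁻¹) ((z * s'' * z⁻¹ * s''⁻¹) v)) := rfl
      _ = v := by rw [hA z hz, h2 z hz, h1 z hz]
  have hzn : z ^ (Fintype.card Z) = 1 := by
    have := pow_card_eq_one (x := (⟨z, hz⟩ : Z))
    exact congrArg Subtype.val this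
  have h4 : z ^ 3 ∈ stab v := by
    rw [pow_succ, pow_two]; exact h3
  exact root_mem (stab v) z _ 3 hzn hcop3 h4

end Dec

end Cfsg.Agent.Lib.Helper63.S3A
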