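import Mathlib
import Cfsg.Agent.Lib.Helper63.S3Mod

set_option autoImplicit false

namespace Cfsg.Agent.Lib.Helper63.S3A

variable {M : Type*} [AddCommGroup M] [Finite M] {a t : LAut M}

/-- Decomposition of the nontrivial part of a module under an abelian group `Z` on which the
element of order three acts without fixed points. -/
theorem dec (h : S3 a t) (Z : Subgroup (LAut M)) [Fintype Z]
    (hZc : ∀ x ∈ Z, ∀ y ∈ Z, x * y = y * x)
    (hZa : ∀ z ∈ Z, a * z * a⁻¹ ∈ Z) (hZt : ∀ z ∈ Z, t * z * t⁻¹ ∈ Z)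
    (hZfa : ∀ z ∈ Z, a * z * a⁻¹ = z → z = 1)
    (hcop : (Fintype.card Z).Coprime (Nat.card M)) (hcop3 : (Fintype.card Z).Coprime 3) :
    ∃ M1 : AddSubgroup M,
      (∀ m, m ∈ M1 ↔ (∀ z ∈ Z, (z * t * z⁻¹ * t⁻¹) m = m) ∧ tr Z m = 0) ∧
      (∀ m, tr Z m = 0 → ∃ u ∈ M1, ∃ v ∈ M1, ∃ w ∈ M1, m = u + a v + a (a w)) ∧
      (∀ m ∈ M1, t m = -m) ∧
      (∀ u ∈ M1, ∀ v ∈ M1, ∀ w ∈ M1, u + a v + a (a w) = 0 → u = 0 ∧ v = 0 ∧ w = 0) ∧
      (∀ m ∈ M1, ∀ P : AddSubgroup M, (∀ z ∈ Z, a m - (z * t * z⁻¹ * t⁻¹) (a m) ∈ P) → a m ∈ P) ∧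
      (∀ m, tr Z m = 0 → ∀ P : AddSubgroup M, (∀ z ∈ Z, m - (z * a * z⁻¹ * a⁻¹) m ∈ P) → m ∈ P) ∧
      (∀ m ∈ M1, ∀ z ∈ Z, z m ∈ M1) := by
  classical
  haveI : Finite Z := Finite.of_fintype Z
  set n := Fintype.card Z with hn
  have ha3 : a * a * a = 1 := by ext w; simp [h.a3]
  have ht2 : t * t = 1 := by ext w; simp [h.t2]
  have hZa' := norm_inv Z a hZa
  have hZt' := norm_inv Z t hZt
  set s₂ : LAut M := a * t * a⁻¹ with hs₂
  set s₃ : LAut M := a⁻¹ * t * a with hs₃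
  have hs2e : s₂ = t * a := by
    rw [hs₂]; ext w; simp [h.ainv_app, h.rel, h.a3]
  have hs3e : s₃ = t * a * a := by
    rw [hs₃]; ext w; simp [h.ainv_app, h.rel, h.a3]
  have hs2n : ∀ z ∈ Z, s₂ * z * s₂⁻¹ ∈ Z := by
    intro z hz
    have : s₂ * z * s₂⁻¹ = a * (t * (a⁻¹ * z * a) * t⁻¹) * a⁻¹ := by rw [hs₂]; group
    rw [this]; exact hZa _ (hZt _ (hZa' z hz))
  have hs3n : ∀ z ∈ Z, s₃ * z * s₃⁻¹ ∈ Z := by
    intro z hz
    have : s₃ * z * s₃⁻¹ = a⁻¹ * (t * (a * z * a⁻¹) * t⁻¹) * a := by rw [hs₃]; group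
    rw [this]; exact hZa' _ (hZt _ (hZa z hz))
  have hs2sq : s₂ * s₂ = 1 := by
    rw [hs₂]
    calc a * t * a⁻¹ * (a * t * a⁻¹) = a * (t * t) * a⁻¹ := by group
      _ = 1 := by rw [ht2]; group
  have hs3sq : s₃ * s₃ = 1 := by
    rw [hs₃]
    calc a⁻¹ * t * a * (a⁻¹ * t * a) = a⁻¹ * (t * t) * a := by group
      _ = 1 := by rw [ht2]; group
  have hNa : ∀ z ∈ Z, z * (a * z * a⁻¹) * (a * (a * z * a⁻¹) * a⁻¹) = 1 := by
    intro z hz
    have hz1 := hZa z hz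
    have hz2 := hZa _ hz1
    apply hZfa _ (Z.mul_mem (Z.mul_mem hz hz1) hz2)
    have e3 : a * (a * (a * z * a⁻¹) * a⁻¹) * a⁻¹ = z := by
      calc a * (a * (a * z * a⁻¹) * a⁻¹) * a⁻¹ = (a * a * a) * z * (a * a * a)⁻¹ := by group
        _ = z := by rw [ha3]; group
    calc a * (z * (a * z * a⁻¹) * (a * (a * z * a⁻¹) * a⁻¹)) * a⁻¹
        = (a * z * a⁻¹) * (a * (a * z * a⁻¹) * a⁻¹) * (a * (a * (a * z * a⁻¹) * a⁻¹) * a⁻¹) := by
          group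
      _ = (a * z * a⁻¹) * (a * (a * z * a⁻¹) * a⁻¹) * z := by rw [e3]
      _ = z * ((a * z * a⁻¹) * (a * (a * z * a⁻¹) * a⁻¹)) := (hZc _ (Z.mul_mem hz1 hz2) _ hz)
      _ = z * (a * z * a⁻¹) * (a * (a * z * a⁻¹) * a⁻¹) := by group
  have hprod : ∀ z ∈ Z, (t * z * t⁻¹) * (s₂ * z * s₂⁻¹) * (s₃ * z * s₃⁻¹) = 1 := by
    intro z hz
    rw [hs2e, hs3e]
    calc (t * z * t⁻¹) * (t * a * z * (t * a)⁻¹) * (t * a * a * z * (t * a * a)⁻¹)
        = t * (z * (a * z * a⁻¹) * (a * (a * z * a⁻¹) * a⁻¹)) * t⁻¹ := by group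
      _ = 1 := by rw [hNa z hz]; group
  have hprod' : ∀ z ∈ Z, (t * z * t⁻¹) * (s₃ * z * s₃⁻¹) * (s₂ * z * s₂⁻¹) = 1 := by
    intro z hz
    rw [mul_assoc, hZc _ (hs3n z hz) _ (hs2n z hz), ← mul_assoc]
    exact hprod z hz
  let M1 : AddSubgroup M :=
    { carrier := {m | (∀ z ∈ Z, (z * t * z⁻¹ * t⁻¹) m = m) ∧ tr Z m = 0}
      add_mem' := by
        rintro x y ⟨hx1, hx2⟩ ⟨hy1, hy2⟩
        exact ⟨fun z hz => by rw [map_add, hx1 z hz, hy1 z hz], by rw [map_add, hx2, hy2, add_zero]⟩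
      zero_mem' := ⟨fun z hz => map_zero _, map_zero _⟩
      neg_mem' := by
        rintro x ⟨hx1, hx2⟩
        exact ⟨fun z hz => by rw [map_neg, hx1 z hz], by rw [map_neg, hx2, neg_zero]⟩ }
  have hM1 : ∀ m, m ∈ M1 ↔ (∀ z ∈ Z, (z * t * z⁻¹ * t⁻¹) m = m) ∧ tr Z m = 0 := fun m => Iff.rfl
  have hKL : ∀ (g s s'' : LAut M), (∀ z ∈ Z, g * z * g⁻¹ ∈ Z) → s = g * t * g⁻¹ →
      (∀ z ∈ Z, s * z * s⁻¹ ∈ Z) → (∀ z ∈ Z, s'' * z * s''⁻¹ ∈ Z) →
      (∀ z ∈ Z, (t * z * t⁻¹) * (s * z * s⁻¹) * (s'' * z * s''⁻¹) = 1) → s'' * s'' = 1 →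
      ∀ m ∈ M1, sc Z t (g m) = 0 := by
    intro g s s'' hg hsg hsn hs''n hpr hsq m hm
    obtain ⟨hm1, hm2⟩ := (hM1 m).1 hm
    have hg' := norm_inv Z g hg
    set v := sc Z t (g m) with hv
    have k1 : ∀ z ∈ Z, (z * t * z⁻¹ * t⁻¹) v = v := fun z hz => sc_fix Z hZc t hZt (g m) z hz
    have k2 : ∀ z ∈ Z, (z * s * z⁻¹ * s⁻¹) v = v := by
      intro z hz
      rw [hv, sc_comm Z hZc t hZt (g m) _ (theta_mem Z s hsn z hz)]
      congr 1
      have e : (z * s * z⁻¹ * s⁻¹) * g = g * ((g⁻¹ * z * g) * t * (g⁻¹ * z * g)⁻¹ * t⁻¹) := by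
        rw [hsg]; group
      calc (z * s * z⁻¹ * s⁻¹) (g m) = ((z * s * z⁻¹ * s⁻¹) * g) m := rfl
        _ = (g * ((g⁻¹ * z * g) * t * (g⁻¹ * z * g)⁻¹ * t⁻¹)) m := by rw [e]
        _ = g (((g⁻¹ * z * g) * t * (g⁻¹ * z * g)⁻¹ * t⁻¹) m) := rfl
        _ = g m := by rw [hm1 _ (hg' z hz)]
    have k3 : ∀ z ∈ Z, z v = v :=
      two_inv_fix Z hZc hcop3 t s s'' hZt hsn hs''n hpr hsq v k1 k2
    have k4 : tr Z v = 0 := by
      rw [hv, tr_sc Z hZc t hZt, ← tr_conj Z g hg, hm2, map_zero, map_zero]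
    have k5 : tr Z v = n • v := tr_of_fix Z v k3
    rw [k4] at k5
    exact eq_zero_of_nsmul n hcop v k5.symm
  have hKLa : ∀ m ∈ M1, sc Z t (a m) = 0 :=
    hKL a s₂ s₃ hZa rfl hs2n hs3n hprod hs3sq
  have hZa'' : ∀ z ∈ Z, a⁻¹ * z * a⁻¹⁻¹ ∈ Z := by simpa using hZa'
  have hKLaa : ∀ m ∈ M1, sc Z t (a (a m)) = 0 := by
    intro m hm
    have := hKL a⁻¹ s₃ s₂ hZa'' (by rw [hs₃, inv_inv]) hs3n hs2n hprod' hs2sq m hm
    rw [h.ainv_app] at this; exact this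
  have hID : ∀ w, n • w + tr Z (a w) + tr Z (a (a w)) + sc Z t (t w) + sc Z s₂ (s₂ w)
      + sc Z s₃ (s₃ w) = 0 := by
    intro w
    have hN : ∀ v, v + a v + a (a v) + t v + s₂ v + s₃ v = 0 := by
      intro v
      have := h.norm v
      rw [hs2e, hs3e]; exact this
    have key : ∑ z : Z, (z : LAut M) ((z : LAut M)⁻¹ w + a ((z : LAut M)⁻¹ w)
        + a (a ((z : LAut M)⁻¹ w))
        + t ((z : LAut M)⁻¹ w) + s₂ ((z : LAut M)⁻¹ w) + s₃ ((z : LAut M)⁻¹ w)) = 0 :=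
      Finset.sum_eq_zero (fun z _ => by rw [hN, map_zero])
    simp only [map_add, Finset.sum_add_distrib] at key
    have e1 : ∑ z : Z, (z : LAut M) ((z : LAut M)⁻¹ w) = n • w := by
      simp [Finset.sum_const, Finset.card_univ, hn]
    have e2 := sc_sum Z a w
    have e3 : sc Z (a * a) (a (a w)) = ∑ z : Z, (z : LAut M) (a (a ((z : LAut M)⁻¹ w))) :=
      sc_sum Z (a * a) w
    have e4 := sc_sum Z t w
    have e5 := sc_sum Z s₂ w
    have e6 := sc_sum Z s₃ w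
    rw [e1, ← e2, ← e3, ← e4, ← e5, ← e6] at key
    have f2 : sc Z a (a w) = tr Z (a w) := sc_eq_tr Z a hZa hZfa _
    have f3 : sc Z (a * a) (a (a w)) = tr Z (a (a w)) := by
      refine sc_eq_tr Z (a * a) ?_ ?_ _
      · intro z hz
        have : a * a * z * (a * a)⁻¹ = a * (a * z * a⁻¹) * a⁻¹ := by group
        rw [this]; exact hZa _ (hZa z hz)
      · intro z hz hzz
        apply hZfa z hz
        have e : a * z * a⁻¹ = (a * a) * ((a * a) * z * (a * a)⁻¹) * (a * a)⁻¹ := by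
          calc a * z * a⁻¹ = (a * a * a) * (a * z * a⁻¹) * (a * a * a)⁻¹ := by rw [ha3]; group
            _ = (a * a) * ((a * a) * z * (a * a)⁻¹) * (a * a)⁻¹ := by group
        rw [e, hzz, hzz]
    rw [f2, f3] at key
    exact key
  have hc2 : ∀ w, sc Z s₂ (s₂ w) = a (sc Z t (t (a (a w)))) := by
    intro w
    have e : s₂ w = a (t (a (a w))) := by
      rw [hs2e]; show t (a w) = _; rw [← h.rel2, h.a3]
    rw [e, hs₂]
    exact sc_conj Z a t hZa _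
  have hc3 : ∀ w, sc Z s₃ (s₃ w) = a (a (sc Z t (t (a w)))) := by
    intro w
    have e : s₃ w = a⁻¹ (t (a w)) := by
      rw [hs3e, h.ainv_app]; show t (a (a w)) = _; rw [h.rel (a w)]
    have e2 : s₃ = a⁻¹ * t * a⁻¹⁻¹ := by rw [hs₃, inv_inv]
    rw [e, e2, sc_conj Z a⁻¹ t hZa'', h.ainv_app]
  obtain ⟨x, hx⟩ := exists_zsmul (W := M) n hcop
  have hΦ : ∀ w, tr Z w = 0 → sc Z t (t w) ∈ M1 := by
    intro w hw
    rw [hM1]
    refine ⟨fun z hz => sc_fix Z hZc t hZt _ z hz, ?_⟩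
    rw [tr_sc Z hZc t hZt, ← tr_conj Z t hZt, hw, map_zero, map_zero]
  have htra : ∀ w, tr Z w = 0 → tr Z (a w) = 0 := fun w hw => by
    rw [← tr_conj Z a hZa, hw, map_zero]
  refine ⟨M1, hM1, ?_, ?_, ?_, ?_, ?_, ?_⟩
  · intro m hm
    have hid := hID m
    rw [htra m hm, htra _ (htra m hm), hc2, hc3, add_zero, add_zero] at hid
    refine ⟨x • (-(sc Z t (t m))), M1.zsmul_mem (M1.neg_mem (hΦ m hm)) x,
      x • (-(sc Z t (t (a (a m))))), M1.zsmul_mem (M1.neg_mem (hΦ _ (htra _ (htra m hm)))) x,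
      x • (-(sc Z t (t (a m)))), M1.zsmul_mem (M1.neg_mem (hΦ _ (htra m hm))) x, ?_⟩
    have e : n • m = -(sc Z t (t m)) - a (sc Z t (t (a (a m)))) - a (a (sc Z t (t (a m)))) := by
      have h0 := hid
      rw [add_assoc, add_assoc] at h0
      rw [eq_neg_of_add_eq_zero_left h0]; abel
    conv_lhs => rw [← hx m, e]
    simp only [map_smul, map_neg, smul_sub, smul_neg]
    abel
  · intro m hm
    obtain ⟨hm1, hm2⟩ := (hM1 m).1 hm
    have hid := hID m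
    have htm : t m ∈ M1 := by
      rw [hM1]
      refine ⟨?_, by rw [← tr_conj Z t hZt, hm2, map_zero]⟩
      intro z hz
      have e : (z * t * z⁻¹ * t⁻¹) * t = t * ((t⁻¹ * z * t) * t * (t⁻¹ * z * t)⁻¹ * t⁻¹) := by group
      calc (z * t * z⁻¹ * t⁻¹) (t m) = ((z * t * z⁻¹ * t⁻¹) * t) m := rfl
        _ = (t * ((t⁻¹ * z * t) * t * (t⁻¹ * z * t)⁻¹ * t⁻¹)) m := by rw [e]
        _ = t (((t⁻¹ * z * t) * t * (t⁻¹ * z * t)⁻¹ * t⁻¹) m) := rfl
        _ = t m := by rw [hm1 _ (hZt' z hz)]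
    rw [htra m hm2, htra _ (htra m hm2), hc2, hc3, add_zero, add_zero] at hid
    have e1 : sc Z t (t m) = n • t m := sc_of_fix Z t (t m) ((hM1 _).1 htm).1
    have e2 : sc Z t (t (a (a m))) = 0 := by rw [h.rel2]; exact hKLa _ htm
    have e3 : sc Z t (t (a m)) = 0 := by rw [h.rel]; exact hKLaa _ htm
    rw [e1, e2, e3] at hid
    simp only [map_zero, add_zero] at hid
    rw [← smul_add] at hid
    have := eq_zero_of_nsmul n hcop _ hid
    exact (neg_eq_of_add_eq_zero_right this).symm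
  · intro u hu v hv w hw huvw
    have hu0 : u = 0 := by
      have := congrArg (sc Z t) huvw
      rw [map_add, map_add, hKLa v hv, hKLaa w hw, add_zero, add_zero, map_zero,
        sc_of_fix Z t u ((hM1 u).1 hu).1] at this
      exact eq_zero_of_nsmul n hcop u this
    subst hu0
    rw [zero_add, ← map_add] at huvw
    have hvw : v + a w = 0 := by
      have := congrArg (fun y => a⁻¹ y) huvw; simpa using this
    have hv0 : v = 0 := by
      have := congrArg (sc Z t) hvw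
      rw [map_add, hKLa w hw, add_zero, map_zero, sc_of_fix Z t v ((hM1 v).1 hv).1] at this
      exact eq_zero_of_nsmul n hcop v this
    subst hv0
    rw [zero_add] at hvw
    have hw0 : w = 0 := by
      have := congrArg (fun y => a⁻¹ y) hvw; simpa using this
    exact ⟨rfl, rfl, hw0⟩
  · intro m hm P hP
    have hsum : ∑ z : Z, (a m - ((z : LAut M) * t * (z : LAut M)⁻¹ * t⁻¹) (a m)) ∈ P :=
      P.sum_mem (fun z _ => hP z z.2)
    rw [Finset.sum_sub_distrib, Finset.sum_const, Finset.card_univ, ← sc_apply, hKLa m hm,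
      sub_zero] at hsum
    exact mem_of_nsmul P n hcop _ hsum
  · intro m hm P hP
    have hsum : ∑ z : Z, (m - ((z : LAut M) * a * (z : LAut M)⁻¹ * a⁻¹) m) ∈ P :=
      P.sum_mem (fun z _ => hP z z.2)
    rw [Finset.sum_sub_distrib, Finset.sum_const, Finset.card_univ, ← sc_apply,
      sc_eq_tr Z a hZa hZfa, hm, sub_zero] at hsum
    exact mem_of_nsmul P n hcop _ hsum
  · intro m hm z hz
    obtain ⟨hm1, hm2⟩ := (hM1 m).1 hm
    rw [hM1]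
    refine ⟨fun y hy => ?_, ?_⟩
    · have c := hZc _ (theta_mem Z t hZt y hy) z hz
      calc (y * t * y⁻¹ * t⁻¹) (z m) = ((y * t * y⁻¹ * t⁻¹) * z) m := rfl
        _ = (z * (y * t * y⁻¹ * t⁻¹)) m := by rw [c]
        _ = z ((y * t * y⁻¹ * t⁻¹) m) := rfl
        _ = z m := by rw [hm1 y hy]
    · have hzn : ∀ y ∈ Z, z * y * z⁻¹ ∈ Z := fun y hy =>
        Z.mul_mem (Z.mul_mem hz hy) (Z.inv_mem hz)
      rw [← tr_conj Z z hzn, hm2, map_zero]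

end Cfsg.Agent.Lib.Helper63.S3A
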