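import Mathlib
import Cfsg.Agent.Lib.Helper63.S3Dec

set_option autoImplicit false

namespace Cfsg.Agent.Lib.Helper63.S3A

theorem coprime6_of_prime (q : ℕ) (hq : q.Prime) (h5 : 5 ≤ q) : Nat.Coprime q 6 := by
  rw [Nat.Prime.coprime_iff_not_dvd hq]
  intro hd
  have h6 : q ≤ 6 := Nat.le_of_dvd (by norm_num) hd
  interval_cases q
  · revert hd; decide
  · revert hq; decide

theorem closure_conj_mem {K : Type*} [Group K] (S : Set K) (c : K)
    (hS : ∀ s ∈ S, c * s * c⁻¹ ∈ Subgroup.closure S) :
    ∀ g ∈ Subgroup.closure S, c * g * c⁻¹ ∈ Subgroup.closure S := by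
  intro g hg
  induction hg using Subgroup.closure_induction with
  | mem x hx => exact hS x hx
  | one => simp
  | mul x y _ _ ihx ihy =>
    have : c * (x * y) * c⁻¹ = (c * x * c⁻¹) * (c * y * c⁻¹) := by group
    rw [this]; exact Subgroup.mul_mem _ ihx ihy
  | inv x _ ihx =>
    have : c * x⁻¹ * c⁻¹ = (c * x * c⁻¹)⁻¹ := by group
    rw [this]; exact Subgroup.inv_mem _ ihx

theorem comm_closure {K : Type*} [Group K] (S : Set K)
    (hS : ∀ x ∈ S, ∀ y ∈ S, x * y = y * x) :
    ∀ x ∈ Subgroup.closure S, ∀ y ∈ Subgroup.closure S, x * y = y * x := by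
  have h1 : Subgroup.closure S ≤ Subgroup.centralizer S := by
    rw [Subgroup.closure_le]
    intro x hx
    rw [SetLike.mem_coe, Subgroup.mem_centralizer_iff]
    intro y hy
    exact hS y hy x hx
  have h2 : Subgroup.closure S ≤ Subgroup.centralizer (Subgroup.closure S : Set K) := by
    rw [Subgroup.closure_le]
    intro x hx
    rw [SetLike.mem_coe, Subgroup.mem_centralizer_iff]
    intro y hy
    have := Subgroup.mem_centralizer_iff.1 (h1 hy) x hx
    exact this.symm
  intro x hx y hy
  exact (Subgroup.mem_centralizer_iff.1 (h2 hx) y hy).symm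

section

variable {W : Type*} [AddCommGroup W]

/-- the pointwise fixer of an additive subgroup -/
def fixer (U : AddSubgroup W) : Subgroup (LAut W) where
  carrier := {e | ∀ u ∈ U, e u = u}
  mul_mem' := by
    intro x y hx hy u hu
    show x (y u) = u
    rw [hy u hu, hx u hu]
  one_mem' := fun u _ => rfl
  inv_mem' := by
    intro x hx u hu
    show x⁻¹ u = u
    calc x⁻¹ u = x⁻¹ (x u) := by rw [hx u hu]
      _ = u := inv_app x u

theorem mem_fixer (U : AddSubgroup W) (e : LAut W) : e ∈ fixer U ↔ ∀ u ∈ U, e u = u := Iff.rfl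

/-- conjugation by `a`, as an endomorphism of the automorphism group -/
def cj (a : LAut W) : LAut W →* LAut W := (MulAut.conj a).toMonoidHom

@[simp] theorem cj_apply (a x : LAut W) : cj a x = a * x * a⁻¹ := rfl

theorem rel_conj {a t : LAut W} (h : S3 a t) : Rel (cj a) (cj t) := by
  have ha3 : a * a * a = 1 := by ext w; simp [h.a3]
  have ht2 : t * t = 1 := by ext w; simp [h.t2]
  refine ⟨?_, ?_, ?_⟩
  · intro x
    simp only [cj_apply]
    calc a * (a * (a * x * a⁻¹) * a⁻¹) * a⁻¹ = (a * a * a) * x * (a * a * a)⁻¹ := by group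
      _ = x := by rw [ha3]; group
  · intro x
    simp only [cj_apply]
    calc t * (t * x * t⁻¹) * t⁻¹ = (t * t) * x * (t * t)⁻¹ := by group
      _ = x := by rw [ht2]; group
  · intro x
    simp only [cj_apply]
    have e : t * a * t = a * a := by
      rw [h.ta]
      calc a * a * t * t = a * a * (t * t) := by group
        _ = a * a := by rw [ht2, mul_one]
    calc t * (a * (t * x * t⁻¹) * a⁻¹) * t⁻¹ = (t * a * t) * x * (t * a * t)⁻¹ := by group
      _ = a * (a * x * a⁻¹) * a⁻¹ := by rw [e]; group

/-- elements commuting with `a` and inverted by `t` fix the fixed points of `a` -/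
theorem fix_of_inverted {a t : LAut W} (h : S3 a t) (x : LAut W) (hxa : a * x = x * a)
    (hxt : t * x * t⁻¹ = x⁻¹) (n : ℕ) (hn : x ^ n = 1) (hodd : n.Coprime 2) :
    ∀ w, a w = w → x w = w := by
  intro w hw
  have h1 : a (x w) = x w := by
    calc a (x w) = (a * x) w := rfl
      _ = (x * a) w := by rw [hxa]
      _ = x w := by show x (a w) = x w; rw [hw]
  have h2 : t (x w) = -(x w) := h.neg _ h1
  have h3 : t w = -w := h.neg w hw
  have h4 : t (x w) = x⁻¹ (t w) := by
    have e : t * x = x⁻¹ * t := by rw [← hxt]; group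
    calc t (x w) = (t * x) w := rfl
      _ = (x⁻¹ * t) w := by rw [e]
      _ = x⁻¹ (t w) := rfl
  rw [h2, h3, map_neg, neg_inj] at h4
  have h5 : (x * x) w = w := by
    show x (x w) = w
    rw [h4]; exact app_inv x w
  have h6 : x ^ 2 ∈ stab w := by rw [pow_two]; exact h5
  exact root_mem (stab w) x n 2 hn hodd h6

/-- the stabilizer of an additive subgroup -/
def stabU (U : AddSubgroup W) : Subgroup (LAut W) where
  carrier := {x | ∀ w, x w ∈ U ↔ w ∈ U}
  mul_mem' := by
    intro x y hx hy w
    show x (y w) ∈ U ↔ w ∈ U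
    rw [hx, hy]
  one_mem' := fun w => Iff.rfl
  inv_mem' := by
    intro x hx w
    have := hx (x⁻¹ w)
    rw [app_inv] at this
    exact this.symm

/-- restriction of an automorphism stabilizing `U` -/
def resU (U : AddSubgroup W) (x : stabU U) : LAut U :=
  AddEquiv.toIntLinearEquiv
    { toFun := fun u => ⟨(x : LAut W) u, (x.2 u).2 u.2⟩
      invFun := fun u => ⟨(x : LAut W)⁻¹ u, ((stabU U).inv_mem x.2 u).2 u.2⟩
      left_inv := fun u => Subtype.ext (inv_app (x : LAut W) u)
      right_inv := fun u => Subtype.ext (app_inv (x : LAut W) u)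
      map_add' := fun u v => Subtype.ext (map_add (x : LAut W) (u : W) (v : W)) }

@[simp] theorem resU_apply (U : AddSubgroup W) (x : stabU U) (u : U) :
    ((resU U x u : U) : W) = (x : LAut W) u := rfl

/-- restriction as a homomorphism -/
def resHom (U : AddSubgroup W) : stabU U →* LAut U where
  toFun := resU U
  map_one' := by ext u; rfl
  map_mul' x y := by ext u; rfl

@[simp] theorem resHom_apply (U : AddSubgroup W) (x : stabU U) (u : U) :
    ((resHom U x u : U) : W) = (x : LAut W) u := rfl

end

end Cfsg.Agent.Lib.Helper63.S3A
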