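import Mathlib
import Cfsg.Agent.Lib.Helper63.S3Res

set_option autoImplicit false

namespace Cfsg.Agent.Lib.Helper63.Fpq

open Cfsg.Agent.Lib.Helper63.S3A

universe u

/-- common fixed point of two endomorphisms in an invariant coset -/
theorem fp2 {K : Type*} [Group K] (q p : ℕ) [Fact q.Prime] [Fact p.Prime] (σ₁ σ₂ : K →* K)
    (h1 : ∀ x, σ₁^[q] x = x) (h2 : ∀ x, σ₂^[p] x = x)
    (h12 : ∀ x, σ₁ x = x → σ₁ (σ₂ x) = σ₂ x)
    (N : Subgroup K) [Finite N] (hq : ¬ q ∣ Nat.card N) (hp : ¬ p ∣ Nat.card N)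
    (hN1 : ∀ k ∈ N, σ₁ k ∈ N) (hN2 : ∀ k ∈ N, σ₂ k ∈ N) (y : K)
    (hy1 : y⁻¹ * σ₁ y ∈ N) (hy2 : y⁻¹ * σ₂ y ∈ N) :
    ∃ k ∈ N, σ₁ (y * k) = y * k ∧ σ₂ (y * k) = y * k := by
  obtain ⟨k₁, hk₁, hk₁α⟩ := fp_coset q σ₁ h1 N hq hN1 y hy1
  set N₁ : Subgroup K := N ⊓ MonoidHom.eqLocus σ₁ (MonoidHom.id K) with hN₁
  have : Finite N₁ := finite_of_le (inf_le_left : N₁ ≤ N)
  have hpN₁ : ¬ p ∣ Nat.card N₁ := by
    intro hd
    exact hp (hd.trans (Subgroup.card_dvd_of_le inf_le_left))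
  have hN₁τ : ∀ k ∈ N₁, σ₂ k ∈ N₁ := by
    intro k hk
    obtain ⟨hk1, hk2⟩ := Subgroup.mem_inf.1 hk
    refine Subgroup.mem_inf.2 ⟨hN2 k hk1, ?_⟩
    have hk3 : σ₁ k = k := hk2
    show σ₁ (σ₂ k) = σ₂ k
    exact h12 k hk3
  have hy₁ : (y * k₁)⁻¹ * σ₂ (y * k₁) ∈ N₁ := by
    refine Subgroup.mem_inf.2 ⟨?_, ?_⟩
    · have e : (y * k₁)⁻¹ * σ₂ (y * k₁) = k₁⁻¹ * (y⁻¹ * σ₂ y) * σ₂ k₁ := by
        rw [map_mul]; group
      rw [e]
      exact N.mul_mem (N.mul_mem (N.inv_mem hk₁) hy2) (hN2 k₁ hk₁)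
    · show σ₁ ((y * k₁)⁻¹ * σ₂ (y * k₁)) = (y * k₁)⁻¹ * σ₂ (y * k₁)
      rw [map_mul, map_inv, hk₁α, h12 _ hk₁α]
  obtain ⟨k₂, hk₂, hk₂τ⟩ := fp_coset p σ₂ h2 N₁ hpN₁ hN₁τ (y * k₁) hy₁
  obtain ⟨hk21, hk22⟩ := Subgroup.mem_inf.1 hk₂
  have hk23 : σ₁ k₂ = k₂ := hk22
  refine ⟨k₁ * k₂, N.mul_mem hk₁ hk21, ?_, ?_⟩
  · rw [← mul_assoc, map_mul, hk₁α, hk23]
  · rw [← mul_assoc]; exact hk₂τ

theorem cj_iter {K : Type*} [Group K] (g : K) (n : ℕ) (x : K) :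
    ((MulAut.conj g).toMonoidHom)^[n] x = g ^ n * x * (g ^ n)⁻¹ := by
  induction n with
  | zero => simp
  | succ n ih =>
    rw [Function.iterate_succ_apply', ih, pow_succ']
    show g * (g ^ n * x * (g ^ n)⁻¹) * g⁻¹ = _
    group

theorem not_dvd_pgroup {K : Type*} [Group K] {r m : ℕ} (hr : r.Prime) (hm : m.Prime)
    (hrm : r ≠ m) (N : Subgroup K) [Finite N] (hN : IsPGroup r N) : ¬ m ∣ Nat.card N := by
  haveI : Fact r.Prime := ⟨hr⟩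
  obtain ⟨k, hk⟩ := hN.exists_card_eq
  rw [hk]
  intro hd
  have := (Nat.prime_dvd_prime_iff_eq hm hr).1 (hm.dvd_of_dvd_pow hd)
  exact hrm this.symm

/-- if `g` normalizes a finite subgroup elementwise, it lies in the normalizer -/
theorem mem_nz {K : Type*} [Group K] (Y : Subgroup K) [Finite Y] (g : K)
    (hg : ∀ y ∈ Y, g * y * g⁻¹ ∈ Y) : g ∈ Subgroup.normalizer (Y : Set K) := by
  rw [Subgroup.mem_normalizer_iff]
  intro y
  refine ⟨hg y, fun hy => ?_⟩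
  have := norm_inv Y g hg _ hy
  have e : g⁻¹ * (g * y * g⁻¹) * g = y := by group
  rwa [e] at this

/-- the normalizer of a subgroup -/
abbrev nzr {K : Type*} [Group K] (Y : Subgroup K) : Subgroup K :=
  Subgroup.normalizer (Y : Set K)

theorem nz_conj {K : Type*} [Group K] {Y : Subgroup K} {g : K} (hg : g ∈ Subgroup.normalizer (Y : Set K)) :
    ∀ y ∈ Y, g * y * g⁻¹ ∈ Y := fun y hy => (Subgroup.mem_normalizer_iff.1 hg y).1 hy

theorem nz_conj' {K : Type*} [Group K] {Y : Subgroup K} {g : K} (hg : g ∈ Subgroup.normalizer (Y : Set K)) :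
    ∀ y ∈ Y, g⁻¹ * y * g ∈ Y := by
  intro y hy
  have := nz_conj ((Subgroup.normalizer (Y : Set K)).inv_mem hg) y hy
  rwa [inv_inv] at this

section

variable {W : Type u} [AddCommGroup W]

/-- the configuration of the core theorem -/
structure Cfg (p q r s ℓ : ℕ) (a t : LAut W) (R S : Subgroup (LAut W)) : Prop where
  hp : p.Prime
  hq : q.Prime
  hr : r.Prime
  hs : s.Prime
  hℓ : ℓ.Prime
  hrs : r ≠ s
  hrℓ : r ≠ ℓ
  hrp : r ≠ p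
  hrq : r ≠ q
  hsp : s ≠ p
  hsq : s ≠ q
  hℓp : ℓ ≠ p
  hℓq : ℓ ≠ q
  hpq : p ∣ q - 1
  aq : a ^ q = 1
  tp : t ^ p = 1
  nrm : t * a * t⁻¹ ∈ Subgroup.zpowers a
  gen : a ∈ Subgroup.zpowers (t * a * t⁻¹ * a⁻¹)
  exp : ∀ w : W, ℓ • w = 0
  fp : ∀ w : W, a w = w → t w = w → w = 0
  Rp : IsPGroup r R
  Sp : IsPGroup s S
  Ra : ∀ x ∈ R, a * x * a⁻¹ ∈ R
  Rt : ∀ x ∈ R, t * x * t⁻¹ ∈ R
  Sa : ∀ u ∈ S, a * u * a⁻¹ ∈ S
  St : ∀ u ∈ S, t * u * t⁻¹ ∈ S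
  RS : ∀ u ∈ S, ∀ x ∈ R, u * x * u⁻¹ ∈ R
  Rfp : ∀ x ∈ R, a * x * a⁻¹ = x → t * x * t⁻¹ = x → x = 1
  Sfp : ∀ u ∈ S, a * u * a⁻¹ = u → t * u * t⁻¹ = u → u = 1

variable {p q r s ℓ : ℕ} {a t : LAut W} {R S : Subgroup (LAut W)}

theorem Cfg.zp_comm (_h : Cfg p q r s ℓ a t R S) {c x : LAut W} (hc : c ∈ Subgroup.zpowers a)
    (hx : a * x = x * a) : c * x = x * c := by
  obtain ⟨i, rfl⟩ := Subgroup.mem_zpowers_iff.1 hc
  have : Commute a x := hx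
  exact (this.zpow_left i)

theorem Cfg.zp_fix (_h : Cfg p q r s ℓ a t R S) {c : LAut W} (hc : c ∈ Subgroup.zpowers a)
    {w : W} (hw : a w = w) : c w = w := by
  have h1 : Subgroup.zpowers a ≤ stab w := by
    rw [Subgroup.zpowers_le]; exact hw
  exact h1 hc

theorem Cfg.zp_nrm [Finite W] (h : Cfg p q r s ℓ a t R S) :
    ∀ c ∈ Subgroup.zpowers a, t * c * t⁻¹ ∈ Subgroup.zpowers a := by
  intro c hc
  obtain ⟨i, rfl⟩ := Subgroup.mem_zpowers_iff.1 hc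
  have e : t * a ^ i * t⁻¹ = (t * a * t⁻¹) ^ i := by
    rw [conj_zpow]
  rw [e]
  exact Subgroup.zpow_mem _ h.nrm i

theorem Cfg.zp_nrm' [Finite W] (h : Cfg p q r s ℓ a t R S) :
    ∀ c ∈ Subgroup.zpowers a, t⁻¹ * c * t ∈ Subgroup.zpowers a :=
  norm_inv (Subgroup.zpowers a) t h.zp_nrm

/-- the fixed points of `a` on automorphisms are `t`-invariant -/
theorem Cfg.fix_t [Finite W] (h : Cfg p q r s ℓ a t R S) {x : LAut W}
    (hx : a * x * a⁻¹ = x) : a * (t * x * t⁻¹) * a⁻¹ = t * x * t⁻¹ := by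
  have hx' : a * x = x * a := by
    calc a * x = (a * x * a⁻¹) * a := by group
      _ = x * a := by rw [hx]
  have hc : t⁻¹ * a * t ∈ Subgroup.zpowers a :=
    h.zp_nrm' a (Subgroup.mem_zpowers a)
  have h1 := h.zp_comm hc hx'
  calc a * (t * x * t⁻¹) * a⁻¹ = t * ((t⁻¹ * a * t) * x) * (t⁻¹ * a * t)⁻¹ * t⁻¹ := by group
    _ = t * (x * (t⁻¹ * a * t)) * (t⁻¹ * a * t)⁻¹ * t⁻¹ := by rw [h1]
    _ = t * x * t⁻¹ := by group

/-- the fixed points of `a` on the module are `t`-invariant -/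
theorem Cfg.fixW_t [Finite W] (h : Cfg p q r s ℓ a t R S) {w : W} (hw : a w = w) :
    a (t w) = t w := by
  have hc : t⁻¹ * a * t ∈ Subgroup.zpowers a :=
    h.zp_nrm' a (Subgroup.mem_zpowers a)
  have h1 := h.zp_fix hc hw
  have e : a * t = t * (t⁻¹ * a * t) := by group
  calc a (t w) = (a * t) w := rfl
    _ = (t * (t⁻¹ * a * t)) w := by rw [e]
    _ = t ((t⁻¹ * a * t) w) := rfl
    _ = t w := by rw [h1]

theorem Cfg.fixW_t' [Finite W] (h : Cfg p q r s ℓ a t R S) {w : W} (hw : a w = w) :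
    a (t⁻¹ w) = t⁻¹ w := by
  have hc : t * a * t⁻¹ ∈ Subgroup.zpowers a := h.nrm
  have h1 := h.zp_fix hc hw
  have e : a * t⁻¹ = t⁻¹ * (t * a * t⁻¹) := by group
  calc a (t⁻¹ w) = (a * t⁻¹) w := rfl
    _ = (t⁻¹ * (t * a * t⁻¹)) w := by rw [e]
    _ = t⁻¹ ((t * a * t⁻¹) w) := rfl
    _ = t⁻¹ w := by rw [h1]

/-- no nontrivial power of `a` commutes with `t` -/
theorem Cfg.E1 (h : Cfg p q r s ℓ a t R S) {c : LAut W} (hc : c ∈ Subgroup.zpowers a)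
    (hct : t * c * t⁻¹ = c) : c = 1 := by
  obtain ⟨i, rfl⟩ := Subgroup.mem_zpowers_iff.1 hc
  obtain ⟨n, hn⟩ := Subgroup.mem_zpowers_iff.1 h.gen
  obtain ⟨j, hj⟩ := Subgroup.mem_zpowers_iff.1 h.nrm
  have hd : t * a * t⁻¹ * a⁻¹ = a ^ (j - 1) := by
    rw [← hj, zpow_sub, zpow_one]
  have hdi : (t * a * t⁻¹ * a⁻¹) ^ i = 1 := by
    have e1 : (t * a * t⁻¹ * a⁻¹) ^ i = (t * a * t⁻¹) ^ i * (a⁻¹) ^ i := by
      have hcm : Commute (t * a * t⁻¹) a⁻¹ := by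
        rw [← hj]
        exact ((Commute.refl a).zpow_left j).inv_right
      exact hcm.mul_zpow i
    rw [e1, conj_zpow, hct, inv_zpow, mul_inv_cancel]
  rw [← hn, ← zpow_mul, mul_comm, zpow_mul, hdi, one_zpow]

theorem Cfg.zp_le_nz [Finite W] (_h : Cfg p q r s ℓ a t R S) (N : Subgroup (LAut W))
    (hN : ∀ x ∈ N, a * x * a⁻¹ ∈ N) : Subgroup.zpowers a ≤ Subgroup.normalizer (N : Set (LAut W)) := by
  rw [Subgroup.zpowers_le]
  exact mem_nz N a hN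

theorem Cfg.zp_stab [Finite W] (_h : Cfg p q r s ℓ a t R S) (U : AddSubgroup W)
    (hU : ∀ w ∈ U, a w ∈ U) : Subgroup.zpowers a ≤ stabU U := by
  rw [Subgroup.zpowers_le]
  intro w
  refine ⟨fun hw => ?_, hU w⟩
  -- `a` restricted to `U` is injective hence surjective
  have hinj : Function.Injective (fun u : U => (⟨a u, hU u u.2⟩ : U)) := by
    intro u u' huu
    have h1 : a (u : W) = a (u' : W) := congrArg Subtype.val huu
    exact Subtype.ext (a.injective h1)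
  obtain ⟨u, hu⟩ := Finite.surjective_of_injective hinj ⟨a w, hw⟩
  have h1 : a (u : W) = a w := congrArg Subtype.val hu
  have := a.injective h1
  rw [← this]; exact u.2

theorem stabU_of_maps [Finite W] (U : AddSubgroup W) (g : LAut W) (hg : ∀ w ∈ U, g w ∈ U) :
    g ∈ stabU U := by
  intro w
  refine ⟨fun hw => ?_, hg w⟩
  have hinj : Function.Injective (fun u : U => (⟨g u, hg u u.2⟩ : U)) := by
    intro u u' huu
    have h1 : g (u : W) = g (u' : W) := congrArg Subtype.val huu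
    exact Subtype.ext (g.injective h1)
  obtain ⟨u, hu⟩ := Finite.surjective_of_injective hinj ⟨g w, hw⟩
  have h1 : g (u : W) = g w := congrArg Subtype.val hu
  have := g.injective h1
  rw [← this]; exact u.2

end

end Cfsg.Agent.Lib.Helper63.Fpq
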