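import Mathlib
import Cfsg.Agent.Lib.Helper97.HHRed
import Cfsg.Agent.Lib.Helper63.S3Res

set_option autoImplicit false

namespace Cfsg.Agent.Lib.Helper63.Fpq

open Cfsg.Agent.Lib.Helper63.S3A

universe u

/-- the multiplicative automorphism of an additive automorphism -/
def toMulAut (U : Type*) [AddCommGroup U] : LAut U →* MulAut (Multiplicative U) where
  toFun e := AddEquiv.toMultiplicative e.toAddEquiv
  map_one' := by ext x; rfl
  map_mul' e e' := by ext x; rfl

theorem toMulAut_apply {U : Type*} [AddCommGroup U] (e : LAut U) (u : Multiplicative U) :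
    toMulAut U e u = Multiplicative.ofAdd (e (Multiplicative.toAdd u)) := rfl

theorem toMulAut_injective (U : Type*) [AddCommGroup U] : Function.Injective (toMulAut U) := by
  intro e e' h
  refine LinearEquiv.ext (fun u => ?_)
  have := congrArg (fun f : MulAut (Multiplicative U) =>
    Multiplicative.toAdd (f (Multiplicative.ofAdd u))) h
  exact this

/-- the Hall–Higman type reduction for additive automorphism groups -/
theorem hh_L {U : Type u} [AddCommGroup U] [Finite U] {ℓ r m : ℕ} (hℓ : ℓ.Prime) (hr : r.Prime)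
    (hm : m.Prime) (hℓr : ℓ ≠ r) (hℓm : ℓ ≠ m) (hrm : r ≠ m) (hexp : ∀ w : U, ℓ • w = 0)
    (x : LAut U) (hx : x ^ m = 1) (hfix : ∀ w : U, x w = w → w = 0)
    (P : Subgroup (LAut U)) (hP : IsPGroup r P) (hxP : ∀ g ∈ P, x * g * x⁻¹ ∈ P)
    (hexc : r = 2 → (∃ n : ℕ, m = 2 ^ n + 1) → ∀ g ∈ P, ∀ g' ∈ P, g * g' = g' * g) :
    ∀ g ∈ P, x * g * x⁻¹ = g := by
  have key := Cfsg.Agent.Lib.Helper97.HH.hh_aut hℓ hr hm hℓr hℓm hrm
    (Nat.card (Multiplicative U)) (Multiplicative U) rfl (toMulAut U x)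
    (by rw [← map_pow, hx, map_one])
    (fun u hu => by
      have h1 : x (Multiplicative.toAdd u) = Multiplicative.toAdd u :=
        congrArg Multiplicative.toAdd hu
      have h2 := hfix _ h1
      exact congrArg Multiplicative.ofAdd h2)
    (fun u => congrArg Multiplicative.ofAdd (hexp (Multiplicative.toAdd u)))
    (P.map (toMulAut U)) (hP.map _)
    (by
      rintro _ ⟨g, hg, rfl⟩
      exact ⟨x * g * x⁻¹, hxP g hg, by rw [map_mul, map_mul, map_inv]⟩)
    (by
      rintro h2 hF _ ⟨g, hg, rfl⟩ _ ⟨g', hg', rfl⟩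
      rw [← map_mul, ← map_mul, hexc h2 hF g hg g' hg'])
  intro g hg
  have h1 := key (toMulAut U g) ⟨g, hg, rfl⟩
  rw [← map_inv, ← map_mul, ← map_mul] at h1
  exact toMulAut_injective U h1

/-- the Hall–Higman type reduction on an invariant subgroup of the module -/
theorem hh_fix {W : Type u} [AddCommGroup W] [Finite W] {ℓ r m : ℕ} (hℓ : ℓ.Prime)
    (hr : r.Prime) (hm : m.Prime) (hℓr : ℓ ≠ r) (hℓm : ℓ ≠ m) (hrm : r ≠ m)
    (hexp : ∀ w : W, ℓ • w = 0) (U : AddSubgroup W) (x : LAut W) (hx : x ^ m = 1)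
    (hxU : x ∈ stabU U) (hfix : ∀ w ∈ U, x w = w → w = 0) (P : Subgroup (LAut W))
    (hP : IsPGroup r P) (hPU : P ≤ stabU U) (hxP : ∀ g ∈ P, x * g * x⁻¹ ∈ P)
    (hexc : r = 2 → (∃ n : ℕ, m = 2 ^ n + 1) → ∀ g ∈ P, ∀ g' ∈ P, ∀ w ∈ U,
      g (g' w) = g' (g w)) :
    ∀ g ∈ P, ∀ w ∈ U, x (g w) = g (x w) := by
  set xS : stabU U := ⟨x, hxU⟩ with hxS
  set PU : Subgroup (LAut U) := (P.subgroupOf (stabU U)).map (resHom U) with hPUdef
  have hmem : ∀ y ∈ PU, ∃ z : stabU U, (z : LAut W) ∈ P ∧ resHom U z = y := by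
    intro y hy
    obtain ⟨z, hz, rfl⟩ := Subgroup.mem_map.1 hy
    exact ⟨z, Subgroup.mem_subgroupOf.1 hz, rfl⟩
  have hmk : ∀ z : stabU U, (z : LAut W) ∈ P → resHom U z ∈ PU := by
    intro z hz
    exact Subgroup.mem_map.2 ⟨z, Subgroup.mem_subgroupOf.2 hz, rfl⟩
  have key := hh_L hℓ hr hm hℓr hℓm hrm (U := U) (fun w => Subtype.ext (hexp w))
    (resHom U xS)
    (by
      rw [← map_pow]
      have : xS ^ m = 1 := Subtype.ext hx
      rw [this, map_one])
    (fun w hw => by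
      have h1 : x (w : W) = w := congrArg Subtype.val hw
      exact Subtype.ext (hfix _ w.2 h1))
    PU ((hP.comap_subtype).map _)
    (by
      intro y hy
      obtain ⟨z, hz, rfl⟩ := hmem y hy
      have : resHom U xS * resHom U z * (resHom U xS)⁻¹ = resHom U (xS * z * xS⁻¹) := by
        rw [map_mul, map_mul, map_inv]
      rw [this]
      exact hmk _ (hxP _ hz))
    (by
      intro h2 hF y hy y' hy'
      obtain ⟨z, hz, rfl⟩ := hmem y hy
      obtain ⟨z', hz', rfl⟩ := hmem y' hy'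
      refine LinearEquiv.ext (fun w => Subtype.ext ?_)
      exact hexc h2 hF _ hz _ hz' w w.2)
  intro g hg w hw
  have h1 := key (resHom U ⟨g, hPU hg⟩) (hmk _ hg)
  have h2 : resHom U xS * resHom U ⟨g, hPU hg⟩ = resHom U ⟨g, hPU hg⟩ * resHom U xS := by
    calc resHom U xS * resHom U ⟨g, hPU hg⟩
        = (resHom U xS * resHom U ⟨g, hPU hg⟩ * (resHom U xS)⁻¹) * resHom U xS := by group
      _ = resHom U ⟨g, hPU hg⟩ * resHom U xS := by rw [h1]
  have h3 := congrArg (fun e : LAut U => ((e ⟨w, hw⟩ : U) : W)) h2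
  exact h3

end Cfsg.Agent.Lib.Helper63.Fpq
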