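import Mathlib
import Cfsg.Agent.S0009
import Cfsg.Agent.S0044
import Cfsg.Agent.Lib.Helper63.PLength
import Cfsg.Agent.Lib.Helper63.HallHigman
import Cfsg.Agent.Lib.Helper63.S3Mod

set_option autoImplicit false
open Cfsg

namespace Cfsg.Agent.Lib.Helper63.Fpq

open Cfsg.Agent.Lib.Helper63.S3A

/-- a finite solvable group in which the elements of prime power order centralize the cores
for the other primes is nilpotent -/
theorem nil_of_cores {H : Type*} [Group H] [Finite H] [Group.IsSolvable H]
    (hcore : ∀ r s : ℕ, r.Prime → s.Prime → r ≠ s → ∀ x ∈ pCore r H, ∀ u : H,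
      (∃ j : ℕ, u ^ s ^ j = 1) → x * u = u * x) : Group.IsNilpotent H := by
  classical
  have hFit : fittingSubgroup H = ⨆ q : Nat.Primes, pCore (q : ℕ) H := Cfsg.Agent.S0009.result
  have hFnil : Group.IsNilpotent (fittingSubgroup H) :=
    Cfsg.Agent.Lib.Helper71.fittingSubgroup_isNilpotent
  have hCF : Subgroup.centralizer (fittingSubgroup H : Set H) ≤ fittingSubgroup H :=
    Cfsg.Agent.S0044.result
  have hcoreN : ∀ q : ℕ, (pCore q H).Normal := fun q => by
    haveI := Cfsg.Agent.Lib.Helper63.pCore_characteristic' q H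
    exact Subgroup.normal_of_characteristic _
  have key : ∀ (s : ℕ), s.Prime → ∀ u : H, (∃ j : ℕ, u ^ s ^ j = 1) →
      u ∈ fittingSubgroup H := by
    intro s hs u hu
    obtain ⟨M, hM⟩ : ∃ M : Subgroup H,
        M = ⨆ (r : Nat.Primes) (_ : (r : ℕ) ≠ s), pCore (r : ℕ) H := ⟨_, rfl⟩
    haveI hMn : M.Normal := by
      rw [hM]
      haveI : ∀ r : Nat.Primes, (⨆ (_ : (r : ℕ) ≠ s), pCore (r : ℕ) H).Normal := fun r => by
        haveI : ∀ (_ : (r : ℕ) ≠ s), (pCore (r : ℕ) H).Normal := fun _ => hcoreN r
        infer_instance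
      infer_instance
    have hMle : ∀ r : Nat.Primes, (r : ℕ) ≠ s → pCore (r : ℕ) H ≤ M := by
      intro r hr
      rw [hM]
      exact le_iSup₂ (f := fun (r : Nat.Primes) (_ : (r : ℕ) ≠ s) => pCore (r : ℕ) H) r hr
    obtain ⟨T, hT⟩ : ∃ T : Subgroup H, T = Subgroup.centralizer (M : Set H) := ⟨_, rfl⟩
    haveI hTn : T.Normal := by rw [hT]; infer_instance
    have hTmem : ∀ g : H, g ∈ T ↔ ∀ m ∈ M, m * g = g * m := by
      intro g; rw [hT, Subgroup.mem_centralizer_iff]; rfl
    have huT : u ∈ T := by
      rw [hTmem]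
      have hle : M ≤ Subgroup.centralizer {u} := by
        rw [hM]
        refine iSup₂_le (fun r hr => ?_)
        intro x hx
        rw [Subgroup.mem_centralizer_iff]
        intro y hy
        rw [Set.mem_singleton_iff] at hy
        rw [hy]
        exact (hcore r s r.2 hs hr x hx u hu).symm
      intro m hm
      exact (Subgroup.mem_centralizer_iff.1 (hle hm) u rfl).symm
    have hTnil : Group.IsNilpotent T := by
      haveI : Fact s.Prime := ⟨hs⟩
      have hcard : ∃ e, Nat.card (↥T ⧸ Subgroup.center ↥T) = s ^ e := by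
        refine ⟨_, Nat.eq_prime_pow_of_unique_prime_dvd Nat.card_pos.ne' ?_⟩
        intro d hd hdvd
        by_contra hds
        haveI : Fact d.Prime := ⟨hd⟩
        obtain ⟨yb, hyb⟩ := exists_prime_orderOf_dvd_card' d hdvd
        obtain ⟨y, rfl⟩ := QuotientGroup.mk_surjective yb
        obtain ⟨k, hk⟩ : ∃ k : ℕ, k = (Nat.card H).factorization d := ⟨_, rfl⟩
        obtain ⟨m, hm⟩ : ∃ m : ℕ, m = Nat.card H / d ^ k := ⟨_, rfl⟩
        have hnm : d ^ k * m = Nat.card H := by
          rw [hm, hk]; exact Nat.ordProj_mul_ordCompl_eq_self (Nat.card H) d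
        have hdm : Nat.Coprime d m := by
          rw [hm, hk]; exact Nat.coprime_ordCompl hd Nat.card_pos.ne'
        have hy'd : ((y : H) ^ m) ^ d ^ k = 1 := by
          rw [← pow_mul, mul_comm, hnm]; exact pow_card_eq_one'
        have hy'T : (y : H) ^ m ∈ T := T.pow_mem y.2 m
        have hy'cent : (y : H) ^ m ∈ Subgroup.centralizer (fittingSubgroup H : Set H) := by
          have hle : fittingSubgroup H ≤ Subgroup.centralizer {(y : H) ^ m} := by
            rw [hFit]
            refine iSup_le (fun r => ?_)
            by_cases hr : (r : ℕ) = s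
            · intro x hx
              rw [Subgroup.mem_centralizer_iff]
              intro z hz
              rw [Set.mem_singleton_iff] at hz
              rw [hz]
              rw [hr] at hx
              exact (hcore s d hs hd (Ne.symm hds) x hx _ ⟨k, hy'd⟩).symm
            · intro x hx
              rw [Subgroup.mem_centralizer_iff]
              intro z hz
              rw [Set.mem_singleton_iff] at hz
              rw [hz]
              exact ((hTmem _).1 hy'T x (hMle r hr hx)).symm
          rw [Subgroup.mem_centralizer_iff]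
          intro f hf
          exact (Subgroup.mem_centralizer_iff.1 (hle hf) _ rfl).symm
        have hy'F : (y : H) ^ m ∈ fittingSubgroup H := hCF hy'cent
        have hy'M : (y : H) ^ m ∈ M := by
          have h1 : fittingSubgroup H ≤ pCore s H ⊔ M := by
            rw [hFit]
            refine iSup_le (fun r => ?_)
            by_cases hr : (r : ℕ) = s
            · rw [hr]; exact le_sup_left
            · exact (hMle r hr).trans le_sup_right
          obtain ⟨o, ho, m', hm', hom⟩ := Subgroup.mem_sup_of_normal_right.1 (h1 hy'F)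
          obtain ⟨j, hj⟩ := (Cfsg.Agent.Lib.Helper63.pCore_isPGroup' s H) ⟨o, ho⟩
          have hoj : o ^ s ^ j = 1 := congrArg Subtype.val hj
          have h2 : ((y : H) ^ m) ^ s ^ j ∈ M := by
            rw [← QuotientGroup.eq_one_iff, QuotientGroup.mk_pow, ← hom, QuotientGroup.mk_mul,
              (QuotientGroup.eq_one_iff m').2 hm', mul_one, ← QuotientGroup.mk_pow, hoj]
            rfl
          have hcop : Nat.Coprime (d ^ k) (s ^ j) :=
            Nat.Coprime.pow _ _ ((Nat.coprime_primes hd hs).2 hds)
          exact root_mem M _ (d ^ k) (s ^ j) hy'd hcop h2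
        have hy'c : y ^ m ∈ Subgroup.center ↥T := by
          rw [Subgroup.mem_center_iff]
          intro z
          apply Subtype.ext
          show (z : H) * (y : H) ^ m = (y : H) ^ m * z
          exact ((hTmem z).1 z.2 _ hy'M).symm
        have h3 : (QuotientGroup.mk y : ↥T ⧸ Subgroup.center ↥T) ^ m = 1 := by
          rw [← QuotientGroup.mk_pow]; exact (QuotientGroup.eq_one_iff _).2 hy'c
        have h4 : d ∣ m := by rw [← hyb]; exact orderOf_dvd_of_pow_eq_one h3
        exact (Nat.Prime.coprime_iff_not_dvd hd).1 hdm h4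
      obtain ⟨e, he⟩ := hcard
      haveI : Group.IsNilpotent (↥T ⧸ Subgroup.center ↥T) := (IsPGroup.of_card he).isNilpotent
      refine Subgroup.isNilpotent_of_ker_le_center (QuotientGroup.mk' (Subgroup.center ↥T)) ?_
      rw [QuotientGroup.ker_mk']
    exact (Cfsg.Agent.Lib.Helper71.le_fittingSubgroup T hTnil) huT
  have htop : fittingSubgroup H = ⊤ := by
    apply Cfsg.Agent.Lib.Helper30.eq_top_of_forall_sylow_le
    intro s hsf P x hx
    obtain ⟨j, hj⟩ := P.isPGroup' ⟨x, hx⟩
    exact key s hsf.out x ⟨j, congrArg Subtype.val hj⟩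
  haveI := hFnil
  exact Group.nilpotent_of_mulEquiv ((MulEquiv.subgroupCongr htop).trans Subgroup.topEquiv)

end Cfsg.Agent.Lib.Helper63.Fpq
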