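import Mathlib
import Cfsg.Agent.Lib.Helper63.S3Mod

set_option autoImplicit false

namespace Cfsg.Agent.Lib.Helper63.S3A

section AbModDef

variable {K : Type*} [Group K]

/-- a commutative subgroup, written additively -/
def AbMod (V : Subgroup K) (_h : ∀ x ∈ V, ∀ y ∈ V, x * y = y * x) : Type _ := Additive V

variable {V : Subgroup K} {h : ∀ x ∈ V, ∀ y ∈ V, x * y = y * x}

noncomputable instance AbMod.instAddCommGroup : AddCommGroup (AbMod V h) :=
  letI : CommGroup V := { (inferInstance : Group V) with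
    mul_comm := fun x y => Subtype.ext (h x x.2 y y.2) }
  (inferInstance : AddCommGroup (Additive V))

/-- the underlying group element -/
def AbMod.val (x : AbMod V h) : K := ((Additive.toMul (show Additive V from x) : V) : K)

/-- the module element of a member of the subgroup -/
def AbMod.mk (v : K) (hv : v ∈ V) : AbMod V h := (Additive.ofMul (⟨v, hv⟩ : V) : Additive V)

@[simp] theorem AbMod.val_mk (v : K) (hv : v ∈ V) : (AbMod.mk v hv : AbMod V h).val = v := rfl

theorem AbMod.val_mem (x : AbMod V h) : x.val ∈ V :=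
  (Additive.toMul (show Additive V from x)).2

theorem AbMod.ext {x y : AbMod V h} (hxy : x.val = y.val) : x = y := by
  have h1 : (Additive.toMul (show Additive V from x) : V) =
      Additive.toMul (show Additive V from y) := Subtype.ext hxy
  exact Additive.toMul.injective h1

@[simp] theorem AbMod.val_add (x y : AbMod V h) : (x + y).val = x.val * y.val := rfl

@[simp] theorem AbMod.val_zero : (0 : AbMod V h).val = 1 := rfl

@[simp] theorem AbMod.val_neg (x : AbMod V h) : (-x).val = (x.val)⁻¹ := rfl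

theorem AbMod.mk_val (x : AbMod V h) : AbMod.mk x.val x.val_mem = x := rfl

instance AbMod.instFinite [Finite V] : Finite (AbMod V h) :=
  (inferInstance : Finite (Additive V))

theorem AbMod.card : Nat.card (AbMod V h) = Nat.card V := rfl

/-- the automorphism of the module induced by a pair of mutually inverse multiplicative maps -/
noncomputable def AbMod.aut (f f' : K → K) (hf : ∀ v ∈ V, f v ∈ V) (hf' : ∀ v ∈ V, f' v ∈ V)
    (hmul : ∀ x ∈ V, ∀ y ∈ V, f (x * y) = f x * f y)
    (h1 : ∀ v ∈ V, f' (f v) = v) (h2 : ∀ v ∈ V, f (f' v) = v) : LAut (AbMod V h) :=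
  AddEquiv.toIntLinearEquiv
    { toFun := fun x => AbMod.mk (f x.val) (hf _ x.val_mem)
      invFun := fun x => AbMod.mk (f' x.val) (hf' _ x.val_mem)
      left_inv := fun x => AbMod.ext (h1 _ x.val_mem)
      right_inv := fun x => AbMod.ext (h2 _ x.val_mem)
      map_add' := fun x y => AbMod.ext (hmul _ x.val_mem _ y.val_mem) }

@[simp] theorem AbMod.aut_val (f f' : K → K) (hf : ∀ v ∈ V, f v ∈ V) (hf' : ∀ v ∈ V, f' v ∈ V)
    (hmul : ∀ x ∈ V, ∀ y ∈ V, f (x * y) = f x * f y)
    (h1 : ∀ v ∈ V, f' (f v) = v) (h2 : ∀ v ∈ V, f (f' v) = v) (x : AbMod V h) :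
    (AbMod.aut f f' hf hf' hmul h1 h2 x).val = f x.val := rfl

@[simp] theorem AbMod.aut_inv_val (f f' : K → K) (hf : ∀ v ∈ V, f v ∈ V)
    (hf' : ∀ v ∈ V, f' v ∈ V) (hmul : ∀ x ∈ V, ∀ y ∈ V, f (x * y) = f x * f y)
    (h1 : ∀ v ∈ V, f' (f v) = v) (h2 : ∀ v ∈ V, f (f' v) = v) (x : AbMod V h) :
    ((AbMod.aut f f' hf hf' hmul h1 h2)⁻¹ x).val = f' x.val := rfl

/-- conjugation by an element normalizing the subgroup -/
noncomputable def AbMod.conj [hn : V.Normal] (g : K) : LAut (AbMod V h) :=
  AbMod.aut (fun v => g * v * g⁻¹) (fun v => g⁻¹ * v * g) (fun v hv => hn.conj_mem v hv g)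
    (fun v hv => by
      have := hn.conj_mem v hv g⁻¹
      rwa [inv_inv] at this)
    (fun x _ y _ => by group) (fun v _ => by group) (fun v _ => by group)

@[simp] theorem AbMod.conj_val [hn : V.Normal] (g : K) (x : AbMod V h) :
    (AbMod.conj g x).val = g * x.val * g⁻¹ := rfl

theorem AbMod.conj_mul [hn : V.Normal] (g g' : K) :
    (AbMod.conj (g * g') : LAut (AbMod V h)) = AbMod.conj g * AbMod.conj g' := by
  refine LinearEquiv.ext (fun x => AbMod.ext ?_)
  show (g * g') * x.val * (g * g')⁻¹ = g * (g' * x.val * g'⁻¹) * g⁻¹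
  group

/-- the conjugation action as a homomorphism -/
noncomputable def AbMod.conjHom [hn : V.Normal] : K →* LAut (AbMod V h) :=
  MonoidHom.mk' AbMod.conj AbMod.conj_mul

@[simp] theorem AbMod.conjHom_val [hn : V.Normal] (g : K) (x : AbMod V h) :
    ((AbMod.conjHom (V := V) (h := h) g) x).val = g * x.val * g⁻¹ := rfl

end AbModDef

end Cfsg.Agent.Lib.Helper63.S3A
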