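import Mathlib
import Cfsg.Agent.Lib.Helper63.S3Res

set_option autoImplicit false
open scoped commutatorElement

namespace Cfsg.Agent.Lib.Helper63.S3A

universe u

/-- the statement of the abelian theorem for bounded size -/
def SAprop (n : ℕ) : Prop :=
  ∀ (W : Type u) [AddCommGroup W] [Finite W] (a t : LAut W) (q : ℕ) (Q : Subgroup (LAut W)),
    S3 a t → q.Prime → 5 ≤ q → IsPGroup q Q → (Nat.card W).Coprime (6 * q) →
    (∀ x ∈ Q, a * x * a⁻¹ ∈ Q) → (∀ x ∈ Q, t * x * t⁻¹ ∈ Q) →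
    (∀ x ∈ Q, a * x * a⁻¹ = x → t * x * t⁻¹ = x → x = 1) →
    Nat.card W + Nat.card Q ≤ n → ∀ x ∈ Q, ∀ y ∈ Q, x * y = y * x

theorem pgroup_coprime6 {K : Type*} [Group K] {q : ℕ} (hq : q.Prime) (h5 : 5 ≤ q)
    (H : Subgroup K) [Finite H] (hH : IsPGroup q H) : (Nat.card H).Coprime 6 := by
  haveI : Fact q.Prime := ⟨hq⟩
  obtain ⟨k, hk⟩ := hH.exists_card_eq
  rw [hk]
  exact Nat.Coprime.pow_left k (coprime6_of_prime q hq h5)

theorem pgroup_coprime {K : Type*} [Group K] {q : ℕ} (hq : q.Prime) (H : Subgroup K) [Finite H]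
    (hH : IsPGroup q H) (m : ℕ) (hm : m.Coprime q) : (Nat.card H).Coprime m := by
  haveI : Fact q.Prime := ⟨hq⟩
  obtain ⟨k, hk⟩ := hH.exists_card_eq
  rw [hk]
  exact Nat.Coprime.pow_left k hm.symm

/-- the inductive hypothesis, applied to an invariant proper submodule -/
theorem SA_res {n : ℕ} (ih : SAprop.{u} n) {W : Type u} [AddCommGroup W] [Finite W]
    {a t : LAut W} {q : ℕ} {Q : Subgroup (LAut W)} (h : S3 a t) (hq : q.Prime) (h5 : 5 ≤ q)
    (hQ : IsPGroup q Q) (hcop : (Nat.card W).Coprime (6 * q))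
    (hQa : ∀ x ∈ Q, a * x * a⁻¹ ∈ Q) (hQt : ∀ x ∈ Q, t * x * t⁻¹ ∈ Q)
    (hQfp : ∀ x ∈ Q, a * x * a⁻¹ = x → t * x * t⁻¹ = x → x = 1)
    (hn : Nat.card W + Nat.card Q ≤ n + 1)
    (U : AddSubgroup W) (hU : U ≠ ⊤) (hUQ : ∀ x ∈ Q, ∀ u ∈ U, x u ∈ U)
    (hUa : ∀ u ∈ U, a u ∈ U) (hUt : ∀ u ∈ U, t u ∈ U) :
    ∀ x ∈ Q, ∀ y ∈ Q, ∀ u ∈ U, x (y u) = y (x u) := by
  classical
  have hQS : Q ≤ stabU U := by
    intro x hx w
    refine ⟨fun hw => ?_, fun hw => hUQ x hx w hw⟩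
    have := hUQ x⁻¹ (Q.inv_mem hx) _ hw
    rwa [inv_app] at this
  have haS : a ∈ stabU U := by
    intro w
    refine ⟨fun hw => ?_, fun hw => hUa w hw⟩
    have := hUa _ (hUa _ hw)
    rwa [h.a3] at this
  have htS : t ∈ stabU U := by
    intro w
    refine ⟨fun hw => ?_, fun hw => hUt w hw⟩
    have := hUt _ hw
    rwa [h.t2] at this
  set aS : stabU U := ⟨a, haS⟩ with haS'
  set tS : stabU U := ⟨t, htS⟩ with htS'
  set aU : LAut U := resHom U aS with haU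
  set tU : LAut U := resHom U tS with htU
  have hS3U : S3 aU tU := by
    refine ⟨fun u => Subtype.ext (h.a3 u), fun u => Subtype.ext (h.t2 u),
      fun u => Subtype.ext (h.rel u), ?_⟩
    intro u hu1 hu2
    have h1 : a (u : W) = u := congrArg Subtype.val hu1
    have h2 : t (u : W) = u := congrArg Subtype.val hu2
    exact Subtype.ext (h.fp _ h1 h2)
  set QU : Subgroup (LAut U) := (Q.subgroupOf (stabU U)).map (resHom U) with hQU
  have hQUp : IsPGroup q QU := (hQ.comap_subtype).map _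
  have hcU : Nat.card U < Nat.card W := by
    rcases lt_or_eq_of_le (Nat.le_of_dvd Nat.card_pos (AddSubgroup.card_addSubgroup_dvd_card U)) with h1 | h1
    · exact h1
    · exact absurd (AddSubgroup.eq_top_of_card_eq U h1) hU
  have hcQ : Nat.card QU ≤ Nat.card Q := by
    have h1 : Nat.card QU ∣ Nat.card (Q.subgroupOf (stabU U)) := Subgroup.card_map_dvd _ _
    have h2 : Nat.card (Q.subgroupOf (stabU U)) = Nat.card Q :=
      Nat.card_congr (Subgroup.subgroupOfEquivOfLe hQS).toEquiv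
    rw [h2] at h1
    exact Nat.le_of_dvd Nat.card_pos h1
  have hcopU : (Nat.card U).Coprime (6 * q) :=
    Nat.Coprime.coprime_dvd_left (AddSubgroup.card_addSubgroup_dvd_card U) hcop
  have hmem : ∀ y ∈ QU, ∃ x : stabU U, (x : LAut W) ∈ Q ∧ resHom U x = y := by
    intro y hy
    obtain ⟨x, hx, rfl⟩ := Subgroup.mem_map.1 hy
    exact ⟨x, Subgroup.mem_subgroupOf.1 hx, rfl⟩
  have hmk : ∀ x : stabU U, (x : LAut W) ∈ Q → resHom U x ∈ QU := by
    intro x hx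
    exact Subgroup.mem_map.2 ⟨x, Subgroup.mem_subgroupOf.2 hx, rfl⟩
  have hQUa : ∀ y ∈ QU, aU * y * aU⁻¹ ∈ QU := by
    intro y hy
    obtain ⟨x, hx, rfl⟩ := hmem y hy
    have : aU * resHom U x * aU⁻¹ = resHom U (aS * x * aS⁻¹) := by
      rw [map_mul, map_mul, map_inv]
    rw [this]
    exact hmk _ (hQa _ hx)
  have hQUt : ∀ y ∈ QU, tU * y * tU⁻¹ ∈ QU := by
    intro y hy
    obtain ⟨x, hx, rfl⟩ := hmem y hy
    have : tU * resHom U x * tU⁻¹ = resHom U (tS * x * tS⁻¹) := by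
      rw [map_mul, map_mul, map_inv]
    rw [this]
    exact hmk _ (hQt _ hx)
  have hker : ∀ x : stabU U, resHom U x = 1 → (x : LAut W) ∈ fixer U := by
    intro x hx u hu
    have := congrArg (fun e : LAut U => ((e ⟨u, hu⟩ : U) : W)) hx
    exact this
  have hQUfp : ∀ y ∈ QU, aU * y * aU⁻¹ = y → tU * y * tU⁻¹ = y → y = 1 := by
    intro y hy hya hyt
    obtain ⟨x, hx, rfl⟩ := hmem y hy
    set N : Subgroup (LAut W) := Q ⊓ fixer U with hN
    haveI : Finite N := inferInstance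
    have hNp : IsPGroup q N := hQ.to_le inf_le_left
    have hNcop : (Nat.card N).Coprime 6 := pgroup_coprime6 hq h5 N hNp
    have hNa : ∀ k ∈ N, cj a k ∈ N := by
      intro k hk
      obtain ⟨hk1, hk2⟩ := Subgroup.mem_inf.1 hk
      refine Subgroup.mem_inf.2 ⟨hQa k hk1, ?_⟩
      intro u hu
      show a (k (a⁻¹ u)) = u
      have hu' : a⁻¹ u ∈ U := ((stabU U).inv_mem haS u).2 hu
      rw [hk2 _ hu', app_inv]
    have hNt : ∀ k ∈ N, cj t k ∈ N := by
      intro k hk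
      obtain ⟨hk1, hk2⟩ := Subgroup.mem_inf.1 hk
      refine Subgroup.mem_inf.2 ⟨hQt k hk1, ?_⟩
      intro u hu
      show t (k (t⁻¹ u)) = u
      have hu' : t⁻¹ u ∈ U := ((stabU U).inv_mem htS u).2 hu
      rw [hk2 _ hu', app_inv]
    have hxa : (x : LAut W)⁻¹ * cj a (x : LAut W) ∈ N := by
      refine Subgroup.mem_inf.2 ⟨Q.mul_mem (Q.inv_mem hx) (hQa _ hx), ?_⟩
      have e : resHom U (x⁻¹ * (aS * x * aS⁻¹)) = 1 := by
        rw [map_mul, map_inv, map_mul, map_mul, map_inv]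
        rw [← haU, hya]; group
      exact hker _ e
    have hxt : (x : LAut W)⁻¹ * cj t (x : LAut W) ∈ N := by
      refine Subgroup.mem_inf.2 ⟨Q.mul_mem (Q.inv_mem hx) (hQt _ hx), ?_⟩
      have e : resHom U (x⁻¹ * (tS * x * tS⁻¹)) = 1 := by
        rw [map_mul, map_inv, map_mul, map_mul, map_inv]
        rw [← htU, hyt]; group
      exact hker _ e
    obtain ⟨k, hk, hk1, hk2⟩ := fp_coset_S3 (rel_conj h) N hNcop hNa hNt (x : LAut W) hxa hxt
    obtain ⟨hkQ, hkU⟩ := Subgroup.mem_inf.1 hk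
    have hxk : (x : LAut W) * k = 1 := hQfp _ (Q.mul_mem hx hkQ) hk1 hk2
    have hxU : (x : LAut W) ∈ fixer U := by
      have : (x : LAut W) = k⁻¹ := eq_inv_of_mul_eq_one_left hxk
      rw [this]; exact (fixer U).inv_mem hkU
    ext u
    exact hxU u u.2
  have hcard : Nat.card U + Nat.card QU ≤ n := by omega
  have hcomm := ih U aU tU q QU hS3U hq h5 hQUp hcopU hQUa hQUt hQUfp hcard
  intro x hx y hy u hu
  have h1 := hcomm _ (hmk ⟨x, hQS hx⟩ hx) _ (hmk ⟨y, hQS hy⟩ hy)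
  have h2 := congrArg (fun e : LAut U => ((e ⟨u, hu⟩ : U) : W)) h1
  exact h2

section Main

variable {W : Type u} [AddCommGroup W] [Finite W] {a t : LAut W} {q : ℕ}
  {Q : Subgroup (LAut W)} (h : S3 a t) (hq : q.Prime) (h5 : 5 ≤ q) (hQ : IsPGroup q Q)
  (hcop : (Nat.card W).Coprime (6 * q))
  (hQa : ∀ x ∈ Q, a * x * a⁻¹ ∈ Q) (hQt : ∀ x ∈ Q, t * x * t⁻¹ ∈ Q)
  (hQfp : ∀ x ∈ Q, a * x * a⁻¹ = x → t * x * t⁻¹ = x → x = 1)

include hq hQ hcop in
theorem sub_coprime (H : Subgroup (LAut W)) (hH : H ≤ Q) :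
    (Nat.card H).Coprime (Nat.card W) := by
  have hWq : (Nat.card W).Coprime q := Nat.Coprime.coprime_dvd_right (Dvd.intro_left 6 rfl) hcop
  exact pgroup_coprime hq H (hQ.to_le hH) _ hWq

include h hq h5 hQ hcop hQa hQt hQfp in
/-- In a minimal non-abelian configuration, nontrivial invariant normal subgroups have no
fixed vectors. -/
theorem SA_fixfree {n : ℕ} (ih : SAprop.{u} n) (hn : Nat.card W + Nat.card Q ≤ n + 1)
    (hnc : ¬ ∀ x ∈ Q, ∀ y ∈ Q, x * y = y * x)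
    (Z₀ : Subgroup (LAut W)) (hZQ : Z₀ ≤ Q) (hZn : ∀ x ∈ Q, ∀ z ∈ Z₀, x * z * x⁻¹ ∈ Z₀)
    (hZa : ∀ z ∈ Z₀, a * z * a⁻¹ ∈ Z₀) (hZt : ∀ z ∈ Z₀, t * z * t⁻¹ ∈ Z₀) (hZ1 : Z₀ ≠ ⊥) :
    ∀ w, (∀ z ∈ Z₀, z w = w) → w = 0 := by
  classical
  intro w₀ hw₀
  by_contra hw₀ne
  apply hnc
  letI : Fintype Z₀ := Fintype.ofFinite Z₀
  set n₀ := Fintype.card Z₀ with hn₀
  have hn₀cop : n₀.Coprime (Nat.card W) := by
    rw [hn₀, ← Nat.card_eq_fintype_card]
    exact sub_coprime hq hQ hcop Z₀ hZQ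
  let U₁ : AddSubgroup W :=
    { carrier := {w | ∀ z ∈ Z₀, z w = w}
      add_mem' := by
        intro x y hx hy z hz
        rw [map_add, hx z hz, hy z hz]
      zero_mem' := fun z _ => map_zero z
      neg_mem' := by
        intro x hx z hz
        rw [map_neg, hx z hz] }
  let U₂ : AddSubgroup W :=
    { carrier := {w | tr Z₀ w = 0}
      add_mem' := by
        intro x y hx hy
        show tr Z₀ (x + y) = 0
        rw [map_add, show tr Z₀ x = 0 from hx, show tr Z₀ y = 0 from hy, add_zero]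
      zero_mem' := map_zero _
      neg_mem' := by
        intro x hx
        show tr Z₀ (-x) = 0
        rw [map_neg, show tr Z₀ x = 0 from hx, neg_zero] }
  have hU₁g : ∀ g : LAut W, (∀ z ∈ Z₀, g * z * g⁻¹ ∈ Z₀) → ∀ u ∈ U₁, g u ∈ U₁ := by
    intro g hg u hu z hz
    have hg' := norm_inv Z₀ g hg
    have e : z * g = g * (g⁻¹ * z * g) := by group
    calc z (g u) = (z * g) u := rfl
      _ = (g * (g⁻¹ * z * g)) u := by rw [e]
      _ = g ((g⁻¹ * z * g) u) := rfl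
      _ = g u := by rw [hu _ (hg' z hz)]
  have hU₂g : ∀ g : LAut W, (∀ z ∈ Z₀, g * z * g⁻¹ ∈ Z₀) → ∀ u ∈ U₂, g u ∈ U₂ := by
    intro g hg u hu
    show tr Z₀ (g u) = 0
    rw [← tr_conj Z₀ g hg, show tr Z₀ u = 0 from hu, map_zero]
  have hU₁ne : U₁ ≠ ⊤ := by
    intro htop
    apply hZ1
    rw [Subgroup.eq_bot_iff_forall]
    intro z hz
    ext w
    have : w ∈ U₁ := by rw [htop]; trivial
    exact this z hz
  have hU₂ne : U₂ ≠ ⊤ := by
    intro htop
    have : w₀ ∈ U₂ := by rw [htop]; trivial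
    have h1 : tr Z₀ w₀ = 0 := this
    rw [tr_of_fix Z₀ w₀ hw₀] at h1
    exact hw₀ne (eq_zero_of_nsmul n₀ hn₀cop w₀ h1)
  have hc1 := SA_res ih h hq h5 hQ hcop hQa hQt hQfp hn U₁ hU₁ne
    (fun x hx => hU₁g x (hZn x hx)) (hU₁g a hZa) (hU₁g t hZt)
  have hc2 := SA_res ih h hq h5 hQ hcop hQa hQt hQfp hn U₂ hU₂ne
    (fun x hx => hU₂g x (hZn x hx)) (hU₂g a hZa) (hU₂g t hZt)
  obtain ⟨k, hk⟩ := exists_zsmul (W := W) n₀ hn₀cop
  intro x hx y hy
  ext w
  have hu₁ : k • tr Z₀ w ∈ U₁ := by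
    intro z hz
    rw [map_zsmul, tr_fix Z₀ w z hz]
  have hu₂ : w - k • tr Z₀ w ∈ U₂ := by
    show tr Z₀ (w - k • tr Z₀ w) = 0
    rw [map_sub, map_zsmul, tr_of_fix Z₀ (tr Z₀ w) (fun z hz => tr_fix Z₀ w z hz), hk, sub_self]
  have e : w = k • tr Z₀ w + (w - k • tr Z₀ w) := by abel
  show x (y w) = y (x w)
  rw [e, map_add, map_add, map_add, map_add, hc1 x hx y hy _ hu₁, hc2 x hx y hy _ hu₂]

include h in
/-- if the element of order three has no fixed vectors, it has fixed points on every invariant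
group of coprime order -/
theorem no_fpf3 (hafp : ∀ w, a w = w → w = 0) (Y : Subgroup (LAut W))
    (hYa : ∀ y ∈ Y, a * y * a⁻¹ ∈ Y) (hYfp : ∀ y ∈ Y, a * y * a⁻¹ = y → y = 1)
    (hYcop : (Nat.card Y).Coprime (Nat.card W)) : ∀ y ∈ Y, y = 1 := by
  classical
  letI : Fintype Y := Fintype.ofFinite Y
  set n₀ := Fintype.card Y with hn₀
  have hn₀cop : n₀.Coprime (Nat.card W) := by
    rw [hn₀, ← Nat.card_eq_fintype_card]; exact hYcop
  have ha3 : a * a * a = 1 := by ext w; simp [h.a3]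
  have hN3 : ∀ w, w + a w + a (a w) = 0 := by
    intro w
    apply hafp
    rw [map_add, map_add, h.a3]; abel
  have htr : ∀ w, tr Y w = n₀ • w := by
    intro w
    have key : ∑ y : Y, (y : LAut W) ((y : LAut W)⁻¹ w + a ((y : LAut W)⁻¹ w)
        + a (a ((y : LAut W)⁻¹ w))) = 0 :=
      Finset.sum_eq_zero (fun y _ => by rw [hN3, map_zero])
    simp only [map_add, Finset.sum_add_distrib] at key
    have e1 : ∑ y : Y, (y : LAut W) ((y : LAut W)⁻¹ w) = n₀ • w := by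
      simp [Finset.sum_const, Finset.card_univ, hn₀]
    have e2 := sc_sum Y a w
    have e3 : sc Y (a * a) (a (a w)) = ∑ y : Y, (y : LAut W) (a (a ((y : LAut W)⁻¹ w))) :=
      sc_sum Y (a * a) w
    rw [e1, ← e2, ← e3] at key
    have f2 : sc Y a (a w) = tr Y (a w) := sc_eq_tr Y a hYa hYfp _
    have f3 : sc Y (a * a) (a (a w)) = tr Y (a (a w)) := by
      refine sc_eq_tr Y (a * a) ?_ ?_ _
      · intro z hz
        have : a * a * z * (a * a)⁻¹ = a * (a * z * a⁻¹) * a⁻¹ := by group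
        rw [this]; exact hYa _ (hYa z hz)
      · intro z hz hzz
        apply hYfp z hz
        have e : a * z * a⁻¹ = (a * a) * ((a * a) * z * (a * a)⁻¹) * (a * a)⁻¹ := by
          calc a * z * a⁻¹ = (a * a * a) * (a * z * a⁻¹) * (a * a * a)⁻¹ := by rw [ha3]; group
            _ = (a * a) * ((a * a) * z * (a * a)⁻¹) * (a * a)⁻¹ := by group
        rw [e, hzz, hzz]
    rw [f2, f3, add_assoc, ← map_add] at key
    have e4 : a w + a (a w) = -w := by
      have := hN3 w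
      rw [add_assoc] at this
      exact (neg_eq_of_add_eq_zero_right this).symm
    rw [e4, map_neg] at key
    have key2 := key
    rw [← sub_eq_add_neg, sub_eq_zero] at key2
    exact key2.symm
  intro y hy
  ext w
  have h1 : y (n₀ • w) = n₀ • w := by
    rw [← htr w]; exact tr_fix Y w y hy
  rw [map_nsmul] at h1
  have h2 : n₀ • (y w - w) = 0 := by rw [smul_sub, h1, sub_self]
  have h3 := eq_zero_of_nsmul n₀ hn₀cop _ h2
  exact sub_eq_zero.1 h3

include h hq hQ hcop in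
/-- commutative invariant subgroups are centralized by the element of order three when it has
no fixed vectors -/
theorem ab_inv_cent (h5 : 5 ≤ q) (hafp : ∀ w, a w = w → w = 0) (A : Subgroup (LAut W)) (hAQ : A ≤ Q)
    (hAc : ∀ x ∈ A, ∀ y ∈ A, x * y = y * x) (hAa : ∀ y ∈ A, a * y * a⁻¹ ∈ A) :
    ∀ g ∈ A, a * g * a⁻¹ = g := by
  classical
  have ha3 : a * a * a = 1 := by ext w; simp [h.a3]
  let φ : A →* LAut W :=
    { toFun := fun g => (g : LAut W)⁻¹ * (a * g * a⁻¹)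
      map_one' := by simp
      map_mul' := by
        intro g g'
        have c := hAc _ (A.inv_mem g'.2) _ (A.mul_mem (A.inv_mem g.2) (hAa g g.2))
        show ((g : LAut W) * (g' : LAut W))⁻¹ * (a * ((g : LAut W) * (g' : LAut W)) * a⁻¹) =
          (g : LAut W)⁻¹ * (a * g * a⁻¹) * ((g' : LAut W)⁻¹ * (a * g' * a⁻¹))
        calc ((g : LAut W) * (g' : LAut W))⁻¹ * (a * ((g : LAut W) * (g' : LAut W)) * a⁻¹)
            = ((g' : LAut W)⁻¹ * ((g : LAut W)⁻¹ * (a * g * a⁻¹))) * (a * g' * a⁻¹) := by group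
          _ = (((g : LAut W)⁻¹ * (a * g * a⁻¹)) * (g' : LAut W)⁻¹) * (a * g' * a⁻¹) := by rw [c]
          _ = (g : LAut W)⁻¹ * (a * g * a⁻¹) * ((g' : LAut W)⁻¹ * (a * g' * a⁻¹)) := by group }
  have hφ : ∀ g : A, φ g = (g : LAut W)⁻¹ * (a * g * a⁻¹) := fun g => rfl
  set Y : Subgroup (LAut W) := φ.range with hY
  have hYA : Y ≤ A := by
    rintro _ ⟨g, rfl⟩
    rw [hφ]
    exact A.mul_mem (A.inv_mem g.2) (hAa g g.2)
  have hYa : ∀ y ∈ Y, a * y * a⁻¹ ∈ Y := by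
    rintro _ ⟨g, rfl⟩
    refine ⟨⟨a * g * a⁻¹, hAa g g.2⟩, ?_⟩
    rw [hφ, hφ]
    show (a * (g : LAut W) * a⁻¹)⁻¹ * (a * (a * (g : LAut W) * a⁻¹) * a⁻¹) = _
    group
  have hYfp : ∀ y ∈ Y, a * y * a⁻¹ = y → y = 1 := by
    rintro _ ⟨g, rfl⟩ hfix
    rw [hφ] at hfix ⊢
    set y := (g : LAut W)⁻¹ * (a * g * a⁻¹) with hy
    have hN : y * (a * y * a⁻¹) * (a * (a * y * a⁻¹) * a⁻¹) = 1 := by
      rw [hy]
      calc (g : LAut W)⁻¹ * (a * g * a⁻¹) * (a * ((g : LAut W)⁻¹ * (a * g * a⁻¹)) * a⁻¹) *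
            (a * (a * ((g : LAut W)⁻¹ * (a * g * a⁻¹)) * a⁻¹) * a⁻¹)
          = (g : LAut W)⁻¹ * ((a * a * a) * g * (a * a * a)⁻¹) := by group
        _ = 1 := by rw [ha3]; group
    rw [hfix, hfix] at hN
    have hyQ : y ∈ Q := hAQ (hYA ⟨g, rfl⟩)
    obtain ⟨k, hk⟩ := (hQ.to_le (le_refl Q)) ⟨y, hyQ⟩
    have hk' : y ^ (q ^ k) = 1 := congrArg Subtype.val hk
    have hc3 : (q ^ k).Coprime 3 := by
      apply Nat.Coprime.pow_left
      rw [Nat.coprime_primes hq Nat.prime_three]; omega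
    have hy3 : y ^ 3 ∈ (⊥ : Subgroup (LAut W)) := by
      rw [Subgroup.mem_bot, pow_succ, pow_two]; exact hN
    exact Subgroup.mem_bot.1 (root_mem ⊥ y _ 3 hk' hc3 hy3)
  have hY1 := no_fpf3 h hafp Y hYa hYfp (sub_coprime hq hQ hcop Y (hYA.trans hAQ))
  intro g hg
  have := hY1 _ ⟨⟨g, hg⟩, rfl⟩
  rw [hφ] at this
  exact (inv_mul_eq_one.1 this).symm

end Main

end Cfsg.Agent.Lib.Helper63.S3A
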