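import Mathlib
import Cfsg.Agent.Lib.Helper63.S3SA
import Cfsg.Agent.Lib.Helper63.S3Dec

set_option autoImplicit false

namespace Cfsg.Agent.Lib.Helper63.S3A

universe u

section CaseB

variable {W : Type u} [AddCommGroup W] [Finite W] {a t : LAut W} {q : ℕ}
  {Q : Subgroup (LAut W)}

omit [Finite W] in
/-- commuting on a submodule transfers to a translate of it -/
theorem comm_translate (U : AddSubgroup W) (b : LAut W) (hb : ∀ g ∈ Q, b⁻¹ * g * b ∈ Q)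
    (hc : ∀ g ∈ Q, ∀ k ∈ Q, ∀ m ∈ U, g (k m) = k (g m)) :
    ∀ g ∈ Q, ∀ k ∈ Q, ∀ m ∈ U, g (k (b m)) = k (g (b m)) := by
  intro g hg k hk m hm
  have e1 : ∀ (g' : LAut W) (w : W), g' (b w) = b ((b⁻¹ * g' * b) w) := by
    intro g' w
    show g' (b w) = b (b⁻¹ (g' (b w)))
    rw [app_inv]
  rw [e1 k m, e1 g, e1 g m, e1 k, hc _ (hb g hg) _ (hb k hk) m hm]

/-- a group identity used below -/
theorem s1_identity {K : Type*} [Group K] (x x' y' y'' : K)
    (hA : (x * y') * (x' * y'') = (x' * y'') * (x * y'))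
    (c1 : x * x' = x' * x) (c2 : y' * y'' = y'' * y')
    (c3 : x * (y' * x' * y'⁻¹) = (y' * x' * y'⁻¹) * x)
    (c4 : x' * (y'' * x * y''⁻¹) = (y'' * x * y''⁻¹) * x') :
    y' * x' * y'⁻¹ * x'⁻¹ = y'' * x * y''⁻¹ * x⁻¹ := by
  have c1' : x'⁻¹ * x = x * x'⁻¹ := by
    calc x'⁻¹ * x = x'⁻¹ * (x * x') * x'⁻¹ := by group
      _ = x'⁻¹ * (x' * x) * x'⁻¹ := by rw [c1]
      _ = x * x'⁻¹ := by group
  have hL : (y' * x' * y'⁻¹ * x'⁻¹) * (x * x' * y' * y'') = x * y' * (x' * y'') := by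
    calc (y' * x' * y'⁻¹ * x'⁻¹) * (x * x' * y' * y'')
        = (y' * x' * y'⁻¹) * (x'⁻¹ * x) * x' * y' * y'' := by group
      _ = (y' * x' * y'⁻¹) * (x * x'⁻¹) * x' * y' * y'' := by rw [c1']
      _ = ((y' * x' * y'⁻¹) * x) * y' * y'' := by group
      _ = (x * (y' * x' * y'⁻¹)) * y' * y'' := by rw [← c3]
      _ = x * y' * (x' * y'') := by group
  have hR : (y'' * x * y''⁻¹ * x⁻¹) * (x * x' * y' * y'') = x' * y'' * (x * y') := by
    calc (y'' * x * y''⁻¹ * x⁻¹) * (x * x' * y' * y'')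
        = ((y'' * x * y''⁻¹) * x') * (y' * y'') := by group
      _ = (x' * (y'' * x * y''⁻¹)) * (y'' * y') := by rw [← c4, c2]
      _ = x' * y'' * (x * y') := by group
  have hA' : x * y' * (x' * y'') = x' * y'' * (x * y') := hA
  exact mul_right_cancel (hL.trans (hA'.trans hR.symm))

/-- The case where the element of order three acts without fixed points on a central
subgroup having no fixed vectors. -/
theorem SA_caseB (h : S3 a t) (hq : q.Prime) (h5 : 5 ≤ q) (hQ : IsPGroup q Q)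
    (hcop : (Nat.card W).Coprime (6 * q))
    (hQa : ∀ x ∈ Q, a * x * a⁻¹ ∈ Q) (hQt : ∀ x ∈ Q, t * x * t⁻¹ ∈ Q)
    (hQfp : ∀ x ∈ Q, a * x * a⁻¹ = x → t * x * t⁻¹ = x → x = 1)
    (Z : Subgroup (LAut W)) (hZQ : Z ≤ Q) (hZcent : ∀ z ∈ Z, ∀ x ∈ Q, z * x = x * z)
    (hZa : ∀ z ∈ Z, a * z * a⁻¹ ∈ Z) (hZt : ∀ z ∈ Z, t * z * t⁻¹ ∈ Z)
    (hZfa : ∀ z ∈ Z, a * z * a⁻¹ = z → z = 1)
    (hZfix : ∀ w, (∀ z ∈ Z, z w = w) → w = 0) :
    ∀ x ∈ Q, ∀ y ∈ Q, x * y = y * x := by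
  classical
  letI : Fintype Z := Fintype.ofFinite Z
  have htr : ∀ w, tr Z w = 0 := fun w => hZfix _ (fun z hz => tr_fix Z w z hz)
  have hZc : ∀ x ∈ Z, ∀ y ∈ Z, x * y = y * x := fun x hx y hy => hZcent x hx y (hZQ hy)
  have hcopZ : (Fintype.card Z).Coprime (Nat.card W) := by
    rw [← Nat.card_eq_fintype_card]; exact sub_coprime hq hQ hcop Z hZQ
  have hcop3 : (Fintype.card Z).Coprime 3 := by
    rw [← Nat.card_eq_fintype_card]
    exact pgroup_coprime hq Z (hQ.to_le hZQ) 3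
      (by rw [Nat.coprime_primes Nat.prime_three hq]; omega)
  obtain ⟨W₁, hmem, D1, D2, D3, -, -, -⟩ := dec h Z hZc hZa hZt hZfa hcopZ hcop3
  have hQa' := norm_inv Q a hQa
  -- Q preserves W₁
  have hQW : ∀ x ∈ Q, ∀ m ∈ W₁, x m ∈ W₁ := by
    intro x hx m hm
    refine (hmem _).2 ⟨fun z hz => ?_, htr _⟩
    have he : z * t * z⁻¹ * t⁻¹ ∈ Z := by
      have : z * t * z⁻¹ * t⁻¹ = z * (t * z⁻¹ * t⁻¹) := by group
      rw [this]; exact Z.mul_mem hz (hZt _ (Z.inv_mem hz))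
    have e := hZcent _ he x hx
    calc (z * t * z⁻¹ * t⁻¹) (x m) = ((z * t * z⁻¹ * t⁻¹) * x) m := rfl
      _ = (x * (z * t * z⁻¹ * t⁻¹)) m := by rw [e]
      _ = x ((z * t * z⁻¹ * t⁻¹) m) := rfl
      _ = x m := by rw [((hmem m).1 hm).1 z hz]
  -- twisted commutators with t fix W₁
  have hfixt : ∀ x ∈ Q, x⁻¹ * (t * x * t⁻¹) ∈ fixer W₁ := by
    intro x hx m hm
    show x⁻¹ (t (x (t⁻¹ m))) = m
    rw [h.tinv_app, D2 m hm, map_neg, map_neg, D2 _ (hQW x hx m hm), neg_neg, inv_app]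
  have hQS : Q ≤ stabU W₁ := by
    intro x hx w
    refine ⟨fun hw => ?_, fun hw => hQW x hx w hw⟩
    have := hQW x⁻¹ (Q.inv_mem hx) _ hw
    rwa [inv_app] at this
  -- a has no fixed points on Q
  have hCa : ∀ g ∈ Q, a * g * a⁻¹ = g → g = 1 := by
    intro g hg hga
    have hga' : a * g = g * a := by
      calc a * g = (a * g * a⁻¹) * a := by group
        _ = g * a := by rw [hga]
    set C : Subgroup (LAut W) := Q ⊓ Subgroup.centralizer {a} with hC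
    have hCmem : ∀ k, k ∈ C ↔ k ∈ Q ∧ a * k = k * a := by
      intro k
      rw [hC, Subgroup.mem_inf, Subgroup.mem_centralizer_iff]
      simp
    have hCt : ∀ k ∈ C, cj t k ∈ C := by
      intro k hk
      obtain ⟨hkQ, hka⟩ := (hCmem k).1 hk
      refine (hCmem _).2 ⟨hQt k hkQ, ?_⟩
      show a * (t * k * t⁻¹) = (t * k * t⁻¹) * a
      rw [h.tinv]
      calc a * (t * k * t) = (a * t) * k * t := by group
        _ = (t * a * a) * k * t := by rw [h.at]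
        _ = t * a * (a * k) * t := by group
        _ = t * a * (k * a) * t := by rw [hka]
        _ = t * (a * k) * a * t := by group
        _ = t * (k * a) * a * t := by rw [hka]
        _ = t * k * (a * a * t) := by group
        _ = t * k * (t * a) := by rw [← h.ta]
        _ = t * k * t * a := by group
    have hCfp : ∀ k ∈ C, cj t k = k → k = 1 := by
      intro k hk hkt
      obtain ⟨hkQ, hka⟩ := (hCmem k).1 hk
      refine hQfp k hkQ ?_ hkt
      rw [hka]; group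
    have hCinv := inv_of_fpf (cj t) (fun x => (rel_conj h).h2 x) C hCt hCfp
    have hgC : g ∈ C := (hCmem g).2 ⟨hg, hga'⟩
    have hgt : t * g * t⁻¹ = g⁻¹ := hCinv g hgC
    obtain ⟨k, hk⟩ := hQ ⟨g, hg⟩
    have hk' : g ^ (q ^ k) = 1 := congrArg Subtype.val hk
    have hodd : (q ^ k).Coprime 2 := by
      apply Nat.Coprime.pow_left
      rw [Nat.coprime_primes hq Nat.prime_two]; omega
    have hfix := fix_of_inverted h g hga' hgt (q ^ k) hk' hodd
    have pga : ∀ w, g (a w) = a (g w) :=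
      fun w => (congrArg (fun e : LAut W => e w) hga').symm
    have hg1 : ∀ m ∈ W₁, g m = m := by
      intro m hm
      have hN : a (m + a m + a (a m)) = m + a m + a (a m) := by
        rw [map_add, map_add, h.a3]; abel
      have e := hfix _ hN
      rw [map_add, map_add, pga, pga, pga] at e
      have hd : g m - m ∈ W₁ := W₁.sub_mem (hQW g hg m hm) hm
      have e2 : (g m - m) + a (g m - m) + a (a (g m - m)) = 0 := by
        simp only [map_sub]
        rw [← sub_eq_zero] at e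
        rw [← e]; abel
      exact sub_eq_zero.1 (D3 _ hd _ hd _ hd e2).1
    ext w
    obtain ⟨u, hu, v, hv, w', hw', rfl⟩ := D1 w (htr w)
    show g (u + a v + a (a w')) = u + a v + a (a w')
    rw [map_add, map_add, pga, pga, pga, hg1 u hu, hg1 v hv, hg1 w' hw']
  have h3 : ∀ x, cj a (cj a (cj a x)) = x := (rel_conj h).h3
  have T1 := three_comm1 (cj a) h3 Q hQa hCa
  have T2 := three_comm2 (cj a) h3 Q hQa hCa
  have T3 := three_comm3 (cj a) h3 Q hQa hCa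
  have TN := three_norm (cj a) h3 Q hQa hCa
  set ρ := resHom W₁ with hρ
  have hρeq : ∀ (g g' : stabU W₁), (g : LAut W)⁻¹ * (g' : LAut W) ∈ fixer W₁ → ρ g = ρ g' := by
    intro g g' hgg
    refine LinearEquiv.ext (fun m => Subtype.ext ?_)
    show (g : LAut W) (m : W) = (g' : LAut W) (m : W)
    have hm' : (g' : LAut W) (m : W) ∈ W₁ := (g'.2 _).2 m.2
    have e : (g : LAut W)⁻¹ ((g' : LAut W) (m : W)) = m := hgg _ m.2
    calc (g : LAut W) (m : W) = (g : LAut W) ((g : LAut W)⁻¹ ((g' : LAut W) (m : W))) := by rw [e]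
      _ = (g' : LAut W) (m : W) := app_inv _ _
  have key : ∀ x ∈ Q, ∀ y ∈ Q, t * x * t⁻¹ = x → t * y * t⁻¹ = y →
      ∀ (hxS : x ∈ stabU W₁) (hyS : y ∈ stabU W₁),
        ρ ⟨x, hxS⟩ * ρ ⟨y, hyS⟩ = ρ ⟨y, hyS⟩ * ρ ⟨x, hxS⟩ := by
    intro x hx y hy hxt hyt hxS hyS
    have hconj : ∀ x₀ : LAut W, t * x₀ * t⁻¹ = x₀ →
        t * (a * x₀ * a⁻¹) * t⁻¹ = a * (a * x₀ * a⁻¹) * a⁻¹ := by
      intro x₀ hx₀
      calc t * (a * x₀ * a⁻¹) * t⁻¹ = (t * a) * x₀ * (t * a)⁻¹ := by group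
        _ = (a * a * t) * x₀ * (a * a * t)⁻¹ := by rw [h.ta]
        _ = a * (a * (t * x₀ * t⁻¹) * a⁻¹) * a⁻¹ := by group
        _ = a * (a * x₀ * a⁻¹) * a⁻¹ := by rw [hx₀]
    have hx'Q : a * x * a⁻¹ ∈ Q := hQa x hx
    have hx''Q : a * (a * x * a⁻¹) * a⁻¹ ∈ Q := hQa _ hx'Q
    have hy'Q : a * y * a⁻¹ ∈ Q := hQa y hy
    have hy''Q : a * (a * y * a⁻¹) * a⁻¹ ∈ Q := hQa _ hy'Q
    have htx' := hconj x hxt
    have hty' := hconj y hyt
    have hax'' : a * (a * (a * x * a⁻¹) * a⁻¹) * a⁻¹ = x := h3 x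
    have hS1 := s1_identity x (a * x * a⁻¹) (a * y * a⁻¹) (a * (a * y * a⁻¹) * a⁻¹)
      (by
        have := T1 (x * (a * y * a⁻¹)) (Q.mul_mem hx hy'Q)
        have e : cj a (x * (a * y * a⁻¹)) = (a * x * a⁻¹) * (a * (a * y * a⁻¹) * a⁻¹) := by
          show a * (x * (a * y * a⁻¹)) * a⁻¹ = _
          group
        rw [e] at this
        exact this)
      (T1 x hx) (T1 _ hy'Q) (T2 x hx _ hy'Q)
      (by
        have := T3 _ hx'Q _ hy''Q
        have e : cj a (cj a (a * x * a⁻¹)) = x := hax''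
        rw [e] at this
        exact this)
    set x' := a * x * a⁻¹ with hx'
    set x'' := a * x' * a⁻¹ with hx''
    set y' := a * y * a⁻¹ with hy'
    set y'' := a * y' * a⁻¹ with hy''
    set X := ρ ⟨x, hxS⟩ with hX
    set X' := ρ ⟨x', hQS hx'Q⟩ with hX'
    set X'' := ρ ⟨x'', hQS hx''Q⟩ with hX''
    set Y := ρ ⟨y, hyS⟩ with hY
    set Y' := ρ ⟨y', hQS hy'Q⟩ with hY'
    set Y'' := ρ ⟨y'', hQS hy''Q⟩ with hY''
    have e1 : X' = X'' := hρeq _ _ (by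
      show x'⁻¹ * x'' ∈ fixer W₁
      have := hfixt x' hx'Q
      rwa [htx'] at this)
    have e2 : Y' = Y'' := hρeq _ _ (by
      show y'⁻¹ * y'' ∈ fixer W₁
      have := hfixt y' hy'Q
      rwa [hty'] at this)
    have e3 : X * X' * X'' = 1 := by
      have : (⟨x, hxS⟩ * ⟨x', hQS hx'Q⟩ * ⟨x'', hQS hx''Q⟩ : stabU W₁) = 1 :=
        Subtype.ext (TN x hx)
      have := congrArg ρ this
      simpa only [map_mul, map_one] using this
    have e4 : Y * Y' * Y'' = 1 := by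
      have : (⟨y, hyS⟩ * ⟨y', hQS hy'Q⟩ * ⟨y'', hQS hy''Q⟩ : stabU W₁) = 1 :=
        Subtype.ext (TN y hy)
      have := congrArg ρ this
      simpa only [map_mul, map_one] using this
    have e5 : Y' * X' * Y'⁻¹ * X'⁻¹ = Y'' * X * Y''⁻¹ * X⁻¹ := by
      have : (⟨y', hQS hy'Q⟩ * ⟨x', hQS hx'Q⟩ * ⟨y', hQS hy'Q⟩⁻¹ * ⟨x', hQS hx'Q⟩⁻¹ : stabU W₁)
          = ⟨y'', hQS hy''Q⟩ * ⟨x, hxS⟩ * ⟨y'', hQS hy''Q⟩⁻¹ * ⟨x, hxS⟩⁻¹ :=
        Subtype.ext hS1
      have := congrArg ρ this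
      simpa only [map_mul, map_inv] using this
    obtain ⟨k, hk⟩ := hQ ⟨x', hx'Q⟩
    have hk' : x' ^ (q ^ k) = 1 := congrArg Subtype.val hk
    have e6 : X' ^ (q ^ k) = 1 := by
      have : (⟨x', hQS hx'Q⟩ : stabU W₁) ^ (q ^ k) = 1 :=
        Subtype.ext (by rw [Subgroup.coe_pow, Subgroup.coe_one]; exact hk')
      have := congrArg ρ this
      simpa only [map_pow, map_one] using this
    rw [← e1] at e3
    rw [← e2] at e4 e5
    have hXe : X = (X' * X')⁻¹ := eq_inv_of_mul_eq_one_left (by rw [← mul_assoc]; exact e3)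
    have hYe : Y = (Y' * Y')⁻¹ := eq_inv_of_mul_eq_one_left (by rw [← mul_assoc]; exact e4)
    rw [hXe] at e5
    have hp3 : X' ^ 3 = X' * X' * X' := by rw [pow_succ, pow_two]
    have hc3 : X' ^ 3 * Y'⁻¹ = Y'⁻¹ * X' ^ 3 := by
      rw [hp3]
      calc X' * X' * X' * Y'⁻¹ = (X' * X') * (Y'⁻¹ * (Y' * X' * Y'⁻¹ * X'⁻¹)) * X' := by group
        _ = (X' * X') * (Y'⁻¹ * (Y' * (X' * X')⁻¹ * Y'⁻¹ * (X' * X')⁻¹⁻¹)) * X' := by rw [e5]
        _ = Y'⁻¹ * (X' * X' * X') := by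
          simp only [mul_assoc, mul_inv_rev, inv_inv, inv_mul_cancel_left, mul_inv_cancel_left]
    have hmem3 : X' ^ 3 ∈ Subgroup.centralizer ({Y'⁻¹} : Set (LAut W₁)) := by
      rw [Subgroup.mem_centralizer_iff]
      intro z hz
      rw [Set.mem_singleton_iff] at hz
      rw [hz]; exact hc3.symm
    have hc3' : (q ^ k).Coprime 3 := by
      apply Nat.Coprime.pow_left
      rw [Nat.coprime_primes hq Nat.prime_three]; omega
    have hmem1 := root_mem _ X' (q ^ k) 3 e6 hc3' hmem3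
    rw [Subgroup.mem_centralizer_iff] at hmem1
    have hcc : Commute X' Y'⁻¹ := (hmem1 _ rfl).symm
    have hcc' : Commute X' Y' := by
      have := hcc.inv_right
      rwa [inv_inv] at this
    have hfin : Commute (X' * X')⁻¹ (Y' * Y')⁻¹ :=
      ((hcc'.mul_left hcc').mul_right (hcc'.mul_left hcc')).inv_inv
    rw [hXe, hYe]
    exact hfin.eq
  -- every element of Q acts on W₁ like an element commuting with t
  set N : Subgroup (LAut W) := Q ⊓ fixer W₁ with hN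
  have hNt : ∀ k ∈ N, cj t k ∈ N := by
    intro k hk
    obtain ⟨hk1, hk2⟩ := Subgroup.mem_inf.1 hk
    refine Subgroup.mem_inf.2 ⟨hQt k hk1, ?_⟩
    intro m hm
    show t (k (t⁻¹ m)) = m
    rw [h.tinv_app, D2 m hm, map_neg, hk2 m hm, map_neg, D2 m hm, neg_neg]
  have hN2 : ¬ 2 ∣ Nat.card N := by
    have hc := pgroup_coprime6 hq h5 N (hQ.to_le inf_le_left)
    intro h2
    have : (2 : ℕ) ∣ Nat.gcd (Nat.card N) 6 := Nat.dvd_gcd h2 (by norm_num)
    rw [Nat.Coprime.gcd_eq_one hc] at this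
    exact absurd this (by norm_num)
  have hcomW₁ : ∀ g ∈ Q, ∀ k ∈ Q, ∀ m ∈ W₁, g (k m) = k (g m) := by
    intro g hg k hk m hm
    haveI : Fact (Nat.Prime 2) := ⟨Nat.prime_two⟩
    have hσ : ∀ x, (cj t)^[2] x = x := fun x => (rel_conj h).h2 x
    obtain ⟨n₁, hn₁, hf₁⟩ := fp_coset 2 (cj t) hσ N hN2 hNt g
      (Subgroup.mem_inf.2 ⟨Q.mul_mem (Q.inv_mem hg) (hQt g hg), hfixt g hg⟩)
    obtain ⟨n₂, hn₂, hf₂⟩ := fp_coset 2 (cj t) hσ N hN2 hNt k
      (Subgroup.mem_inf.2 ⟨Q.mul_mem (Q.inv_mem hk) (hQt k hk), hfixt k hk⟩)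
    obtain ⟨hn₁Q, hn₁f⟩ := Subgroup.mem_inf.1 hn₁
    obtain ⟨hn₂Q, hn₂f⟩ := Subgroup.mem_inf.1 hn₂
    have hgQ : g * n₁ ∈ Q := Q.mul_mem hg hn₁Q
    have hkQ : k * n₂ ∈ Q := Q.mul_mem hk hn₂Q
    have hkey := key _ hgQ _ hkQ hf₁ hf₂ (hQS hgQ) (hQS hkQ)
    have e := congrArg (fun e : LAut W₁ => ((e ⟨m, hm⟩ : W₁) : W)) hkey
    have e' : (g * n₁) ((k * n₂) m) = (k * n₂) ((g * n₁) m) := e
    have a1 : ∀ m' ∈ W₁, (g * n₁) m' = g m' := fun m' hm' => by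
      show g (n₁ m') = g m'
      rw [hn₁f m' hm']
    have a2 : ∀ m' ∈ W₁, (k * n₂) m' = k m' := fun m' hm' => by
      show k (n₂ m') = k m'
      rw [hn₂f m' hm']
    rw [a2 m hm, a1 m hm, a1 _ (hQW k hk m hm), a2 _ (hQW g hg m hm)] at e'
    exact e'
  have hcom2 := comm_translate W₁ a hQa' hcomW₁
  have hcom3 := comm_translate W₁ a⁻¹ (fun g hg => by simpa using hQa g hg) hcomW₁
  intro x hx y hy
  ext w
  obtain ⟨u, hu, v, hv, w', hw', rfl⟩ := D1 w (htr w)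
  show x (y (u + a v + a (a w'))) = y (x (u + a v + a (a w')))
  have e3 : a (a w') = a⁻¹ w' := (h.ainv_app w').symm
  rw [e3]
  simp only [map_add]
  rw [hcomW₁ x hx y hy u hu, hcom2 x hx y hy v hv, hcom3 x hx y hy w' hw']

end CaseB

end Cfsg.Agent.Lib.Helper63.S3A
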