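import Mathlib
import Cfsg.Agent.Lib.Helper63.S3Res

set_option autoImplicit false

namespace Cfsg.Agent.Lib.Helper63.S3A

section Fin

variable {W : Type*} [AddCommGroup W]

/-- the cyclic sum of the powers of an automorphism -/
noncomputable def cs (q : ℕ) (e : LAut W) : W →ₗ[ℤ] W :=
  ∑ i ∈ Finset.range q, (((e ^ i : LAut W)) : W →ₗ[ℤ] W)

theorem cs_apply (q : ℕ) (e : LAut W) (u : W) : cs q e u = ∑ i ∈ Finset.range q, (e ^ i) u := by
  unfold cs
  rw [LinearMap.sum_apply]
  rfl

theorem pow_fix (e : LAut W) (u : W) (h : e u = u) (i : ℕ) : (e ^ i) u = u := by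
  induction i with
  | zero => rfl
  | succ k ih =>
    rw [pow_succ]
    show (e ^ k) (e u) = u
    rw [h, ih]

theorem cs_fix (q : ℕ) (e : LAut W) (he : e ^ q = 1) (u : W) : e (cs q e u) = cs q e u := by
  rw [cs_apply, map_sum]
  have h1 : ∀ i : ℕ, e ((e ^ i) u) = (e ^ (i + 1)) u := fun i => by rw [pow_succ']; rfl
  simp only [h1]
  have h2 := Finset.sum_range_succ (fun i => (e ^ i) u) q
  have h3 := Finset.sum_range_succ' (fun i => (e ^ i) u) q
  rw [h2] at h3
  simp only [he, pow_zero] at h3
  exact (add_right_cancel h3).symm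

theorem cs_of_fix (q : ℕ) (e : LAut W) (u : W) (h : e u = u) : cs q e u = q • u := by
  rw [cs_apply]
  simp [pow_fix e u h]

theorem cs_mul (q : ℕ) (d f : LAut W) (hdf : d * f = f * d) (u : W) (h : f u = u) :
    cs q (d * f) u = cs q d u := by
  rw [cs_apply, cs_apply]
  refine Finset.sum_congr rfl (fun i _ => ?_)
  have hc : Commute d f := hdf
  rw [hc.mul_pow]
  show (d ^ i) ((f ^ i) u) = (d ^ i) u
  rw [pow_fix f u h]

theorem cs_one (q : ℕ) (u : W) : cs q (1 : LAut W) u = q • u :=
  cs_of_fix q 1 u rfl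

/-- the final contradiction for the extraspecial configuration -/
theorem fin_contra [Finite W] (q : ℕ) (hq5 : 5 ≤ q) (hqW : q.Coprime (Nat.card W))
    (a x x' x'' c y : LAut W)
    (ha : ∀ w, w + a w + a (a w) = 0)
    (hx' : a * x = x' * a) (hx'' : a * x' = x'' * a)
    (hc1 : x * x' = c * x' * x)
    (hcx : c * x = x * c) (hcx' : c * x' = x' * c)
    (hy : y = x * x' * x'')
    (hyx : y * x = x * y) (hyx' : y * x' = x' * y) (hyc : y * c = c * y)
    (hcq : c ^ q = 1) (hcfix : ∀ m : ℕ, ¬ q ∣ m → ∀ w, (c ^ m) w = w → w = 0)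
    (v : W) (hv : x v = v) : v = 0 := by
  -- pointwise forms of the relations
  have px' : ∀ w, a (x w) = x' (a w) := fun w => congrArg (fun e : LAut W => e w) hx'
  have px'' : ∀ w, a (x' w) = x'' (a w) := fun w => congrArg (fun e : LAut W => e w) hx''
  have pc1 : ∀ w, x (x' w) = c (x' (x w)) := fun w => congrArg (fun e : LAut W => e w) hc1
  have pcx : ∀ w, c (x w) = x (c w) := fun w => congrArg (fun e : LAut W => e w) hcx
  have pcx' : ∀ w, c (x' w) = x' (c w) := fun w => congrArg (fun e : LAut W => e w) hcx'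
  have pyx : ∀ w, y (x w) = x (y w) := fun w => congrArg (fun e : LAut W => e w) hyx
  have pyx' : ∀ w, y (x' w) = x' (y w) := fun w => congrArg (fun e : LAut W => e w) hyx'
  have pyc : ∀ w, y (c w) = c (y w) := fun w => congrArg (fun e : LAut W => e w) hyc
  have py : ∀ w, y w = x (x' (x'' w)) := fun w => by rw [hy]; rfl
  set s := a v with hs
  have hs' : x' s = s := by rw [hs, ← px', hv]
  have has : x'' (a s) = a s := by rw [← px'', hs']
  have hsum : v + s + a s = 0 := ha v
  have hvs : x'' (v + s) = v + s := by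
    have e : a s = -(v + s) := (neg_eq_of_add_eq_zero_right hsum).symm
    rw [e, map_neg, neg_inj] at has
    exact has
  have hV : x s - y s = y v - c (x' v) := by
    have e1 : y (v + s) = c (x' v) + x s := by
      rw [py, hvs, map_add, map_add, hs', pc1, hv]
    rw [map_add] at e1
    rw [sub_eq_sub_iff_add_eq_add, add_comm (x s), ← e1]
  -- the operator P = (x - 1)(x - c)
  have hP1 : x (x (y v)) - c (x (y v)) - x (y v) + c (y v) = 0 := by
    have e : x (y v) = y v := by rw [← pyx, hv]
    rw [e, e]; abel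
  have hP2 : x (x (c (x' v))) - c (x (c (x' v))) - x (c (x' v)) + c (c (x' v)) = 0 := by
    have e : x (c (x' v)) = c (c (x' v)) := by
      rw [← pcx, pc1, hv]
    rw [e, ← pcx, e]; abel
  have hPV : x (x (x s - y s)) - c (x (x s - y s)) - x (x s - y s) + c (x s - y s) = 0 := by
    rw [hV]
    simp only [map_sub]
    have := congrArg₂ (fun p r : W => p - r) hP1 hP2
    simp only [sub_zero] at this
    rw [← this]; abel
  -- fixed spaces
  have hstep : ∀ (k : ℕ) (u : W), (c ^ k * x') u = u → (c ^ (k + 1) * x') (x u) = x u := by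
    intro k u hu
    have hck : ∀ w, (c ^ k) (x w) = x ((c ^ k) w) := by
      intro w
      have : c ^ k * x = x * c ^ k := ((Commute.pow_left (show Commute c x from hcx) k)).eq
      exact congrArg (fun e : LAut W => e w) this
    rw [pow_succ]
    show (c ^ k) (c (x' (x u))) = x u
    rw [← pc1, hck]
    exact congrArg x hu
  have hT : ∀ (k : ℕ) (u : W), k < 3 → (c ^ k * x') u = u → cs q (c ^ 3 * x') u = 0 := by
    intro k u hk hu
    have e : c ^ 3 * x' = c ^ (3 - k) * (c ^ k * x') := by
      rw [← mul_assoc, ← pow_add]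
      congr 2; omega
    have hcomm : c ^ (3 - k) * (c ^ k * x') = (c ^ k * x') * c ^ (3 - k) := by
      have h1 : Commute c (c ^ k * x') :=
        (Commute.pow_right (Commute.refl c) k).mul_right (show Commute c x' from hcx')
      exact (h1.pow_left (3 - k)).eq
    rw [e, cs_mul q _ _ hcomm u hu]
    apply hcfix (3 - k)
    · intro hd
      have := Nat.le_of_dvd (by omega) hd
      omega
    · apply cs_fix
      rw [← pow_mul, mul_comm, pow_mul, hcq, one_pow]
  have hFc : ∀ (k : ℕ) (u : W), (c ^ k * x') u = u → (c ^ k * x') (c u) = c u := by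
    intro k u hu
    have h1 : Commute c (c ^ k * x') :=
      (Commute.pow_right (Commute.refl c) k).mul_right (show Commute c x' from hcx')
    have := congrArg (fun e : LAut W => e u) h1.eq
    show (c ^ k * x') (c u) = c u
    calc (c ^ k * x') (c u) = (c ^ k * x' * c) u := rfl
      _ = (c * (c ^ k * x')) u := by rw [h1.eq]
      _ = c ((c ^ k * x') u) := rfl
      _ = c u := by rw [hu]
  have hFy : ∀ (k : ℕ) (u : W), (c ^ k * x') u = u → (c ^ k * x') (y u) = y u := by
    intro k u hu
    have h1 : Commute y (c ^ k * x') :=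
      (Commute.pow_right (show Commute y c from hyc) k).mul_right (show Commute y x' from hyx')
    calc (c ^ k * x') (y u) = (c ^ k * x' * y) u := rfl
      _ = (y * (c ^ k * x')) u := by rw [h1.eq]
      _ = y ((c ^ k * x') u) := rfl
      _ = y u := by rw [hu]
  have h0 : (c ^ 0 * x') s = s := by rw [pow_zero, one_mul]; exact hs'
  have h1 := hstep 0 s h0
  have h2 := hstep 1 _ h1
  have h3 := hstep 2 _ h2
  norm_num at h1 h2 h3
  -- expand
  have hexp : x (x (x s)) - c (x (x s)) - x (x s) + c (x s) - y (x (x s)) + c (y (x s))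
      + y (x s) - c (y s) = 0 := by
    have := hPV
    simp only [map_sub] at this
    rw [← pyx s, ← pyx (x s)] at this
    rw [← this]; abel
  have hT' := congrArg (cs q (c ^ 3 * x')) hexp
  simp only [map_sub, map_add, map_zero] at hT'
  rw [hT 2 _ (by norm_num) (hFc 2 _ h2), hT 2 _ (by norm_num) h2, hT 1 _ (by norm_num) (hFc 1 _ h1),
    hT 2 _ (by norm_num) (hFy 2 _ h2), hT 1 _ (by norm_num) (hFc 1 _ (hFy 1 _ h1)),
    hT 1 _ (by norm_num) (hFy 1 _ h1), hT 0 _ (by norm_num) (hFc 0 _ (hFy 0 _ h0)),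
    cs_of_fix q _ _ h3] at hT'
  simp only [sub_zero, add_zero] at hT'
  have hz := eq_zero_of_nsmul q hqW _ hT'
  have hs0 : s = 0 := by
    have e1 : x (x s) = 0 := x.injective (by rw [hz, map_zero])
    have e2 : x s = 0 := x.injective (by rw [e1, map_zero])
    exact x.injective (by rw [e2, map_zero])
  exact a.injective (by rw [← hs, hs0, map_zero])

end Fin

end Cfsg.Agent.Lib.Helper63.S3A
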