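import Mathlib
import Cfsg.Agent.Lib.Helper63.S3SA
import Cfsg.Agent.Lib.Helper63.S3Fin
import Cfsg.Agent.Lib.Helper63.S3CaseB

set_option autoImplicit false
open scoped commutatorElement

namespace Cfsg.Agent.Lib.Helper63.S3A

universe u

theorem exists_order_q {K : Type*} [Group K] (q : ℕ) (x₀ : K) : ∀ k : ℕ, x₀ ≠ 1 →
    x₀ ^ (q ^ k) = 1 → ∃ j, x₀ ^ (q ^ j) ≠ 1 ∧ (x₀ ^ (q ^ j)) ^ q = 1 := by
  intro k
  induction k with
  | zero =>
    intro h1 h2
    rw [pow_zero, pow_one] at h2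
    exact absurd h2 h1
  | succ k ih =>
    intro h1 h2
    by_cases hk : x₀ ^ (q ^ k) = 1
    · exact ih h1 hk
    · exact ⟨k, hk, by rw [← pow_mul, ← pow_succ]; exact h2⟩

theorem twist_conj {K : Type*} [Group K] (a x x' d : K) (h1 : a * x = x' * a)
    (h2 : a * d = d * a) : a * (x * d) = (x' * d) * a := by
  rw [← mul_assoc, h1, mul_assoc, h2, ← mul_assoc]

theorem twist_rel {K : Type*} [Group K] (x x' c d : K) (r1 : x * x' = c * x' * x)
    (hdx : d * x = x * d) (hdx' : d * x' = x' * d) :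
    (x * d) * (x' * d) = c * (x' * d) * (x * d) := by
  calc (x * d) * (x' * d) = x * (d * x') * d := by group
    _ = x * (x' * d) * d := by rw [hdx']
    _ = (x * x') * d * d := by group
    _ = (c * x' * x) * d * d := by rw [r1]
    _ = c * x' * (x * d) * d := by group
    _ = c * x' * (d * x) * d := by rw [hdx]
    _ = c * (x' * d) * (x * d) := by group

theorem twist_prod {K : Type*} [Group K] (x x' x'' d : K) (hdx' : d * x' = x' * d)
    (hdx'' : d * x'' = x'' * d) :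
    (x * d) * (x' * d) * (x'' * d) = (x * x' * x'') * (d * d * d) := by
  calc (x * d) * (x' * d) * (x'' * d) = x * (d * x') * (d * x'') * d := by group
    _ = x * (x' * d) * (x'' * d) * d := by rw [hdx', hdx'']
    _ = x * x' * (d * x'') * d * d := by group
    _ = x * x' * (x'' * d) * d * d := by rw [hdx'']
    _ = (x * x' * x'') * (d * d * d) := by group

section CaseA

variable {W : Type u} [AddCommGroup W] [Finite W] {a t : LAut W} {q : ℕ}
  {Q : Subgroup (LAut W)}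

omit [Finite W] in
theorem tconj (h : S3 a t) (x₀ : LAut W) :
    t * (a * x₀ * a⁻¹) * t⁻¹ = a * (a * (t * x₀ * t⁻¹) * a⁻¹) * a⁻¹ := by
  calc t * (a * x₀ * a⁻¹) * t⁻¹ = (t * a) * x₀ * (t * a)⁻¹ := by group
    _ = (a * a * t) * x₀ * (a * a * t)⁻¹ := by rw [h.ta]
    _ = a * (a * (t * x₀ * t⁻¹) * a⁻¹) * a⁻¹ := by group

omit [Finite W] in
theorem tconj2 (h : S3 a t) (x₀ : LAut W) :
    t * (a * (a * x₀ * a⁻¹) * a⁻¹) * t⁻¹ = a * (t * x₀ * t⁻¹) * a⁻¹ := by
  calc t * (a * (a * x₀ * a⁻¹) * a⁻¹) * t⁻¹ = (t * a * a) * x₀ * (t * a * a)⁻¹ := by group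
    _ = (a * t) * x₀ * (a * t)⁻¹ := by rw [← h.at]
    _ = a * (t * x₀ * t⁻¹) * a⁻¹ := by group

omit [Finite W] in
theorem conj_t_comm (h : S3 a t) (k : LAut W) (hka : a * k = k * a) :
    a * (t * k * t⁻¹) = (t * k * t⁻¹) * a := by
  rw [h.tinv]
  calc a * (t * k * t) = (a * t) * k * t := by group
    _ = (t * a * a) * k * t := by rw [h.at]
    _ = t * a * (a * k) * t := by group
    _ = t * a * (k * a) * t := by rw [hka]
    _ = t * (a * k) * a * t := by group
    _ = t * (k * a) * a * t := by rw [hka]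
    _ = t * k * (a * a * t) := by group
    _ = t * k * (t * a) := by rw [← h.ta]
    _ = t * k * t * a := by group

/-- The case where the element of order three centralizes a nontrivial central element:
contradiction. -/
theorem SA_caseA (h : S3 a t) (hq : q.Prime) (h5 : 5 ≤ q) (hQ : IsPGroup q Q)
    (hcop : (Nat.card W).Coprime (6 * q))
    (hQa : ∀ x ∈ Q, a * x * a⁻¹ ∈ Q) (hQt : ∀ x ∈ Q, t * x * t⁻¹ ∈ Q)
    (hQfp : ∀ x ∈ Q, a * x * a⁻¹ = x → t * x * t⁻¹ = x → x = 1)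
    {n : ℕ} (ih : SAprop.{u} n) (hn : Nat.card W + Nat.card Q ≤ n + 1)
    (hnc : ¬ ∀ x ∈ Q, ∀ y ∈ Q, x * y = y * x)
    (z₀ : LAut W) (hz₀Q : z₀ ∈ Q) (hz₀c : ∀ x ∈ Q, z₀ * x = x * z₀)
    (hz₀a : a * z₀ * a⁻¹ = z₀) (hz₀1 : z₀ ≠ 1) : False := by
  classical
  have ha3 : a * a * a = 1 := by ext w; simp [h.a3]
  have hQt' := norm_inv Q t hQt
  have hWq : q.Coprime (Nat.card W) :=
    (Nat.Coprime.coprime_dvd_right (Dvd.intro_left 6 rfl) hcop).symm
  have hodd : ∀ k : ℕ, (q ^ k).Coprime 2 := by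
    intro k
    apply Nat.Coprime.pow_left
    rw [Nat.coprime_primes hq Nat.prime_two]; omega
  have hc3 : ∀ k : ℕ, (q ^ k).Coprime 3 := by
    intro k
    apply Nat.Coprime.pow_left
    rw [Nat.coprime_primes hq Nat.prime_three]; omega
  -- proper invariant subgroups are commutative
  have hA1 : ∀ Q₁ : Subgroup (LAut W), Q₁ ≤ Q → Q₁ ≠ Q → (∀ x ∈ Q₁, a * x * a⁻¹ ∈ Q₁) →
      (∀ x ∈ Q₁, t * x * t⁻¹ ∈ Q₁) → ∀ x ∈ Q₁, ∀ y ∈ Q₁, x * y = y * x := by
    intro Q₁ hle hne h1a h1t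
    have hlt : Nat.card Q₁ < Nat.card Q := by
      by_contra hge
      exact hne (Subgroup.eq_of_le_of_card_ge hle (not_lt.1 hge))
    exact ih W a t q Q₁ h hq h5 (hQ.to_le hle) hcop h1a h1t
      (fun x hx => hQfp x (hle hx)) (by omega)
  -- the central elements centralized by a
  set Z₀ : Subgroup (LAut W) :=
    Q ⊓ Subgroup.centralizer (Q : Set (LAut W)) ⊓ Subgroup.centralizer {a} with hZ₀
  have hZmem : ∀ z, z ∈ Z₀ ↔ z ∈ Q ∧ (∀ x ∈ Q, x * z = z * x) ∧ a * z = z * a := by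
    intro z
    rw [hZ₀, Subgroup.mem_inf, Subgroup.mem_inf, Subgroup.mem_centralizer_iff,
      Subgroup.mem_centralizer_iff]
    simp [and_assoc]
  have hZQ : Z₀ ≤ Q := fun z hz => ((hZmem z).1 hz).1
  have hZn : ∀ x ∈ Q, ∀ z ∈ Z₀, x * z * x⁻¹ ∈ Z₀ := by
    intro x hx z hz
    have : x * z * x⁻¹ = z := by rw [((hZmem z).1 hz).2.1 x hx]; group
    rw [this]; exact hz
  have hZa : ∀ z ∈ Z₀, a * z * a⁻¹ ∈ Z₀ := by
    intro z hz
    have : a * z * a⁻¹ = z := by rw [((hZmem z).1 hz).2.2]; group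
    rw [this]; exact hz
  have hZt : ∀ z ∈ Z₀, t * z * t⁻¹ ∈ Z₀ := by
    intro z hz
    obtain ⟨hzQ, hzc, hza⟩ := (hZmem z).1 hz
    refine (hZmem _).2 ⟨hQt z hzQ, ?_, conj_t_comm h z hza⟩
    intro x hx
    have e := hzc _ (hQt' x hx)
    calc x * (t * z * t⁻¹) = t * ((t⁻¹ * x * t) * z) * t⁻¹ := by group
      _ = t * (z * (t⁻¹ * x * t)) * t⁻¹ := by rw [e]
      _ = (t * z * t⁻¹) * x := by group
  have hZ1 : Z₀ ≠ ⊥ := by
    intro hbot
    have : z₀ ∈ Z₀ := (hZmem z₀).2 ⟨hz₀Q, fun x hx => (hz₀c x hx).symm,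
      mul_inv_eq_iff_eq_mul.1 hz₀a⟩
    rw [hbot, Subgroup.mem_bot] at this
    exact hz₀1 this
  have hZfix := SA_fixfree h hq h5 hQ hcop hQa hQt hQfp ih hn hnc Z₀ hZQ hZn hZa hZt hZ1
  have hZinv : ∀ z ∈ Z₀, t * z * t⁻¹ = z⁻¹ :=
    inv_of_fpf (cj t) (fun x => (rel_conj h).h2 x) Z₀ hZt (by
      intro z hz hzt
      obtain ⟨hzQ, -, hza⟩ := (hZmem z).1 hz
      exact hQfp z hzQ (mul_inv_eq_iff_eq_mul.2 hza) hzt)
  have hafp : ∀ w, a w = w → w = 0 := by
    intro w hw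
    apply hZfix
    intro z hz
    obtain ⟨hzQ, -, hza⟩ := (hZmem z).1 hz
    obtain ⟨k, hk⟩ := hQ ⟨z, hzQ⟩
    have hk' : z ^ (q ^ k) = 1 := congrArg Subtype.val hk
    exact fix_of_inverted h z hza (hZinv z hz) (q ^ k) hk' (hodd k) w hw
  have hN3 : ∀ w, w + a w + a (a w) = 0 := by
    intro w
    apply hafp
    rw [map_add, map_add, h.a3]; abel
  have hab := ab_inv_cent h hq hQ hcop h5 hafp
  -- an element of order q commuting with t
  have hx_ex : ∃ x ∈ Q, t * x * t⁻¹ = x ∧ x ≠ 1 ∧ x ^ q = 1 := by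
    have h1 : ∃ x₀ ∈ Q, t * x₀ * t⁻¹ = x₀ ∧ x₀ ≠ 1 := by
      by_contra hno
      push Not at hno
      apply hnc
      exact comm_of_inv (cj t) Q (inv_of_fpf (cj t) (fun x => (rel_conj h).h2 x) Q hQt hno)
    obtain ⟨x₀, hx₀Q, hx₀t, hx₀1⟩ := h1
    obtain ⟨k, hk⟩ := hQ ⟨x₀, hx₀Q⟩
    have hk' : x₀ ^ (q ^ k) = 1 := congrArg Subtype.val hk
    obtain ⟨j, hj1, hj2⟩ := exists_order_q q x₀ k hx₀1 hk'
    refine ⟨x₀ ^ (q ^ j), Q.pow_mem hx₀Q _, ?_, hj1, hj2⟩
    rw [← conj_pow, hx₀t]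
  obtain ⟨x, hxQ, htx, hx1, hxq⟩ := hx_ex
  obtain ⟨x', hx'⟩ : ∃ x', a * x * a⁻¹ = x' := ⟨_, rfl⟩
  obtain ⟨x'', hx''⟩ : ∃ x'', a * x' * a⁻¹ = x'' := ⟨_, rfl⟩
  have hx'Q : x' ∈ Q := by rw [← hx']; exact hQa x hxQ
  have hx''Q : x'' ∈ Q := by rw [← hx'']; exact hQa x' hx'Q
  have hax'' : a * x'' * a⁻¹ = x := by
    rw [← hx'', ← hx']
    calc a * (a * (a * x * a⁻¹) * a⁻¹) * a⁻¹ = (a * a * a) * x * (a * a * a)⁻¹ := by group
      _ = x := by rw [ha3]; group
  have htx' : t * x' * t⁻¹ = x'' := by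
    rw [← hx', tconj h x, htx, hx', hx'']
  have htx'' : t * x'' * t⁻¹ = x' := by
    rw [← hx'', ← hx', tconj2 h x, htx]
  have hx'ne : a * x * a⁻¹ ≠ x := fun e => hx1 (hQfp x hxQ e htx)
  -- generation criterion
  have hgen : ∀ (S : Set (LAut W)), S ⊆ Q → (∀ s ∈ S, a * s * a⁻¹ ∈ Subgroup.closure S) →
      (∀ s ∈ S, t * s * t⁻¹ ∈ Subgroup.closure S) →
      (∃ s ∈ S, a * s * a⁻¹ ≠ s) → Subgroup.closure S = Q := by
    intro S hSQ hSa hSt hex
    by_contra hne
    have hle : Subgroup.closure S ≤ Q := (Subgroup.closure_le Q).2 hSQ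
    have hcomm := hA1 _ hle hne (closure_conj_mem S a hSa) (closure_conj_mem S t hSt)
    have hcent := hab _ hle hcomm (closure_conj_mem S a hSa)
    obtain ⟨s, hs, hsne⟩ := hex
    exact hsne (hcent s (Subgroup.subset_closure hs))
  have hH : Subgroup.closure ({x, x', x''} : Set (LAut W)) = Q := by
    apply hgen
    · intro s hs
      rcases hs with hs | hs | hs
      · rw [hs]; exact hxQ
      · rw [hs]; exact hx'Q
      · rw [Set.mem_singleton_iff] at hs; rw [hs]; exact hx''Q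
    · intro s hs
      rcases hs with hs | hs | hs
      · rw [hs, hx']; exact Subgroup.subset_closure (by simp)
      · rw [hs, hx'']; exact Subgroup.subset_closure (by simp)
      · rw [Set.mem_singleton_iff] at hs
        rw [hs, hax'']; exact Subgroup.subset_closure (by simp)
    · intro s hs
      rcases hs with hs | hs | hs
      · rw [hs, htx]; exact Subgroup.subset_closure (by simp)
      · rw [hs, htx']; exact Subgroup.subset_closure (by simp)
      · rw [Set.mem_singleton_iff] at hs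
        rw [hs, htx'']; exact Subgroup.subset_closure (by simp)
    · exact ⟨x, by simp, hx'ne⟩
  -- the derived subgroup
  have hQne : Q ≠ ⊥ := by
    intro hb
    apply hx1
    rw [hb] at hxQ
    exact Subgroup.mem_bot.1 hxQ
  have hDlt : ⁅Q, Q⁆ < Q := by
    haveI : Fact q.Prime := ⟨hq⟩
    haveI : Group.IsNilpotent Q := hQ.isNilpotent
    haveI : Nontrivial Q := (Subgroup.nontrivial_iff_ne_bot Q).2 hQne
    rw [← Q.range_subtype, MonoidHom.range_eq_map, ← Subgroup.map_commutator,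
      Subgroup.map_subtype_lt_map_subtype]
    exact Group.IsSolvable.commutator_lt_top_of_nontrivial Q
  have hDg : ∀ g : LAut W, (∀ x ∈ Q, g * x * g⁻¹ ∈ Q) → ∀ d ∈ ⁅Q, Q⁆, g * d * g⁻¹ ∈ ⁅Q, Q⁆ := by
    intro g hg
    rw [Subgroup.commutator_def]
    apply closure_conj_mem
    rintro _ ⟨g₁, hg₁, g₂, hg₂, rfl⟩
    apply Subgroup.subset_closure
    refine ⟨g * g₁ * g⁻¹, hg g₁ hg₁, g * g₂ * g⁻¹, hg g₂ hg₂, ?_⟩
    rw [commutatorElement_def, commutatorElement_def]; group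
  have hDa := hDg a hQa
  have hDt := hDg t hQt
  have hDcomm := hA1 _ hDlt.le hDlt.ne hDa hDt
  have hDcent := hab _ hDlt.le hDcomm hDa
  -- elements centralized by a are central
  have hCaZ : ∀ u ∈ Q, a * u * a⁻¹ = u → ∀ g ∈ Q, u * g = g * u := by
    intro u hu hua
    have hcomm1 : ∀ g ∈ Q, (g⁻¹ * (a * g * a⁻¹)) * u = u * (g⁻¹ * (a * g * a⁻¹)) := by
      intro g hg
      have hd : g * u * g⁻¹ * u⁻¹ ∈ ⁅Q, Q⁆ := Subgroup.commutator_mem_commutator hg hu
      have e := hDcent _ hd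
      have e2 : a * (g * u * g⁻¹ * u⁻¹) * a⁻¹ =
          (a * g * a⁻¹) * (a * u * a⁻¹) * (a * g * a⁻¹)⁻¹ * (a * u * a⁻¹)⁻¹ := by group
      rw [e2, hua] at e
      calc (g⁻¹ * (a * g * a⁻¹)) * u
          = g⁻¹ * ((a * g * a⁻¹) * u * (a * g * a⁻¹)⁻¹ * u⁻¹) * u * (a * g * a⁻¹) := by group
        _ = g⁻¹ * (g * u * g⁻¹ * u⁻¹) * u * (a * g * a⁻¹) := by rw [e]
        _ = u * (g⁻¹ * (a * g * a⁻¹)) := by group
    have hu1 := hcomm1 x hxQ
    have hu2 := hcomm1 x' hx'Q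
    have hu3 := hcomm1 x'' hx''Q
    rw [hx'] at hu1
    rw [hx''] at hu2
    rw [hax''] at hu3
    have ea1 : a * (x⁻¹ * x') * a⁻¹ = x'⁻¹ * x'' := by
      calc a * (x⁻¹ * x') * a⁻¹ = (a * x * a⁻¹)⁻¹ * (a * x' * a⁻¹) := by group
        _ = x'⁻¹ * x'' := by rw [hx', hx'']
    have ea2 : a * (x'⁻¹ * x'') * a⁻¹ = x''⁻¹ * x := by
      calc a * (x'⁻¹ * x'') * a⁻¹ = (a * x' * a⁻¹)⁻¹ * (a * x'' * a⁻¹) := by group
        _ = x''⁻¹ * x := by rw [hx'', hax'']
    have ea3 : a * (x''⁻¹ * x) * a⁻¹ = x⁻¹ * x' := by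
      calc a * (x''⁻¹ * x) * a⁻¹ = (a * x'' * a⁻¹)⁻¹ * (a * x * a⁻¹) := by group
        _ = x⁻¹ * x' := by rw [hax'', hx']
    have et1 : t * (x⁻¹ * x') * t⁻¹ = (x''⁻¹ * x)⁻¹ := by
      calc t * (x⁻¹ * x') * t⁻¹ = (t * x * t⁻¹)⁻¹ * (t * x' * t⁻¹) := by group
        _ = x⁻¹ * x'' := by rw [htx, htx']
        _ = (x''⁻¹ * x)⁻¹ := by group
    have et2 : t * (x'⁻¹ * x'') * t⁻¹ = (x'⁻¹ * x'')⁻¹ := by
      calc t * (x'⁻¹ * x'') * t⁻¹ = (t * x' * t⁻¹)⁻¹ * (t * x'' * t⁻¹) := by group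
        _ = x''⁻¹ * x' := by rw [htx', htx'']
        _ = (x'⁻¹ * x'')⁻¹ := by group
    have et3 : t * (x''⁻¹ * x) * t⁻¹ = (x⁻¹ * x')⁻¹ := by
      calc t * (x''⁻¹ * x) * t⁻¹ = (t * x'' * t⁻¹)⁻¹ * (t * x * t⁻¹) := by group
        _ = x'⁻¹ * x := by rw [htx'', htx]
        _ = (x⁻¹ * x')⁻¹ := by group
    have hH2 : Subgroup.closure ({x⁻¹ * x', x'⁻¹ * x'', x''⁻¹ * x} : Set (LAut W)) = Q := by
      apply hgen
      · intro s hs
        rcases hs with hs | hs | hs
        · rw [hs]; exact Q.mul_mem (Q.inv_mem hxQ) hx'Q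
        · rw [hs]; exact Q.mul_mem (Q.inv_mem hx'Q) hx''Q
        · rw [Set.mem_singleton_iff] at hs; rw [hs]; exact Q.mul_mem (Q.inv_mem hx''Q) hxQ
      · intro s hs
        rcases hs with hs | hs | hs
        · rw [hs, ea1]; exact Subgroup.subset_closure (by simp)
        · rw [hs, ea2]; exact Subgroup.subset_closure (by simp)
        · rw [Set.mem_singleton_iff] at hs
          rw [hs, ea3]; exact Subgroup.subset_closure (by simp)
      · intro s hs
        rcases hs with hs | hs | hs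
        · rw [hs, et1]; exact Subgroup.inv_mem _ (Subgroup.subset_closure (by simp))
        · rw [hs, et2]; exact Subgroup.inv_mem _ (Subgroup.subset_closure (by simp))
        · rw [Set.mem_singleton_iff] at hs
          rw [hs, et3]; exact Subgroup.inv_mem _ (Subgroup.subset_closure (by simp))
      · by_contra hno
        push Not at hno
        have f1 := hno (x⁻¹ * x') (by simp)
        have f2 := hno (x'⁻¹ * x'') (by simp)
        rw [ea1] at f1
        rw [ea2] at f2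
        have hprod : (x⁻¹ * x') * (x'⁻¹ * x'') * (x''⁻¹ * x) = 1 := by group
        rw [f2, f1] at hprod
        obtain ⟨k, hk⟩ := hQ ⟨x⁻¹ * x', Q.mul_mem (Q.inv_mem hxQ) hx'Q⟩
        have hk' : (x⁻¹ * x') ^ (q ^ k) = 1 := congrArg Subtype.val hk
        have h3' : (x⁻¹ * x') ^ 3 ∈ (⊥ : Subgroup (LAut W)) := by
          rw [Subgroup.mem_bot, pow_succ, pow_two]; exact hprod
        have h1' := Subgroup.mem_bot.1 (root_mem ⊥ (x⁻¹ * x') _ 3 hk' (hc3 k) h3')
        apply hx'ne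
        rw [hx']
        exact (inv_mul_eq_one.1 h1').symm
    have hcen : Subgroup.closure ({x⁻¹ * x', x'⁻¹ * x'', x''⁻¹ * x} : Set (LAut W)) ≤
        Subgroup.centralizer {u} := by
      rw [Subgroup.closure_le]
      intro s hs
      rw [SetLike.mem_coe, Subgroup.mem_centralizer_iff]
      intro u' hu'
      rw [Set.mem_singleton_iff] at hu'
      rw [hu']
      rcases hs with hs | hs | hs
      · rw [hs]; exact hu1.symm
      · rw [hs]; exact hu2.symm
      · rw [Set.mem_singleton_iff] at hs; rw [hs]; exact hu3.symm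
    intro g hg
    rw [← hH2] at hg
    exact Subgroup.mem_centralizer_iff.1 (hcen hg) u rfl
  -- the central commutator
  obtain ⟨c, hc⟩ : ∃ c, c = x * x' * x⁻¹ * x'⁻¹ := ⟨_, rfl⟩
  have hcD : c ∈ ⁅Q, Q⁆ := by rw [hc]; exact Subgroup.commutator_mem_commutator hxQ hx'Q
  have hcQ : c ∈ Q := hDlt.le hcD
  have hca : a * c * a⁻¹ = c := hDcent c hcD
  have hcZ : ∀ g ∈ Q, c * g = g * c := hCaZ c hcQ hca
  have r1 : x * x' = c * x' * x := by rw [hc]; group
  have hca' : a * c * a⁻¹ = x' * x'' * x'⁻¹ * x''⁻¹ := by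
    rw [hc]
    calc a * (x * x' * x⁻¹ * x'⁻¹) * a⁻¹
        = (a * x * a⁻¹) * (a * x' * a⁻¹) * (a * x * a⁻¹)⁻¹ * (a * x' * a⁻¹)⁻¹ := by group
      _ = x' * x'' * x'⁻¹ * x''⁻¹ := by rw [hx', hx'']
  have hc' : c = x' * x'' * x'⁻¹ * x''⁻¹ := by rw [← hca', hca]
  have r2 : x' * x'' = c * x'' * x' := by rw [hc']; group
  have hca'' : a * c * a⁻¹ = x'' * x * x''⁻¹ * x⁻¹ := by
    rw [hc']
    calc a * (x' * x'' * x'⁻¹ * x''⁻¹) * a⁻¹
        = (a * x' * a⁻¹) * (a * x'' * a⁻¹) * (a * x' * a⁻¹)⁻¹ * (a * x'' * a⁻¹)⁻¹ := by group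
      _ = x'' * x * x''⁻¹ * x⁻¹ := by rw [hx'', hax'']
  have hc'' : c = x'' * x * x''⁻¹ * x⁻¹ := by rw [← hca'', hca]
  have r3 : x'' * x = c * x * x'' := by rw [hc'']; group
  have hc1 : c ≠ 1 := by
    intro hc1
    apply hnc
    rw [hc1, one_mul] at r1 r2 r3
    rw [← hH]
    apply comm_closure
    intro s hs s' hs'
    rcases hs with hs | hs | hs <;> rcases hs' with hs' | hs' | hs'
    · rw [hs, hs']
    · rw [hs, hs']; exact r1
    · rw [Set.mem_singleton_iff] at hs'; rw [hs, hs']; exact r3.symm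
    · rw [hs, hs']; exact r1.symm
    · rw [hs, hs']
    · rw [Set.mem_singleton_iff] at hs'; rw [hs, hs']; exact r2
    · rw [Set.mem_singleton_iff] at hs; rw [hs, hs']; exact r3
    · rw [Set.mem_singleton_iff] at hs; rw [hs, hs']; exact r2.symm
    · rw [Set.mem_singleton_iff] at hs hs'; rw [hs, hs']
  have hct : t * c * t⁻¹ = c⁻¹ := by
    have e : t * c * t⁻¹ = x * x'' * x⁻¹ * x''⁻¹ := by
      rw [hc]
      calc t * (x * x' * x⁻¹ * x'⁻¹) * t⁻¹
          = (t * x * t⁻¹) * (t * x' * t⁻¹) * (t * x * t⁻¹)⁻¹ * (t * x' * t⁻¹)⁻¹ := by group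
        _ = x * x'' * x⁻¹ * x''⁻¹ := by rw [htx, htx']
    rw [e, hc'']; group
  have hcx : c * x = x * c := hcZ x hxQ
  have hcx' : c * x' = x' * c := hcZ x' hx'Q
  have hcx'' : c * x'' = x'' * c := hcZ x'' hx''Q
  have hcq : c ^ q = 1 := by
    have e1 : x' * x * x'⁻¹ = c⁻¹ * x := by
      calc x' * x * x'⁻¹ = c⁻¹ * (c * x' * x) * x'⁻¹ := by group
        _ = c⁻¹ * (x * x') * x'⁻¹ := by rw [r1]
        _ = c⁻¹ * x := by group
    have e2 : (x' * x * x'⁻¹) ^ q = 1 := by rw [conj_pow, hxq]; group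
    rw [e1] at e2
    have hcomm : Commute c⁻¹ x := (show Commute c x from hcx).inv_left
    rw [hcomm.mul_pow, hxq, mul_one, inv_pow, inv_eq_one] at e2
    exact e2
  have hcfix1 : ∀ w, c w = w → w = 0 := by
    intro w hw
    have hZc1 : Subgroup.closure ({c} : Set (LAut W)) ≠ ⊥ := by
      intro hb
      have : c ∈ Subgroup.closure ({c} : Set (LAut W)) := Subgroup.subset_closure rfl
      rw [hb, Subgroup.mem_bot] at this
      exact hc1 this
    refine SA_fixfree h hq h5 hQ hcop hQa hQt hQfp ih hn hnc (Subgroup.closure {c})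
      ?_ ?_ ?_ ?_ hZc1 w ?_
    · rw [Subgroup.closure_le]
      intro s hs
      rw [Set.mem_singleton_iff] at hs
      rw [hs]; exact hcQ
    · intro g hg
      apply closure_conj_mem
      intro s hs
      rw [Set.mem_singleton_iff] at hs
      have : g * c * g⁻¹ = c := by rw [← hcZ g hg]; group
      rw [hs, this]; exact Subgroup.subset_closure rfl
    · apply closure_conj_mem
      intro s hs
      rw [Set.mem_singleton_iff] at hs
      rw [hs, hca]; exact Subgroup.subset_closure rfl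
    · apply closure_conj_mem
      intro s hs
      rw [Set.mem_singleton_iff] at hs
      rw [hs, hct]; exact Subgroup.inv_mem _ (Subgroup.subset_closure rfl)
    · have hle : Subgroup.closure ({c} : Set (LAut W)) ≤ stab w := by
        rw [Subgroup.closure_le]
        intro s hs
        rw [Set.mem_singleton_iff] at hs
        rw [hs]; exact (mem_stab w c).2 hw
      intro z hz
      exact (mem_stab w z).1 (hle hz)
  have hcfix : ∀ m : ℕ, ¬ q ∣ m → ∀ w, (c ^ m) w = w → w = 0 := by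
    intro m hm w hw
    apply hcfix1
    have hcop' : q.Coprime m := (Nat.Prime.coprime_iff_not_dvd hq).2 hm
    exact (mem_stab w c).1 (root_mem (stab w) c q m hcq hcop' ((mem_stab w _).2 hw))
  -- the central product of the three conjugates
  obtain ⟨y, hy⟩ : ∃ y, y = x * x' * x'' := ⟨_, rfl⟩
  have hyQ : y ∈ Q := by rw [hy]; exact Q.mul_mem (Q.mul_mem hxQ hx'Q) hx''Q
  have hya : a * y * a⁻¹ = y := by
    rw [hy]
    calc a * (x * x' * x'') * a⁻¹ = (a * x * a⁻¹) * (a * x' * a⁻¹) * (a * x'' * a⁻¹) := by group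
      _ = x' * x'' * x := by rw [hx', hx'', hax'']
      _ = x' * (x'' * x) := by group
      _ = x' * (c * x * x'') := by rw [r3]
      _ = (x' * c) * x * x'' := by group
      _ = (c * x') * x * x'' := by rw [hcx']
      _ = c * (c⁻¹ * (c * x' * x)) * x'' := by group
      _ = c * (c⁻¹ * (x * x')) * x'' := by rw [r1]
      _ = x * x' * x'' := by group
  have hyZ : ∀ g ∈ Q, y * g = g * y := hCaZ y hyQ hya
  -- a nonzero vector fixed by a twist of x
  have hW : ∃ w₀ : W, w₀ ≠ 0 := by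
    by_contra hno
    push Not at hno
    apply hc1
    ext w
    rw [hno (c w)]
    exact (hno _).symm
  obtain ⟨w₀, hw₀⟩ := hW
  have hcs0 : ∀ i : ℕ, ¬ q ∣ i → ∀ u, cs q (c ^ i) u = 0 := by
    intro i hi u
    apply hcfix i hi
    apply cs_fix
    rw [← pow_mul, Nat.mul_comm, pow_mul, hcq, one_pow]
  have hdouble : ∑ j ∈ Finset.range q, cs q (x * c ^ j) w₀ = q • w₀ := by
    have e1 : ∀ j, cs q (x * c ^ j) w₀ =
        ∑ i ∈ Finset.range q, (x ^ i) (((c ^ i) ^ j) w₀) := by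
      intro j
      rw [cs_apply]
      refine Finset.sum_congr rfl (fun i _ => ?_)
      have hcomm : Commute x (c ^ j) := ((show Commute c x from hcx).pow_left j).symm
      have : (x * c ^ j) ^ i = x ^ i * (c ^ i) ^ j := by
        rw [hcomm.mul_pow, ← pow_mul, ← pow_mul, Nat.mul_comm j i]
      rw [this]; rfl
    simp only [e1]
    rw [Finset.sum_comm]
    have e2 : ∀ i, ∑ j ∈ Finset.range q, (x ^ i) (((c ^ i) ^ j) w₀) =
        (x ^ i) (cs q (c ^ i) w₀) := by
      intro i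
      rw [cs_apply, map_sum]
    simp only [e2]
    rw [Finset.sum_eq_single 0]
    · rw [pow_zero, pow_zero, cs_one]; rfl
    · intro i hi hi0
      rw [hcs0 i, map_zero]
      intro hd
      have h1 := Nat.le_of_dvd (Nat.pos_of_ne_zero hi0) hd
      have h2 := Finset.mem_range.1 hi
      omega
    · intro h0
      exact absurd (Finset.mem_range.2 hq.pos) h0
  have hex : ∃ j, cs q (x * c ^ j) w₀ ≠ 0 := by
    by_contra hno
    push Not at hno
    have : q • w₀ = 0 := by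
      rw [← hdouble]; exact Finset.sum_eq_zero (fun j _ => hno j)
    exact hw₀ (eq_zero_of_nsmul q hWq w₀ this)
  obtain ⟨j, hj⟩ := hex
  have hcj : ∀ g ∈ Q, c ^ j * g = g * c ^ j :=
    fun g hg => ((show Commute c g from hcZ g hg).pow_left j).eq
  have hcja : a * c ^ j = c ^ j * a := by
    have : Commute a c := mul_inv_eq_iff_eq_mul.1 hca
    exact (this.pow_right j).eq
  have hxt_q : (x * c ^ j) ^ q = 1 := by
    have hcomm : Commute x (c ^ j) := ((show Commute c x from hcx).pow_left j).symm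
    rw [hcomm.mul_pow, hxq, one_mul, ← pow_mul, Nat.mul_comm, pow_mul, hcq, one_pow]
  have hvfix : (x * c ^ j) (cs q (x * c ^ j) w₀) = cs q (x * c ^ j) w₀ := cs_fix q _ hxt_q w₀
  have hcjQ : c ^ j ∈ Q := Q.pow_mem hcQ j
  have hyt : ∀ g ∈ Q, ((x * c ^ j) * (x' * c ^ j) * (x'' * c ^ j)) * g =
      g * ((x * c ^ j) * (x' * c ^ j) * (x'' * c ^ j)) := by
    intro g hg
    rw [twist_prod x x' x'' (c ^ j) (hcj x' hx'Q) (hcj x'' hx''Q)]
    have hd : Commute (c ^ j) g := hcj g hg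
    have hyg : Commute y g := hyZ g hg
    rw [← hy]
    exact (hyg.mul_left ((hd.mul_left hd).mul_left hd)).eq
  apply hj
  refine fin_contra q h5 hWq a (x * c ^ j) (x' * c ^ j) (x'' * c ^ j) c
    ((x * c ^ j) * (x' * c ^ j) * (x'' * c ^ j)) hN3 ?_ ?_ ?_ ?_ ?_ rfl ?_ ?_ ?_ hcq hcfix _ hvfix
  · exact twist_conj a x x' (c ^ j) (by rw [← hx']; group) hcja
  · exact twist_conj a x' x'' (c ^ j) (by rw [← hx'']; group) hcja
  · exact twist_rel x x' c (c ^ j) r1 (hcj x hxQ) (hcj x' hx'Q)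
  · exact ((show Commute c x from hcx).mul_right (Commute.pow_right (Commute.refl c) j)).eq
  · exact ((show Commute c x' from hcx').mul_right (Commute.pow_right (Commute.refl c) j)).eq
  · exact hyt _ (Q.mul_mem hxQ hcjQ)
  · exact hyt _ (Q.mul_mem hx'Q hcjQ)
  · exact hyt c hcQ

end CaseA

/-- **Theorem A**: a `q`-group (`q ≥ 5`) of automorphisms of a finite abelian group of order
prime to `6q`, invariant under a fixed-point-free action of `S₃`, is commutative. -/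
theorem SA : ∀ n, SAprop.{u} n := by
  intro n
  induction n with
  | zero =>
    intro W _ _ a t q Q h hq h5 hQ hcop hQa hQt hQfp hn
    exfalso
    have := Nat.card_pos (α := W)
    omega
  | succ n ih =>
    intro W _ _ a t q Q h hq h5 hQ hcop hQa hQt hQfp hn
    by_contra hnc
    by_cases hcase : ∃ z ∈ Q, (∀ x ∈ Q, z * x = x * z) ∧ a * z * a⁻¹ = z ∧ z ≠ 1
    · obtain ⟨z₀, hz₀Q, hz₀c, hz₀a, hz₀1⟩ := hcase
      exact SA_caseA h hq h5 hQ hcop hQa hQt hQfp ih hn hnc z₀ hz₀Q hz₀c hz₀a hz₀1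
    · push Not at hcase
      apply hnc
      set Z : Subgroup (LAut W) := Q ⊓ Subgroup.centralizer (Q : Set (LAut W)) with hZ
      have hZmem : ∀ z, z ∈ Z ↔ z ∈ Q ∧ ∀ x ∈ Q, x * z = z * x := by
        intro z
        rw [hZ, Subgroup.mem_inf, Subgroup.mem_centralizer_iff]
        simp
      have hZQ : Z ≤ Q := inf_le_left
      have hQa' := norm_inv Q a hQa
      have hQt' := norm_inv Q t hQt
      have hZn : ∀ x ∈ Q, ∀ z ∈ Z, x * z * x⁻¹ ∈ Z := by
        intro x hx z hz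
        have : x * z * x⁻¹ = z := by rw [((hZmem z).1 hz).2 x hx]; group
        rw [this]; exact hz
      have hZg : ∀ g : LAut W, (∀ x ∈ Q, g * x * g⁻¹ ∈ Q) → (∀ x ∈ Q, g⁻¹ * x * g ∈ Q) →
          ∀ z ∈ Z, g * z * g⁻¹ ∈ Z := by
        intro g hg hg' z hz
        obtain ⟨hzQ, hzc⟩ := (hZmem z).1 hz
        refine (hZmem _).2 ⟨hg z hzQ, fun x hx => ?_⟩
        have e := hzc _ (hg' x hx)
        calc x * (g * z * g⁻¹) = g * ((g⁻¹ * x * g) * z) * g⁻¹ := by group
          _ = g * (z * (g⁻¹ * x * g)) * g⁻¹ := by rw [e]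
          _ = (g * z * g⁻¹) * x := by group
      have hZa := hZg a hQa hQa'
      have hZt := hZg t hQt hQt'
      have hZ1 : Z ≠ ⊥ := by
        haveI : Fact q.Prime := ⟨hq⟩
        haveI hQnt : Nontrivial Q := by
          by_contra hnt
          rw [not_nontrivial_iff_subsingleton] at hnt
          apply hnc
          intro x hx y hy
          have e1 : (⟨x, hx⟩ : Q) = ⟨y, hy⟩ := Subsingleton.elim _ _
          have : x = y := congrArg Subtype.val e1
          rw [this]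
        haveI hcen := hQ.center_nontrivial
        obtain ⟨z, hz⟩ := exists_ne (1 : Subgroup.center Q)
        intro hb
        have hzZ : ((z : Q) : LAut W) ∈ Z := by
          refine (hZmem _).2 ⟨(z : Q).2, fun x hx => ?_⟩
          have := Subgroup.mem_center_iff.1 z.2 ⟨x, hx⟩
          exact congrArg Subtype.val this
        rw [hb, Subgroup.mem_bot] at hzZ
        apply hz
        apply Subtype.ext
        apply Subtype.ext
        exact hzZ
      have hZfix := SA_fixfree h hq h5 hQ hcop hQa hQt hQfp ih hn hnc Z hZQ hZn hZa hZt hZ1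
      refine SA_caseB h hq h5 hQ hcop hQa hQt hQfp Z hZQ ?_ hZa hZt ?_ hZfix
      · intro z hz x hx
        exact (((hZmem z).1 hz).2 x hx).symm
      · intro z hz hza
        exact hcase z ((hZmem z).1 hz).1 (fun x hx => (((hZmem z).1 hz).2 x hx).symm) hza

end Cfsg.Agent.Lib.Helper63.S3A
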