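import Mathlib
import Cfsg.Agent.Lib.Helper63.S3Res

set_option autoImplicit false

namespace Cfsg.Agent.Lib.Helper63.S3A

section StarBasic

variable {W : Type*} [AddCommGroup W]

/-- trace relation for conjugate subgroups -/
theorem tr_conj2 (F F' : Subgroup (LAut W)) [Fintype F] [Fintype F'] (g : LAut W)
    (h1 : ∀ e ∈ F, g * e * g⁻¹ ∈ F') (h2 : ∀ e ∈ F', g⁻¹ * e * g ∈ F) (w : W) :
    g (tr F w) = tr F' (g w) := by
  rw [tr_apply, tr_apply, map_sum]
  let φ : F ≃ F' :=
    { toFun := fun z => ⟨g * z * g⁻¹, h1 z z.2⟩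
      invFun := fun z => ⟨g⁻¹ * z * g, h2 z z.2⟩
      left_inv := fun z => by
        apply Subtype.ext
        show g⁻¹ * (g * (z : LAut W) * g⁻¹) * g = z
        group
      right_inv := fun z => by
        apply Subtype.ext
        show g * (g⁻¹ * (z : LAut W) * g) * g⁻¹ = z
        group }
  refine Fintype.sum_equiv φ _ _ (fun z => ?_)
  show g ((z : LAut W) w) = (g * (z : LAut W) * g⁻¹) (g w)
  simp

/-- fixed by a group of automorphisms -/
def Fx (F : Subgroup (LAut W)) (u : W) : Prop := ∀ e ∈ F, e u = u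

theorem Fx_shift (F F' : Subgroup (LAut W)) (g : LAut W) (h : ∀ e ∈ F', g⁻¹ * e * g ∈ F) (u : W)
    (hu : Fx F u) : Fx F' (g u) := by
  intro e he
  have h2 : g⁻¹ (e (g u)) = u := hu _ (h e he)
  calc e (g u) = g (g⁻¹ (e (g u))) := (app_inv g _).symm
    _ = g u := by rw [h2]

theorem Fx_add (F : Subgroup (LAut W)) (u v : W) (hu : Fx F u) (hv : Fx F v) : Fx F (u + v) := by
  intro e he
  rw [map_add, hu e he, hv e he]

theorem Fx_neg (F : Subgroup (LAut W)) (u : W) (hu : Fx F u) : Fx F (-u) := by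
  intro e he
  rw [map_neg, hu e he]

theorem Fx_sub (F : Subgroup (LAut W)) (u v : W) (hu : Fx F u) (hv : Fx F v) : Fx F (u - v) := by
  intro e he
  rw [map_sub, hu e he, hv e he]

theorem Fx_nsmul (F : Subgroup (LAut W)) (n : ℕ) (u : W) (hu : Fx F u) : Fx F (n • u) := by
  intro e he
  rw [map_nsmul, hu e he]

theorem tr_comm_elt (F : Subgroup (LAut W)) [Fintype F] (e : LAut W)
    (he : ∀ f ∈ F, e * f = f * e) (w : W) : e (tr F w) = tr F (e w) := by
  apply tr_conj
  intro z hz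
  have : e * z * e⁻¹ = z := by rw [he z hz]; group
  rw [this]; exact hz

theorem tr_tr_comm (F F' : Subgroup (LAut W)) [Fintype F] [Fintype F']
    (hc : ∀ f ∈ F, ∀ f' ∈ F', f * f' = f' * f) (w : W) :
    tr F (tr F' w) = tr F' (tr F w) := by
  rw [tr_apply F, tr_apply F, map_sum]
  exact Finset.sum_congr rfl (fun z _ => tr_comm_elt F' z (fun f' hf' => hc z z.2 f' hf') w)

theorem tr_tr_self (F : Subgroup (LAut W)) [Fintype F] (w : W) :
    tr F (tr F w) = Fintype.card F • tr F w :=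
  tr_of_fix F _ (fun z hz => tr_fix F w z hz)

theorem proj_zero (F : Subgroup (LAut W)) [Fintype F] (u : W) :
    tr F (Fintype.card F • u - tr F u) = 0 := by
  rw [map_sub, map_nsmul, tr_tr_self, sub_self]

theorem Fx_tr (F F' : Subgroup (LAut W)) [Fintype F']
    (hc : ∀ f ∈ F, ∀ f' ∈ F', f * f' = f' * f) (u : W) (hu : Fx F u) : Fx F (tr F' u) := by
  intro e he
  rw [tr_comm_elt F' e (fun f' hf' => hc e he f' hf'), hu e he]

theorem fix_of_smul_eq_tr [Finite W] (F : Subgroup (LAut W)) [Fintype F]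
    (hcop : (Fintype.card F).Coprime (Nat.card W)) (u : W)
    (h : Fintype.card F • u = tr F u) : Fx F u := by
  intro e he
  have h1 : e (Fintype.card F • u) = Fintype.card F • u := by
    rw [h]; exact tr_fix F u e he
  rw [map_nsmul] at h1
  have h2 : Fintype.card F • (e u - u) = 0 := by rw [smul_sub, h1, sub_self]
  exact sub_eq_zero.1 (eq_zero_of_nsmul _ hcop _ h2)

theorem fix_of_proj [Finite W] (F : Subgroup (LAut W)) [Fintype F]
    (hcop : (Fintype.card F).Coprime (Nat.card W)) (u : W)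
    (h : Fintype.card F • u - tr F u = 0) : Fx F u :=
  fix_of_smul_eq_tr F hcop u (sub_eq_zero.1 h)

theorem zero_of_Fx_tr [Finite W] (F : Subgroup (LAut W)) [Fintype F]
    (hcop : (Fintype.card F).Coprime (Nat.card W)) (u : W) (hu : Fx F u) (h : tr F u = 0) :
    u = 0 := by
  rw [tr_of_fix F u hu] at h
  exact eq_zero_of_nsmul _ hcop _ h

theorem conj_sq_eq {K : Type*} [Group K] (a e : K) (ha3 : a * a * a = 1) :
    a * (a * e * a⁻¹) * a⁻¹ = a⁻¹ * e * a := by
  calc a * (a * e * a⁻¹) * a⁻¹ = (a * a * a) * (a⁻¹ * e * a) * (a * a * a)⁻¹ := by group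
    _ = a⁻¹ * e * a := by rw [ha3]; group

/-- the sum over the squares of a commutative group of odd order -/
theorem tr_sq (F : Subgroup (LAut W)) [Fintype F] (hFc : ∀ x ∈ F, ∀ y ∈ F, x * y = y * x)
    (hodd : (Fintype.card F).Coprime 2) (w : W) :
    ∑ e : F, ((e : LAut W) * (e : LAut W)) w = tr F w := by
  rw [tr_apply]
  have hinj : Function.Injective
      (fun z : F => (⟨(z : LAut W) * (z : LAut W), F.mul_mem z.2 z.2⟩ : F)) := by
    intro z z' hh
    have h1 : (z : LAut W) * z = (z' : LAut W) * z' := congrArg Subtype.val hh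
    have h2 : ((z : LAut W) * (z' : LAut W)⁻¹) ^ 2 = 1 := by
      rw [pow_two]
      have hc' : (z' : LAut W)⁻¹ * (z : LAut W) = (z : LAut W) * (z' : LAut W)⁻¹ :=
        hFc _ (F.inv_mem z'.2) _ z.2
      calc (z : LAut W) * (z' : LAut W)⁻¹ * ((z : LAut W) * (z' : LAut W)⁻¹)
          = (z : LAut W) * ((z' : LAut W)⁻¹ * (z : LAut W)) * (z' : LAut W)⁻¹ := by group
        _ = (z : LAut W) * ((z : LAut W) * (z' : LAut W)⁻¹) * (z' : LAut W)⁻¹ := by rw [hc']
        _ = ((z : LAut W) * z) * (z' : LAut W)⁻¹ * (z' : LAut W)⁻¹ := by group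
        _ = ((z' : LAut W) * z') * (z' : LAut W)⁻¹ * (z' : LAut W)⁻¹ := by rw [h1]
        _ = 1 := by group
    have hn : ((z : LAut W) * (z' : LAut W)⁻¹) ^ (Fintype.card F) = 1 := by
      have := pow_card_eq_one
        (x := (⟨(z : LAut W) * (z' : LAut W)⁻¹, F.mul_mem z.2 (F.inv_mem z'.2)⟩ : F))
      exact congrArg Subtype.val this
    have h3 := root_mem ⊥ _ _ 2 hn hodd (by rw [Subgroup.mem_bot]; exact h2)
    rw [Subgroup.mem_bot] at h3
    exact Subtype.ext (mul_inv_eq_one.1 h3)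
  have hbij : Function.Bijective
      (fun z : F => (⟨(z : LAut W) * (z : LAut W), F.mul_mem z.2 z.2⟩ : F)) :=
    ⟨hinj, Finite.surjective_of_injective hinj⟩
  exact Fintype.sum_bijective _ hbij _ _ (fun z => rfl)

end StarBasic

end Cfsg.Agent.Lib.Helper63.S3A
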