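import Mathlib
import Cfsg.Agent.Lib.Helper63.S3Star

set_option autoImplicit false

namespace Cfsg.Agent.Lib.Helper63.S3A

section StarMain

variable {W : Type*} [AddCommGroup W] [Finite W] {a t : LAut W}

theorem cop_of_le {K : Type*} [Group K] {F E : Subgroup K} [Finite E] (hle : F ≤ E) {m : ℕ}
    (hcop : (Nat.card E).Coprime m) : (Nat.card F).Coprime m :=
  Nat.Coprime.coprime_dvd_left (Subgroup.card_dvd_of_le hle) hcop

/-- the key vanishing lemma for the three conjugate subgroups -/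
theorem star (h : S3 a t)
    (E E' E₁ E₂ E₃ R : Subgroup (LAut W))
    (hEc : ∀ x ∈ E, ∀ y ∈ E, x * y = y * x)
    (hEcop : (Nat.card E).Coprime (Nat.card W)) (hEodd : (Nat.card E).Coprime 2)
    (hE' : E' ≤ E) (h1' : E₁ ≤ E') (h2 : E₂ ≤ E) (h3 : E₃ ≤ E)
    (c12 : ∀ e ∈ E₁, a * e * a⁻¹ ∈ E₂) (c23 : ∀ e ∈ E₂, a * e * a⁻¹ ∈ E₃)
    (c31 : ∀ e ∈ E₃, a * e * a⁻¹ ∈ E₁)
    (ht1 : ∀ e ∈ E₁, t * e * t⁻¹ = e⁻¹)
    (ht23 : ∀ e ∈ E₂, t * e * t⁻¹ ∈ E₃) (ht32 : ∀ e ∈ E₃, t * e * t⁻¹ ∈ E₂)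
    (hE'a : ∀ e ∈ E', a * e * a⁻¹ ∈ E') (hE't : ∀ e ∈ E', t * e * t⁻¹ ∈ E')
    (hR1 : ∀ ρ ∈ R, ∀ e ∈ E₁, ρ * e * ρ⁻¹ ∈ E₁) (hR2 : ∀ ρ ∈ R, ∀ e ∈ E₂, ρ * e * ρ⁻¹ ∈ E₂)
    (hR3 : ∀ ρ ∈ R, ∀ e ∈ E₃, ρ * e * ρ⁻¹ ∈ E₃) (hR' : ∀ ρ ∈ R, ∀ e ∈ E', ρ * e * ρ⁻¹ ∈ E')
    (f4 : ∀ e ∈ E₂, ∀ P : Subgroup (LAut W),
      (∀ ρ ∈ R, e * (ρ * t * ρ⁻¹ * t⁻¹) * e⁻¹ * (ρ * t * ρ⁻¹ * t⁻¹)⁻¹ ∈ P) → e ∈ P)
    (f5 : ∀ e ∈ E', ∀ P : Subgroup (LAut W),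
      (∀ ρ ∈ R, e * (ρ * a * ρ⁻¹ * a⁻¹) * e⁻¹ * (ρ * a * ρ⁻¹ * a⁻¹)⁻¹ ∈ P) → e ∈ P) :
    ∀ e ∈ E₁, e = 1 := by
  classical
  letI : Fintype E₁ := Fintype.ofFinite E₁
  letI : Fintype E₂ := Fintype.ofFinite E₂
  letI : Fintype E₃ := Fintype.ofFinite E₃
  letI : Fintype E' := Fintype.ofFinite E'
  have h1 : E₁ ≤ E := h1'.trans hE'
  have hc₁ : (Fintype.card E₁).Coprime (Nat.card W) := by
    rw [← Nat.card_eq_fintype_card]; exact cop_of_le h1 hEcop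
  have hc₂ : (Fintype.card E₂).Coprime (Nat.card W) := by
    rw [← Nat.card_eq_fintype_card]; exact cop_of_le h2 hEcop
  have hc₃ : (Fintype.card E₃).Coprime (Nat.card W) := by
    rw [← Nat.card_eq_fintype_card]; exact cop_of_le h3 hEcop
  have hc' : (Fintype.card E').Coprime (Nat.card W) := by
    rw [← Nat.card_eq_fintype_card]; exact cop_of_le hE' hEcop
  have ho₁ : (Fintype.card E₁).Coprime 2 := by
    rw [← Nat.card_eq_fintype_card]; exact cop_of_le h1 hEodd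
  have ha3 : a * a * a = 1 := by ext w; simp [h.a3]
  have hE'c : ∀ x ∈ E', ∀ y ∈ E', x * y = y * x := fun x hx y hy => hEc x (hE' hx) y (hE' hy)
  have hE₁c : ∀ x ∈ E₁, ∀ y ∈ E₁, x * y = y * x := fun x hx y hy => hEc x (h1 hx) y (h1 hy)
  -- inverse conjugations
  have c21 : ∀ e ∈ E₂, a⁻¹ * e * a ∈ E₁ := by
    intro e he
    rw [← conj_sq_eq a e ha3]; exact c31 _ (c23 e he)
  have c32 : ∀ e ∈ E₃, a⁻¹ * e * a ∈ E₂ := by
    intro e he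
    rw [← conj_sq_eq a e ha3]; exact c12 _ (c31 e he)
  have c13 : ∀ e ∈ E₁, a⁻¹ * e * a ∈ E₃ := by
    intro e he
    rw [← conj_sq_eq a e ha3]; exact c23 _ (c12 e he)
  have t11 : ∀ e ∈ E₁, t * e * t⁻¹ ∈ E₁ := fun e he => by rw [ht1 e he]; exact E₁.inv_mem he
  have t11' : ∀ e ∈ E₁, t⁻¹ * e * t ∈ E₁ := fun e he => by
    have := t11 e he
    rw [h.tinv] at this ⊢
    exact this
  have t23' : ∀ e ∈ E₃, t⁻¹ * e * t ∈ E₂ := fun e he => by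
    have := ht32 e he
    rw [h.tinv] at this ⊢
    exact this
  have t32' : ∀ e ∈ E₂, t⁻¹ * e * t ∈ E₃ := fun e he => by
    have := ht23 e he
    rw [h.tinv] at this ⊢
    exact this
  -- trace relations
  have hT12 : ∀ w, a (tr E₁ w) = tr E₂ (a w) := tr_conj2 E₁ E₂ a c12 c21
  have hT23 : ∀ w, a (tr E₂ w) = tr E₃ (a w) := tr_conj2 E₂ E₃ a c23 c32
  have hT31 : ∀ w, a (tr E₃ w) = tr E₁ (a w) := tr_conj2 E₃ E₁ a c31 c13
  have hTt1 : ∀ w, t (tr E₁ w) = tr E₁ (t w) := tr_conj E₁ t t11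
  have hTt23 : ∀ w, t (tr E₂ w) = tr E₃ (t w) := tr_conj2 E₂ E₃ t ht23 t23'
  have hTt32 : ∀ w, t (tr E₃ w) = tr E₂ (t w) := tr_conj2 E₃ E₂ t ht32 t32'
  -- shifts of fixed vectors
  have F12 : ∀ u, Fx E₁ u → Fx E₂ (a u) := Fx_shift E₁ E₂ a c21
  have F23 : ∀ u, Fx E₂ u → Fx E₃ (a u) := Fx_shift E₂ E₃ a c32
  have F31 : ∀ u, Fx E₃ u → Fx E₁ (a u) := Fx_shift E₃ E₁ a c13
  have Ft1 : ∀ u, Fx E₁ u → Fx E₁ (t u) := Fx_shift E₁ E₁ t t11'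
  have Ft23 : ∀ u, Fx E₂ u → Fx E₃ (t u) := Fx_shift E₂ E₃ t t23'
  have Ft32 : ∀ u, Fx E₃ u → Fx E₂ (t u) := Fx_shift E₃ E₂ t t32'
  have FE : ∀ (F : Subgroup (LAut W)), F ≤ E → ∀ e ∈ E, ∀ u, Fx F u → Fx F (e u) := by
    intro F hF e he
    apply Fx_shift F F e
    intro f hf
    have : e⁻¹ * f * e = f := by
      calc e⁻¹ * f * e = e⁻¹ * (f * e) := by group
        _ = e⁻¹ * (e * f) := by rw [hEc e he f (hF hf)]
        _ = f := by group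
    rw [this]; exact hf
  have hRinv : ∀ (F : Subgroup (LAut W)), (∀ ρ ∈ R, ∀ e ∈ F, ρ * e * ρ⁻¹ ∈ F) →
      ∀ ρ ∈ R, ∀ e ∈ F, ρ⁻¹ * e * ρ ∈ F := by
    intro F hF ρ hρ e he
    have := hF ρ⁻¹ (R.inv_mem hρ) e he
    rwa [inv_inv] at this
  have FR : ∀ (F : Subgroup (LAut W)), (∀ ρ ∈ R, ∀ e ∈ F, ρ * e * ρ⁻¹ ∈ F) →
      ∀ ρ ∈ R, ∀ u, Fx F u → Fx F (ρ u) := by
    intro F hF ρ hρ
    exact Fx_shift F F ρ (hRinv F hF ρ hρ)
  have TE : ∀ (F : Subgroup (LAut W)) [Fintype F], F ≤ E → ∀ e ∈ E, ∀ u,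
      tr F (e u) = e (tr F u) := by
    intro F _ hF e he u
    exact (tr_comm_elt F e (fun f hf => hEc e he f (hF hf)) u).symm
  have TR : ∀ (F : Subgroup (LAut W)) [Fintype F], (∀ ρ ∈ R, ∀ e ∈ F, ρ * e * ρ⁻¹ ∈ F) →
      ∀ ρ ∈ R, ∀ u, tr F (ρ u) = ρ (tr F u) := by
    intro F _ hF ρ hρ u
    exact (tr_conj F ρ (hF ρ hρ) u).symm
  have cEE : ∀ (F F' : Subgroup (LAut W)), F ≤ E → F' ≤ E →
      ∀ f ∈ F, ∀ f' ∈ F', f * f' = f' * f := fun F F' hF hF' f hf f' hf' =>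
    hEc f (hF hf) f' (hF' hf')
  -- vectors fixed by t have vanishing a-norm
  have hsum : ∀ v, t v = v → v + a v + a (a v) = 0 := by
    intro v hv
    apply h.fp
    · rw [map_add, map_add, h.a3]; abel
    · rw [map_add, map_add, h.rel, h.rel2, hv]; abel
  have htv : ∀ u, t (u + t u) = u + t u := by
    intro u
    rw [map_add, h.t2, add_comm]
  -- (star 3)
  have s3neg : ∀ u, Fx E₂ u → Fx E₃ u → tr E₁ u = 0 → t u = -u := by
    intro u hu2 hu3 hT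
    have hv2 : Fx E₂ (u + t u) := Fx_add _ _ _ hu2 (Ft32 u hu3)
    have hv3 : Fx E₃ (u + t u) := Fx_add _ _ _ hu3 (Ft23 u hu2)
    have hvT : tr E₁ (u + t u) = 0 := by rw [map_add, ← hTt1, hT, map_zero, add_zero]
    have hs := hsum _ (htv u)
    set v := u + t u with hv
    have e1 : a (a v) = -(v + a v) := (neg_eq_of_add_eq_zero_right hs).symm
    have hav3 : Fx E₃ (a v) := F23 v hv2
    have haav3 : Fx E₃ (a (a v)) := by
      rw [e1]; exact Fx_neg _ _ (Fx_add _ _ _ hv3 hav3)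
    have hv1 : Fx E₁ v := by
      have := F31 _ haav3
      rwa [h.a3] at this
    have hv0 : v = 0 := zero_of_Fx_tr E₁ hc₁ v hv1 hvT
    rw [hv] at hv0
    exact (neg_eq_of_add_eq_zero_right hv0).symm
  have s3 : ∀ u, Fx E₂ u → Fx E₃ u → tr E₁ u = 0 → u = 0 := by
    intro u hu2 hu3 hT
    have hu1 : Fx E₁ u := by
      intro e he
      have heE : e ∈ E := h1 he
      have h4 := s3neg (e u) (FE E₂ h2 e heE u hu2) (FE E₃ h3 e heE u hu3)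
        (by rw [TE E₁ h1 e heE, hT, map_zero])
      have h5 : t (e u) = (t * e * t⁻¹) (t u) := by
        show t (e u) = t (e (t⁻¹ (t u)))
        rw [inv_app]
      rw [h5, ht1 e he, s3neg u hu2 hu3 hT, map_neg, neg_inj] at h4
      -- h4 : e⁻¹ u = e u
      have h6 : (e * e) u = u := by
        show e (e u) = u
        rw [← h4, app_inv]
      have hn : e ^ (Fintype.card E₁) = 1 := by
        have := pow_card_eq_one (x := (⟨e, he⟩ : E₁))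
        exact congrArg Subtype.val this
      have h7 : e ^ 2 ∈ stab u := by rw [pow_two]; exact h6
      exact root_mem (stab u) e _ 2 hn ho₁ h7
    exact zero_of_Fx_tr E₁ hc₁ u hu1 hT
  -- (i)
  have i1 : ∀ u, Fx E₂ u → Fx E₃ u → Fx E₁ u := by
    intro u hu2 hu3
    apply fix_of_proj E₁ hc₁
    apply s3
    · exact Fx_sub _ _ _ (Fx_nsmul _ _ _ hu2) (Fx_tr E₂ E₁ (cEE E₂ E₁ h2 h1) u hu2)
    · exact Fx_sub _ _ _ (Fx_nsmul _ _ _ hu3) (Fx_tr E₃ E₁ (cEE E₃ E₁ h3 h1) u hu3)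
    · exact proj_zero E₁ u
  have i2 : ∀ u, Fx E₁ u → Fx E₂ u → Fx E₃ u := by
    intro u hu1 hu2
    have := F23 _ (F12 _ (i1 (a u) (F12 u hu1) (F23 u hu2)))
    rwa [h.a3] at this
  have i3 : ∀ u, Fx E₃ u → Fx E₁ u → Fx E₂ u := by
    intro u hu3 hu1
    have := F12 _ (i1 (a (a u)) (F12 _ (F31 u hu3)) (F23 _ (F12 u hu1)))
    rwa [h.a3] at this
  -- (star 2)
  have s2neg : ∀ u, Fx E₁ u → tr E₂ u = 0 → tr E₃ u = 0 → t u = -u := by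
    intro u hu1 hT2 hT3
    have hv1 : Fx E₁ (u + t u) := Fx_add _ _ _ hu1 (Ft1 u hu1)
    have hvT2 : tr E₂ (u + t u) = 0 := by rw [map_add, ← hTt32, hT2, hT3, map_zero, add_zero]
    have hvT3 : tr E₃ (u + t u) = 0 := by rw [map_add, ← hTt23, hT2, hT3, map_zero, add_zero]
    have hs := hsum _ (htv u)
    set v := u + t u with hv
    have hs' := congrArg (tr E₁) hs
    rw [map_add, map_add, map_zero, ← hT31, ← hT31, ← hT23, hvT2, hvT3] at hs'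
    simp only [map_zero, add_zero] at hs'
    have hv0 : v = 0 := zero_of_Fx_tr E₁ hc₁ v hv1 hs'
    rw [hv] at hv0
    exact (neg_eq_of_add_eq_zero_right hv0).symm
  have s2 : ∀ u, Fx E₁ u → tr E₂ u = 0 → tr E₃ u = 0 → u = 0 := by
    intro u hu1 hT2 hT3
    have hσ : ∀ u', Fx E₁ u' → tr E₂ u' = 0 → tr E₃ u' = 0 →
        ∀ ρ ∈ R, (ρ * t * ρ⁻¹ * t⁻¹) u' = u' := by
      intro u' hu1' hT2' hT3' ρ hρ
      have hρ' := R.inv_mem hρ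
      have e1 := s2neg u' hu1' hT2' hT3'
      have e2 := s2neg (ρ⁻¹ u') (FR E₁ hR1 _ hρ' u' hu1')
        (by rw [TR E₂ hR2 _ hρ', hT2', map_zero]) (by rw [TR E₃ hR3 _ hρ', hT3', map_zero])
      show ρ (t (ρ⁻¹ (t⁻¹ u'))) = u'
      rw [h.tinv_app, e1, map_neg, map_neg, e2, neg_neg, app_inv]
    have hu2 : Fx E₂ u := by
      intro e he
      have heE : e ∈ E := h2 he
      have heE' : e⁻¹ ∈ E := E.inv_mem heE
      apply (mem_stab u e).1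
      apply f4 e he (stab u)
      intro ρ hρ
      rw [mem_stab]
      have e1 : (ρ * t * ρ⁻¹ * t⁻¹)⁻¹ u = u :=
        (mem_stab u _).1 ((stab u).inv_mem ((mem_stab u _).2 (hσ u hu1 hT2 hT3 ρ hρ)))
      have e2 := hσ (e⁻¹ u) (FE E₁ h1 _ heE' u hu1) (by rw [TE E₂ h2 _ heE', hT2, map_zero])
        (by rw [TE E₃ h3 _ heE', hT3, map_zero]) ρ hρ
      show e ((ρ * t * ρ⁻¹ * t⁻¹) (e⁻¹ ((ρ * t * ρ⁻¹ * t⁻¹)⁻¹ u))) = u
      rw [e1, e2, app_inv]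
    exact zero_of_Fx_tr E₂ hc₂ u hu2 hT2
  -- (ii)
  have ii1 : ∀ u, Fx E₁ u → Fx E₂ u ∧ Fx E₃ u := by
    intro u hu1
    have hu'1 : Fx E₁ (Fintype.card E₃ • u - tr E₃ u) :=
      Fx_sub _ _ _ (Fx_nsmul _ _ _ hu1) (Fx_tr E₁ E₃ (cEE E₁ E₃ h1 h3) u hu1)
    have hu'T : tr E₃ (Fintype.card E₃ • u - tr E₃ u) = 0 := proj_zero E₃ u
    set u' := Fintype.card E₃ • u - tr E₃ u with hu'
    have hx1 : Fx E₁ (Fintype.card E₂ • u' - tr E₂ u') :=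
      Fx_sub _ _ _ (Fx_nsmul _ _ _ hu'1) (Fx_tr E₁ E₂ (cEE E₁ E₂ h1 h2) u' hu'1)
    have hxT2 : tr E₂ (Fintype.card E₂ • u' - tr E₂ u') = 0 := proj_zero E₂ u'
    have hxT3 : tr E₃ (Fintype.card E₂ • u' - tr E₂ u') = 0 := by
      rw [map_sub, map_nsmul, tr_tr_comm E₃ E₂ (cEE E₃ E₂ h3 h2), hu'T, map_zero, smul_zero,
        sub_zero]
    have hx0 := s2 _ hx1 hxT2 hxT3
    have hu'2 : Fx E₂ u' := fix_of_proj E₂ hc₂ u' hx0
    have hu'3 : Fx E₃ u' := i2 u' hu'1 hu'2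
    have hu'0 : u' = 0 := zero_of_Fx_tr E₃ hc₃ u' hu'3 hu'T
    have hu3 : Fx E₃ u := fix_of_proj E₃ hc₃ u hu'0
    exact ⟨i3 u hu3 hu1, hu3⟩
  have ii2 : ∀ u, Fx E₂ u → Fx E₃ u := by
    intro u hu2
    have := F23 _ (ii1 _ (F31 _ (F23 u hu2))).1
    rwa [h.a3] at this
  -- (star 1)
  have hA : ∀ x, tr E₁ x = 0 → sc E' t x = 0 := by
    intro x hx
    have hstep : ∀ e₁ : E₁, sc E' t (((e₁ : LAut W) * (e₁ : LAut W)) x) = sc E' t x := by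
      intro e₁
      rw [sc_apply, sc_apply]
      refine Fintype.sum_equiv (Equiv.mulRight (⟨(e₁ : LAut W), h1' e₁.2⟩ : E')) _ _ (fun e => ?_)
      show ((e : LAut W) * t * (e : LAut W)⁻¹ * t⁻¹) (((e₁ : LAut W) * (e₁ : LAut W)) x) =
        (((e : LAut W) * (e₁ : LAut W)) * t * ((e : LAut W) * (e₁ : LAut W))⁻¹ * t⁻¹) x
      rw [← theta_mul E' hE'c t hE't e e₁ e.2 (h1' e₁.2)]
      have e3 : (e₁ : LAut W) * t * (e₁ : LAut W)⁻¹ * t⁻¹ = (e₁ : LAut W) * (e₁ : LAut W) := by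
        have := ht1 e₁ e₁.2
        calc (e₁ : LAut W) * t * (e₁ : LAut W)⁻¹ * t⁻¹
            = (e₁ : LAut W) * (t * (e₁ : LAut W) * t⁻¹)⁻¹ := by group
          _ = (e₁ : LAut W) * (e₁ : LAut W) := by rw [this, inv_inv]
      rw [e3]
      rfl
    have hsumE : ∑ e₁ : E₁, sc E' t (((e₁ : LAut W) * (e₁ : LAut W)) x) = 0 := by
      rw [← map_sum, tr_sq E₁ hE₁c ho₁, hx, map_zero]
    rw [Finset.sum_congr rfl (fun e₁ _ => hstep e₁), Finset.sum_const, Finset.card_univ] at hsumE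
    exact eq_zero_of_nsmul _ hc₁ _ hsumE
  have hE'a' := norm_inv E' a hE'a
  have s1 : ∀ u, tr E₁ u = 0 → tr E₂ u = 0 → tr E₃ u = 0 → u = 0 := by
    -- invariance of the class under a, t
    have Ka : ∀ u, tr E₁ u = 0 → tr E₂ u = 0 → tr E₃ u = 0 →
        tr E₁ (a u) = 0 ∧ tr E₂ (a u) = 0 ∧ tr E₃ (a u) = 0 := by
      intro u k1 k2 k3
      refine ⟨by rw [← hT31, k3, map_zero], by rw [← hT12, k1, map_zero],
        by rw [← hT23, k2, map_zero]⟩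
    have hC : ∀ u, tr E₁ u = 0 → tr E₂ u = 0 → tr E₃ u = 0 →
        ∀ e ∈ E', (e * a * e⁻¹ * a⁻¹) u = u := by
      intro u k1 k2 k3 e he
      obtain ⟨ka1, ka2, ka3⟩ := Ka u k1 k2 k3
      obtain ⟨kaa1, kaa2, kaa3⟩ := Ka (a u) ka1 ka2 ka3
      -- the averaged norm relation
      have hB : Fintype.card E' • u + sc E' a (a u) + sc E' (a * a) ((a * a) u) = 0 := by
        have hz : ∑ e : E', (e : LAut W) ((e : LAut W)⁻¹ u + a ((e : LAut W)⁻¹ u)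
            + (a * a) ((e : LAut W)⁻¹ u) + t ((e : LAut W)⁻¹ u)
            + (a * t * a⁻¹) ((e : LAut W)⁻¹ u) + (a⁻¹ * t * a⁻¹⁻¹) ((e : LAut W)⁻¹ u)) = 0 := by
          refine Finset.sum_eq_zero (fun e _ => ?_)
          have hn := h.norm ((e : LAut W)⁻¹ u)
          have q1 : ∀ w, (a * t * a⁻¹) w = t (a w) := by
            intro w
            show a (t (a⁻¹ w)) = t (a w)
            rw [h.ainv_app, h.rel2, h.rel]
          have q2 : ∀ w, (a⁻¹ * t * a⁻¹⁻¹) w = t (a (a w)) := by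
            intro w
            rw [inv_inv]
            show a⁻¹ (t (a w)) = t (a (a w))
            rw [h.ainv_app, h.rel, h.a3, h.rel2]
          rw [q1, q2]
          show (e : LAut W) ((e : LAut W)⁻¹ u + a ((e : LAut W)⁻¹ u)
            + a (a ((e : LAut W)⁻¹ u)) + t ((e : LAut W)⁻¹ u)
            + t (a ((e : LAut W)⁻¹ u)) + t (a (a ((e : LAut W)⁻¹ u)))) = 0
          rw [hn, map_zero]
        simp only [map_add, Finset.sum_add_distrib] at hz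
        rw [← sc_sum E' a u, ← sc_sum E' (a * a) u, ← sc_sum E' t u,
          ← sc_sum E' (a * t * a⁻¹) u, ← sc_sum E' (a⁻¹ * t * a⁻¹⁻¹) u] at hz
        have z1 : sc E' t (t u) = 0 := hA _ (by rw [← hTt1, k1, map_zero])
        have z2 : sc E' (a * t * a⁻¹) ((a * t * a⁻¹) u) = 0 := by
          have : (a * t * a⁻¹) u = a (t (a⁻¹ u)) := rfl
          rw [this, sc_conj E' a t hE'a, hA, map_zero]
          rw [← hTt1, h.ainv_app, kaa1, map_zero]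
        have z3 : sc E' (a⁻¹ * t * a⁻¹⁻¹) ((a⁻¹ * t * a⁻¹⁻¹) u) = 0 := by
          have : (a⁻¹ * t * a⁻¹⁻¹) u = a⁻¹ (t (a⁻¹⁻¹ u)) := rfl
          rw [this, sc_conj E' a⁻¹ t (fun z hz => by rw [inv_inv]; exact hE'a' z hz), hA, map_zero]
          rw [← hTt1, inv_inv, ka1, map_zero]
        rw [z1, z2, z3, add_zero, add_zero, add_zero] at hz
        have e1 : ∑ e : E', (e : LAut W) ((e : LAut W)⁻¹ u) = Fintype.card E' • u := by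
          simp [Finset.sum_const, Finset.card_univ]
        rw [e1] at hz
        exact hz
      have f1 : (e * a * e⁻¹ * a⁻¹) (sc E' a (a u)) = sc E' a (a u) :=
        sc_fix E' hE'c a hE'a _ e he
      have hE'aa : ∀ z ∈ E', (a * a) * z * (a * a)⁻¹ ∈ E' := by
        intro z hz
        have : (a * a) * z * (a * a)⁻¹ = a * (a * z * a⁻¹) * a⁻¹ := by group
        rw [this]; exact hE'a _ (hE'a z hz)
      have f2 : (e * a * e⁻¹ * a⁻¹) (sc E' (a * a) ((a * a) u)) = sc E' (a * a) ((a * a) u) := by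
        have hy : a * e⁻¹ * a⁻¹ ∈ E' := hE'a _ (E'.inv_mem he)
        have hcomm : e * (a * e⁻¹ * a⁻¹) = (a * e⁻¹ * a⁻¹) * e := hE'c e he _ hy
        have e2 : e * a * e⁻¹ * a⁻¹ =
            (a * e⁻¹ * a⁻¹) * (a * a) * (a * e⁻¹ * a⁻¹)⁻¹ * (a * a)⁻¹ := by
          calc e * a * e⁻¹ * a⁻¹ = e * (a * e⁻¹ * a⁻¹) := by group
            _ = (a * e⁻¹ * a⁻¹) * e := hcomm
            _ = (a * e⁻¹ * a⁻¹) * ((a * a * a) * e * (a * a * a)⁻¹) := by rw [ha3]; group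
            _ = (a * e⁻¹ * a⁻¹) * (a * a) * (a * e⁻¹ * a⁻¹)⁻¹ * (a * a)⁻¹ := by group
        rw [e2]
        exact sc_fix E' hE'c (a * a) hE'aa _ _ hy
      have e3 : Fintype.card E' • u = -(sc E' a (a u) + sc E' (a * a) ((a * a) u)) := by
        rw [add_assoc] at hB
        exact eq_neg_of_add_eq_zero_left hB
      have f3 : (e * a * e⁻¹ * a⁻¹) (Fintype.card E' • u) = Fintype.card E' • u := by
        rw [e3, map_neg, map_add, f1, f2]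
      rw [map_nsmul] at f3
      have f4' : Fintype.card E' • ((e * a * e⁻¹ * a⁻¹) u - u) = 0 := by
        rw [smul_sub, f3, sub_self]
      exact sub_eq_zero.1 (eq_zero_of_nsmul _ hc' _ f4')
    intro u k1 k2 k3
    have hu' : Fx E' u := by
      intro e₀ he₀
      apply (mem_stab u e₀).1
      apply f5 e₀ he₀ (stab u)
      intro ρ hρ
      rw [mem_stab]
      have hρ' := R.inv_mem hρ
      have he' : a⁻¹ * e₀ * a ∈ E' := hE'a' e₀ he₀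
      have he : ρ⁻¹ * (a⁻¹ * e₀ * a) * ρ ∈ E' := hRinv E' hR' ρ hρ _ he'
      have hid : e₀ * (ρ * a * ρ⁻¹ * a⁻¹) * e₀⁻¹ * (ρ * a * ρ⁻¹ * a⁻¹)⁻¹ =
          ((a⁻¹ * e₀ * a) * a * (a⁻¹ * e₀ * a)⁻¹ * a⁻¹)⁻¹ *
          (ρ * ((ρ⁻¹ * (a⁻¹ * e₀ * a) * ρ) * a * (ρ⁻¹ * (a⁻¹ * e₀ * a) * ρ)⁻¹ * a⁻¹) * ρ⁻¹) := by
        group
      rw [hid]
      have g1 := hC u k1 k2 k3 _ he'
      have g1' : ((a⁻¹ * e₀ * a) * a * (a⁻¹ * e₀ * a)⁻¹ * a⁻¹)⁻¹ u = u :=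
        (mem_stab u _).1 ((stab u).inv_mem ((mem_stab u _).2 g1))
      have g2 := hC (ρ⁻¹ u) (by rw [TR E₁ hR1 _ hρ', k1, map_zero])
        (by rw [TR E₂ hR2 _ hρ', k2, map_zero]) (by rw [TR E₃ hR3 _ hρ', k3, map_zero]) _ he
      show ((a⁻¹ * e₀ * a) * a * (a⁻¹ * e₀ * a)⁻¹ * a⁻¹)⁻¹
        (ρ (((ρ⁻¹ * (a⁻¹ * e₀ * a) * ρ) * a * (ρ⁻¹ * (a⁻¹ * e₀ * a) * ρ)⁻¹ * a⁻¹) (ρ⁻¹ u))) = u
      rw [g2, app_inv, g1']
    exact zero_of_Fx_tr E₁ hc₁ u (fun e he => hu' e (h1' he)) k1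
  -- (iii)
  have hall : ∀ w, Fx E₃ w := by
    intro w
    have hx3T : tr E₃ (Fintype.card E₃ • w - tr E₃ w) = 0 := proj_zero E₃ w
    set x₃ := Fintype.card E₃ • w - tr E₃ w with hx₃
    have hx2T2 : tr E₂ (Fintype.card E₂ • x₃ - tr E₂ x₃) = 0 := proj_zero E₂ x₃
    have hx2T3 : tr E₃ (Fintype.card E₂ • x₃ - tr E₂ x₃) = 0 := by
      rw [map_sub, map_nsmul, tr_tr_comm E₃ E₂ (cEE E₃ E₂ h3 h2), hx3T, map_zero, smul_zero,
        sub_zero]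
    set x₂ := Fintype.card E₂ • x₃ - tr E₂ x₃ with hx₂
    have hx1T1 : tr E₁ (Fintype.card E₁ • x₂ - tr E₁ x₂) = 0 := proj_zero E₁ x₂
    have hx1T2 : tr E₂ (Fintype.card E₁ • x₂ - tr E₁ x₂) = 0 := by
      rw [map_sub, map_nsmul, tr_tr_comm E₂ E₁ (cEE E₂ E₁ h2 h1), hx2T2, map_zero, smul_zero,
        sub_zero]
    have hx1T3 : tr E₃ (Fintype.card E₁ • x₂ - tr E₁ x₂) = 0 := by
      rw [map_sub, map_nsmul, tr_tr_comm E₃ E₁ (cEE E₃ E₁ h3 h1), hx2T3, map_zero, smul_zero,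
        sub_zero]
    have hx10 := s1 _ hx1T1 hx1T2 hx1T3
    have hx2F1 : Fx E₁ x₂ := fix_of_proj E₁ hc₁ x₂ hx10
    have hx20 : x₂ = 0 := zero_of_Fx_tr E₂ hc₂ x₂ (ii1 x₂ hx2F1).1 hx2T2
    have hx3F2 : Fx E₂ x₃ := fix_of_proj E₂ hc₂ x₃ hx20
    have hx30 : x₃ = 0 := zero_of_Fx_tr E₃ hc₃ x₃ (ii2 x₃ hx3F2) hx3T
    exact fix_of_proj E₃ hc₃ w hx30
  intro e he
  have h13 := c13 e he
  have hone : a⁻¹ * e * a = 1 := by
    ext w
    exact hall w _ h13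
  calc e = a * (a⁻¹ * e * a) * a⁻¹ := by group
    _ = 1 := by rw [hone]; group

end StarMain

end Cfsg.Agent.Lib.Helper63.S3A
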