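import Mathlib
import Cfsg.Agent.Lib.Helper63.S3Star2
import Cfsg.Agent.Lib.Helper63.S3CaseA

set_option autoImplicit false

namespace Cfsg.Agent.Lib.Helper63.S3A

section B0

variable {W : Type*} [AddCommGroup W] [Finite W] {a t : LAut W}

/-- an element of order prime to `6|E|` commuting with `a`, inverted by `t` and normalizing the
commutative invariant group `E` centralizes it -/
theorem B0 (h : S3 a t) (E : Subgroup (LAut W))
    (hEc : ∀ x ∈ E, ∀ y ∈ E, x * y = y * x)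
    (hEcop : (Nat.card E).Coprime (Nat.card W))
    (hEa : ∀ e ∈ E, a * e * a⁻¹ ∈ E) (hEt : ∀ e ∈ E, t * e * t⁻¹ ∈ E)
    (hEfp : ∀ e ∈ E, a * e * a⁻¹ = e → t * e * t⁻¹ = e → e = 1)
    (ρ : LAut W) (hρE : ∀ e ∈ E, ρ * e * ρ⁻¹ ∈ E) (hρa : a * ρ = ρ * a)
    (hρt : t * ρ * t⁻¹ = ρ⁻¹) (m : ℕ) (hm : ρ ^ m = 1) (hm6 : m.Coprime 6)
    (hmE : m.Coprime (Nat.card E)) : ∀ e ∈ E, ρ * e = e * ρ := by
  classical
  letI : Fintype E := Fintype.ofFinite E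
  have hm2 : m.Coprime 2 := Nat.Coprime.coprime_dvd_right (by norm_num : 2 ∣ 6) hm6
  have hm3 : m.Coprime 3 := Nat.Coprime.coprime_dvd_right (by norm_num : 3 ∣ 6) hm6
  have ha3 : a * a * a = 1 := by ext w; simp [h.a3]
  -- (i) the elements of E centralized by a
  have hi : ∀ e ∈ E, a * e = e * a → ρ * e = e * ρ := by
    set C : Subgroup (LAut W) := E ⊓ Subgroup.centralizer {a} with hC
    have hCmem : ∀ k, k ∈ C ↔ k ∈ E ∧ a * k = k * a := by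
      intro k
      rw [hC, Subgroup.mem_inf, Subgroup.mem_centralizer_iff]
      simp
    have hCt : ∀ k ∈ C, cj t k ∈ C := by
      intro k hk
      obtain ⟨hkE, hka⟩ := (hCmem k).1 hk
      exact (hCmem _).2 ⟨hEt k hkE, conj_t_comm h k hka⟩
    have hCfp : ∀ k ∈ C, cj t k = k → k = 1 := by
      intro k hk hkt
      obtain ⟨hkE, hka⟩ := (hCmem k).1 hk
      exact hEfp k hkE (mul_inv_eq_iff_eq_mul.2 hka) hkt
    have hCinv := inv_of_fpf (cj t) (fun x => (rel_conj h).h2 x) C hCt hCfp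
    intro e he hea
    have heC : e ∈ C := (hCmem e).2 ⟨he, hea⟩
    have hρeC : ρ * e * ρ⁻¹ ∈ C := by
      refine (hCmem _).2 ⟨hρE e he, ?_⟩
      calc a * (ρ * e * ρ⁻¹) = (a * ρ) * e * ρ⁻¹ := by group
        _ = (ρ * a) * e * ρ⁻¹ := by rw [hρa]
        _ = ρ * (a * e) * ρ⁻¹ := by group
        _ = ρ * (e * a) * ρ⁻¹ := by rw [hea]
        _ = ρ * e * (ρ⁻¹ * (ρ * a) * ρ⁻¹) := by group
        _ = ρ * e * (ρ⁻¹ * (a * ρ) * ρ⁻¹) := by rw [hρa]
        _ = (ρ * e * ρ⁻¹) * a := by group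
    have e1 : t * e * t⁻¹ = e⁻¹ := hCinv e heC
    have e2 : t * (ρ * e * ρ⁻¹) * t⁻¹ = (ρ * e * ρ⁻¹)⁻¹ := hCinv _ hρeC
    have e3 : t * (ρ * e * ρ⁻¹) * t⁻¹ = ρ⁻¹ * e⁻¹ * ρ := by
      calc t * (ρ * e * ρ⁻¹) * t⁻¹ = (t * ρ * t⁻¹) * (t * e * t⁻¹) * (t * ρ * t⁻¹)⁻¹ := by group
        _ = ρ⁻¹ * e⁻¹ * ρ := by rw [hρt, e1, inv_inv]
    rw [e3] at e2
    have e4 : (ρ * ρ) * e⁻¹ = e⁻¹ * (ρ * ρ) := by
      calc (ρ * ρ) * e⁻¹ = ρ * (ρ * e * ρ⁻¹)⁻¹ * ρ := by group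
        _ = ρ * (ρ⁻¹ * e⁻¹ * ρ) * ρ := by rw [← e2]
        _ = e⁻¹ * (ρ * ρ) := by group
    have e5 : ρ ^ 2 ∈ Subgroup.centralizer ({e⁻¹} : Set (LAut W)) := by
      rw [Subgroup.mem_centralizer_iff]
      intro z hz
      rw [Set.mem_singleton_iff] at hz
      rw [hz, pow_two]; exact e4.symm
    have e6 := root_mem _ ρ m 2 hm hm2 e5
    rw [Subgroup.mem_centralizer_iff] at e6
    have e7 : e⁻¹ * ρ = ρ * e⁻¹ := e6 _ rfl
    calc ρ * e = e * (e⁻¹ * ρ) * e := by group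
      _ = e * (ρ * e⁻¹) * e := by rw [e7]
      _ = e * ρ := by group
  -- (ii)
  have hii : ∀ w, ρ (w + a w + a (a w)) = w + a w + a (a w) := by
    intro w
    apply fix_of_inverted h ρ hρa hρt m hm hm2
    rw [map_add, map_add, h.a3]; abel
  -- the commutator group
  let Y : Subgroup (LAut W) :=
    { carrier := {y | ∃ e ∈ E, e * ρ * e⁻¹ * ρ⁻¹ = y}
      one_mem' := ⟨1, E.one_mem, by group⟩
      mul_mem' := by
        rintro _ _ ⟨e, he, rfl⟩ ⟨e', he', rfl⟩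
        exact ⟨e * e', E.mul_mem he he', (theta_mul E hEc ρ hρE e e' he he').symm⟩
      inv_mem' := by
        rintro _ ⟨e, he, rfl⟩
        refine ⟨e⁻¹, E.inv_mem he, ?_⟩
        have h1 := theta_mul E hEc ρ hρE e e⁻¹ he (E.inv_mem he)
        exact eq_inv_of_mul_eq_one_right (by rw [h1]; group) }
  have hYE : Y ≤ E := by
    rintro _ ⟨e, he, rfl⟩
    exact theta_mem E ρ hρE e he
  have hYρ : ∀ y ∈ Y, ρ * y * ρ⁻¹ ∈ Y := by
    rintro _ ⟨e, he, rfl⟩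
    exact ⟨ρ * e * ρ⁻¹, hρE e he, by group⟩
  have hρa' : a⁻¹ * ρ * a = ρ := by rw [mul_assoc, ← hρa]; group
  have hYa : ∀ y ∈ Y, a * y * a⁻¹ ∈ Y := by
    rintro _ ⟨e, he, rfl⟩
    refine ⟨a * e * a⁻¹, hEa e he, ?_⟩
    calc a * e * a⁻¹ * ρ * (a * e * a⁻¹)⁻¹ * ρ⁻¹
        = a * (e * (a⁻¹ * ρ * a) * e⁻¹ * (a⁻¹ * ρ * a)⁻¹) * a⁻¹ := by group
      _ = a * (e * ρ * e⁻¹ * ρ⁻¹) * a⁻¹ := by rw [hρa']
  have hYρfp : ∀ y ∈ Y, ρ * y * ρ⁻¹ = y → y = 1 := by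
    rintro _ ⟨e, he, rfl⟩ hfix
    have hyE : e * ρ * e⁻¹ * ρ⁻¹ ∈ E := theta_mem E ρ hρE e he
    have h1 : ρ * e * ρ⁻¹ = (e * ρ * e⁻¹ * ρ⁻¹)⁻¹ * e := by group
    generalize e * ρ * e⁻¹ * ρ⁻¹ = y at hfix hyE h1 ⊢
    have hyi : ∀ i : ℕ, ρ * (y⁻¹) ^ i * ρ⁻¹ = (y⁻¹) ^ i := by
      intro i
      rw [← conj_pow, ← conj_inv, hfix]
    have hpow : ∀ i : ℕ, ρ ^ i * e * (ρ ^ i)⁻¹ = (y⁻¹) ^ i * e := by
      intro i
      induction i with
      | zero => simp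
      | succ i ih =>
        calc ρ ^ (i + 1) * e * (ρ ^ (i + 1))⁻¹ = ρ * (ρ ^ i * e * (ρ ^ i)⁻¹) * ρ⁻¹ := by
              rw [pow_succ', mul_inv_rev]; simp only [mul_assoc]
          _ = ρ * ((y⁻¹) ^ i * e) * ρ⁻¹ := by rw [ih]
          _ = (ρ * (y⁻¹) ^ i * ρ⁻¹) * (ρ * e * ρ⁻¹) := by
              simp only [mul_assoc, inv_mul_cancel_left]
          _ = (y⁻¹) ^ i * (y⁻¹ * e) := by rw [hyi, h1]
          _ = (y⁻¹) ^ (i + 1) * e := by rw [pow_succ, mul_assoc]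
    have h2 := hpow m
    rw [hm] at h2
    have h3 : y ^ m = 1 := by
      have := congrArg (· * e⁻¹) h2
      simpa using this.symm
    have hyn : y ^ (Fintype.card E) = 1 := by
      have := pow_card_eq_one (x := (⟨y, hyE⟩ : E))
      exact congrArg Subtype.val this
    have := root_mem ⊥ y _ m hyn (by rw [← Nat.card_eq_fintype_card]; exact hmE.symm)
      (by rw [Subgroup.mem_bot]; exact h3)
    exact Subgroup.mem_bot.1 this
  have hYafp : ∀ y ∈ Y, a * y * a⁻¹ = y → y = 1 := by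
    intro y hy hya
    apply hYρfp y hy
    exact mul_inv_eq_iff_eq_mul.2 (hi y (hYE hy) (mul_inv_eq_iff_eq_mul.1 hya))
  have hYcfp : ∀ b : LAut W, ρ * b = b * ρ → b ^ 3 = 1 →
      ∀ y ∈ Y, (ρ * b) * y * (ρ * b)⁻¹ = y → y = 1 := by
    intro b hb hb3 y hy hfix
    apply hYρfp y hy
    have hc : ρ * b ∈ Subgroup.centralizer ({y} : Set (LAut W)) := by
      rw [Subgroup.mem_centralizer_iff]
      intro z hz
      rw [Set.mem_singleton_iff] at hz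
      rw [hz]
      exact (mul_inv_eq_iff_eq_mul.1 hfix).symm
    have h3 : (ρ * b) ^ 3 = ρ ^ 3 := by
      rw [(show Commute ρ b from hb).mul_pow, hb3, mul_one]
    have hc3 : ρ ^ 3 ∈ Subgroup.centralizer ({y} : Set (LAut W)) := by
      rw [← h3]; exact Subgroup.pow_mem _ hc 3
    have hρc := root_mem _ ρ m 3 hm hm3 hc3
    rw [Subgroup.mem_centralizer_iff] at hρc
    exact mul_inv_eq_iff_eq_mul.2 (hρc y rfl).symm
  have hYaa : ∀ y ∈ Y, (a * a) * y * (a * a)⁻¹ ∈ Y := by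
    intro y hy
    have : (a * a) * y * (a * a)⁻¹ = a * (a * y * a⁻¹) * a⁻¹ := by group
    rw [this]; exact hYa _ (hYa y hy)
  have hYaafp : ∀ y ∈ Y, (a * a) * y * (a * a)⁻¹ = y → y = 1 := by
    intro y hy hfix
    apply hYafp y hy
    have e : a * y * a⁻¹ = (a * a) * ((a * a) * y * (a * a)⁻¹) * (a * a)⁻¹ := by
      calc a * y * a⁻¹ = (a * a * a) * (a * y * a⁻¹) * (a * a * a)⁻¹ := by rw [ha3]; group
        _ = (a * a) * ((a * a) * y * (a * a)⁻¹) * (a * a)⁻¹ := by group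
    rw [e, hfix, hfix]
  have hYρa : ∀ y ∈ Y, (ρ * a) * y * (ρ * a)⁻¹ ∈ Y := by
    intro y hy
    have : (ρ * a) * y * (ρ * a)⁻¹ = ρ * (a * y * a⁻¹) * ρ⁻¹ := by group
    rw [this]; exact hYρ _ (hYa y hy)
  have hYρaa : ∀ y ∈ Y, (ρ * a * a) * y * (ρ * a * a)⁻¹ ∈ Y := by
    intro y hy
    have : (ρ * a * a) * y * (ρ * a * a)⁻¹ = ρ * (a * (a * y * a⁻¹) * a⁻¹) * ρ⁻¹ := by group
    rw [this]; exact hYρ _ (hYa _ (hYa y hy))
  have hρa2 : ρ * a = a * ρ := hρa.symm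
  have hρaa : ρ * (a * a) = (a * a) * ρ :=
    ((show Commute ρ a from hρa2).mul_right (show Commute ρ a from hρa2)).eq
  have ha3' : a ^ 3 = 1 := by rw [pow_succ, pow_two]; exact ha3
  have haa3 : (a * a) ^ 3 = 1 := by
    rw [(Commute.refl a).mul_pow, ha3', mul_one]
  letI : Fintype Y := Fintype.ofFinite Y
  have htr : ∀ w, tr Y w = Fintype.card Y • w := by
    intro w
    have key : ∑ y : Y, (y : LAut W) (ρ ((y : LAut W)⁻¹ w) + (ρ * a) ((y : LAut W)⁻¹ w)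
          + (ρ * (a * a)) ((y : LAut W)⁻¹ w))
        = ∑ y : Y, (y : LAut W) ((y : LAut W)⁻¹ w + a ((y : LAut W)⁻¹ w)
          + (a * a) ((y : LAut W)⁻¹ w)) := by
      refine Finset.sum_congr rfl (fun y _ => ?_)
      congr 1
      have := hii ((y : LAut W)⁻¹ w)
      rw [map_add, map_add] at this
      exact this
    simp only [map_add, Finset.sum_add_distrib] at key
    rw [← sc_sum Y ρ w, ← sc_sum Y (ρ * a) w, ← sc_sum Y (ρ * (a * a)) w, ← sc_sum Y a w,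
      ← sc_sum Y (a * a) w] at key
    rw [sc_eq_tr Y ρ hYρ hYρfp, sc_eq_tr Y (ρ * a) hYρa (hYcfp a hρa2 ha3'),
      sc_eq_tr Y (ρ * (a * a))
        (fun y hy => by
          have := hYρaa y hy
          rw [mul_assoc ρ a a] at this
          exact this)
        (hYcfp (a * a) hρaa haa3),
      sc_eq_tr Y a hYa hYafp, sc_eq_tr Y (a * a) hYaa hYaafp] at key
    have e1 : ∑ y : Y, (y : LAut W) ((y : LAut W)⁻¹ w) = Fintype.card Y • w := by
      simp [Finset.sum_const, Finset.card_univ]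
    have e2 : tr Y (ρ w) + tr Y ((ρ * a) w) + tr Y ((ρ * (a * a)) w) =
        tr Y w + tr Y (a w) + tr Y ((a * a) w) := by
      rw [← map_add, ← map_add, ← map_add, ← map_add]
      congr 1
      have := hii w
      rw [map_add, map_add] at this
      exact this
    rw [e2, e1] at key
    exact add_right_cancel (add_right_cancel key)
  have hY1 : ∀ y ∈ Y, y = 1 := by
    intro y hy
    ext w
    have h1 : y (Fintype.card Y • w) = Fintype.card Y • w := by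
      rw [← htr w]; exact tr_fix Y w y hy
    rw [map_nsmul] at h1
    have h2 : Fintype.card Y • (y w - w) = 0 := by rw [smul_sub, h1, sub_self]
    have hcY : (Fintype.card Y).Coprime (Nat.card W) := by
      rw [← Nat.card_eq_fintype_card]; exact cop_of_le hYE hEcop
    exact sub_eq_zero.1 (eq_zero_of_nsmul _ hcY _ h2)
  intro e he
  have h1 : e * ρ * e⁻¹ * ρ⁻¹ = 1 := hY1 _ ⟨e, he, rfl⟩
  calc ρ * e = (e * ρ * e⁻¹ * ρ⁻¹)⁻¹ * (e * ρ) := by group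
    _ = e * ρ := by rw [h1]; group

end B0

end Cfsg.Agent.Lib.Helper63.S3A
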