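import Mathlib
import Cfsg.Agent.Lib.Helper63.S3B0

set_option autoImplicit false

namespace Cfsg.Agent.Lib.Helper63.S3A

universe u v

section LiftDef

variable {W : Type u} {M : Type v} [AddCommGroup W] [AddCommGroup M]

/-- `φ` is the automorphism of `M` induced by conjugation with `g` -/
def Lift (ι : M → LAut W) (g : LAut W) (φ : LAut M) : Prop := ∀ m, ι (φ m) = g * ι m * g⁻¹

variable {ι : M → LAut W}

theorem Lift.mul {g g' : LAut W} {φ φ' : LAut M} (h : Lift ι g φ) (h' : Lift ι g' φ') :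
    Lift ι (g * g') (φ * φ') := by
  intro m
  show ι (φ (φ' m)) = _
  rw [h (φ' m), h' m]; group

theorem Lift.one : Lift ι (1 : LAut W) (1 : LAut M) := by
  intro m
  show ι m = _
  group

theorem Lift.inv {g : LAut W} {φ : LAut M} (h : Lift ι g φ) : Lift ι g⁻¹ φ⁻¹ := by
  intro m
  have h1 : ι m = g * ι (φ⁻¹ m) * g⁻¹ := by
    have := h (φ⁻¹ m)
    rwa [app_inv] at this
  rw [h1]; group

theorem Lift.pow {g : LAut W} {φ : LAut M} (h : Lift ι g φ) (n : ℕ) :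
    Lift ι (g ^ n) (φ ^ n) := by
  induction n with
  | zero => simpa using (Lift.one : Lift ι (1 : LAut W) (1 : LAut M))
  | succ n ih =>
    rw [pow_succ, pow_succ]
    exact ih.mul h

theorem Lift.unique (hinj : Function.Injective ι) {g : LAut W} {φ φ' : LAut M}
    (h : Lift ι g φ) (h' : Lift ι g φ') : φ = φ' := by
  ext m
  apply hinj
  rw [h m, h' m]

theorem iota_zero (hι : ∀ m m', ι (m + m') = ι m * ι m') : ι 0 = 1 := by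
  have h1 := hι 0 0
  rw [add_zero] at h1
  have h2 : ι 0 * 1 = ι 0 * ι 0 := by rw [mul_one]; exact h1
  exact (mul_left_cancel h2).symm

theorem iota_neg (hι : ∀ m m', ι (m + m') = ι m * ι m') (m : M) : ι (-m) = (ι m)⁻¹ := by
  have h1 := hι (-m) m
  rw [neg_add_cancel, iota_zero hι] at h1
  exact eq_inv_of_mul_eq_one_left h1.symm

theorem iota_sub (hι : ∀ m m', ι (m + m') = ι m * ι m') (m m' : M) :
    ι (m - m') = ι m * (ι m')⁻¹ := by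
  rw [sub_eq_add_neg, hι, iota_neg hι]

/-- the image of an additive subgroup -/
def imS (ι : M → LAut W) (hι : ∀ m m', ι (m + m') = ι m * ι m') (P : AddSubgroup M) :
    Subgroup (LAut W) where
  carrier := {e | ∃ m ∈ P, ι m = e}
  one_mem' := ⟨0, P.zero_mem, iota_zero hι⟩
  mul_mem' := by
    rintro _ _ ⟨m, hm, rfl⟩ ⟨m', hm', rfl⟩
    exact ⟨m + m', P.add_mem hm hm', hι m m'⟩
  inv_mem' := by
    rintro _ ⟨m, hm, rfl⟩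
    exact ⟨-m, P.neg_mem hm, iota_neg hι m⟩

/-- the preimage of a subgroup -/
def preS (ι : M → LAut W) (hι : ∀ m m', ι (m + m') = ι m * ι m') (P : Subgroup (LAut W)) :
    AddSubgroup M where
  carrier := {m | ι m ∈ P}
  zero_mem' := by
    show ι 0 ∈ P
    rw [iota_zero hι]; exact P.one_mem
  add_mem' := by
    intro x y hx hy
    show ι (x + y) ∈ P
    rw [hι]; exact P.mul_mem hx hy
  neg_mem' := by
    intro x hx
    show ι (-x) ∈ P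
    rw [iota_neg hι]; exact P.inv_mem hx

/-- the image of an additive subgroup under an automorphism -/
def imA (f : LAut M) (P : AddSubgroup M) : AddSubgroup M where
  carrier := {m | ∃ x ∈ P, f x = m}
  zero_mem' := ⟨0, P.zero_mem, map_zero f⟩
  add_mem' := by
    rintro _ _ ⟨x, hx, rfl⟩ ⟨y, hy, rfl⟩
    exact ⟨x + y, P.add_mem hx hy, map_add f x y⟩
  neg_mem' := by
    rintro _ ⟨x, hx, rfl⟩
    exact ⟨-x, P.neg_mem hx, map_neg f x⟩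

end LiftDef

/-- **Theorem B** (abstract form): an invariant `r`-group normalizing an invariant commutative
group `ι(M)` of automorphisms of order prime to `6r` centralizes it. -/
theorem SB_abstract {W : Type u} {M : Type v} [AddCommGroup W] [Finite W] [AddCommGroup M]
    [Finite M] {a t : LAut W} (h : S3 a t) (ι : M → LAut W)
    (hι : ∀ m m', ι (m + m') = ι m * ι m') (hinj : Function.Injective ι)
    (aM tM : LAut M) (haM : Lift ι a aM) (htM : Lift ι t tM)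
    (hMW : (Nat.card M).Coprime (Nat.card W))
    (r : ℕ) (hr : r.Prime) (hr5 : 5 ≤ r) (hMr : (Nat.card M).Coprime (6 * r))
    (hEfp : ∀ m, aM m = m → tM m = m → m = 0)
    (R : Subgroup (LAut W)) (hR : IsPGroup r R)
    (hRa : ∀ x ∈ R, a * x * a⁻¹ ∈ R) (hRt : ∀ x ∈ R, t * x * t⁻¹ ∈ R)
    (hRfp : ∀ x ∈ R, a * x * a⁻¹ = x → t * x * t⁻¹ = x → x = 1)
    (hRE : ∀ ρ ∈ R, ∃ φ : LAut M, Lift ι ρ φ) :
    ∀ ρ ∈ R, ∀ m, ρ * ι m = ι m * ρ := by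
  classical
  have ha3 : a * a * a = 1 := by ext w; simp [h.a3]
  have ht2 : t * t = 1 := by ext w; simp [h.t2]
  have haM' : ∀ m, ι (aM m) = a * ι m * a⁻¹ := haM
  have htM' : ∀ m, ι (tM m) = t * ι m * t⁻¹ := htM
  -- S3 on M
  have hS : S3 aM tM := by
    refine ⟨fun m => hinj ?_, fun m => hinj ?_, fun m => hinj ?_, hEfp⟩
    · rw [haM', haM', haM']
      calc a * (a * (a * ι m * a⁻¹) * a⁻¹) * a⁻¹ = (a * a * a) * ι m * (a * a * a)⁻¹ := by group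
        _ = ι m := by rw [ha3]; group
    · rw [htM', htM']
      calc t * (t * ι m * t⁻¹) * t⁻¹ = (t * t) * ι m * (t * t)⁻¹ := by group
        _ = ι m := by rw [ht2]; group
    · rw [htM' (aM m), haM' m, haM' (aM (tM m)), haM' (tM m), htM' m]
      exact tconj h (ι m)
  -- the induced group on M
  let Z : Subgroup (LAut M) :=
    { carrier := {φ | ∃ ρ ∈ R, Lift ι ρ φ}
      one_mem' := ⟨1, R.one_mem, Lift.one⟩
      mul_mem' := by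
        rintro _ _ ⟨ρ, hρ, hl⟩ ⟨ρ', hρ', hl'⟩
        exact ⟨ρ * ρ', R.mul_mem hρ hρ', hl.mul hl'⟩
      inv_mem' := by
        rintro _ ⟨ρ, hρ, hl⟩
        exact ⟨ρ⁻¹, R.inv_mem hρ, hl.inv⟩ }
  have hZp : IsPGroup r Z := by
    rintro ⟨φ, ρ, hρ, hl⟩
    obtain ⟨k, hk⟩ := hR ⟨ρ, hρ⟩
    have hk' : ρ ^ (r ^ k) = 1 := congrArg Subtype.val hk
    refine ⟨k, Subtype.ext ?_⟩
    rw [Subgroup.coe_pow, Subgroup.coe_one]
    have := hl.pow (r ^ k)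
    rw [hk'] at this
    exact Lift.unique hinj this Lift.one
  set Cent : Subgroup (LAut W) := Subgroup.centralizer (Set.range ι) with hCent
  have hCmem : ∀ g, g ∈ Cent ↔ ∀ m, g * ι m = ι m * g := by
    intro g
    rw [hCent, Subgroup.mem_centralizer_iff]
    constructor
    · intro hg m
      exact (hg _ ⟨m, rfl⟩).symm
    · rintro hg _ ⟨m, rfl⟩
      exact (hg m).symm
  have hL1 : ∀ g, Lift ι g 1 ↔ g ∈ Cent := by
    intro g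
    rw [hCmem]
    constructor
    · intro hl m
      have h1 : ι m = g * ι m * g⁻¹ := hl m
      calc g * ι m = (g * ι m * g⁻¹) * g := by group
        _ = ι m * g := by rw [← h1]
    · intro hg m
      show ι m = g * ι m * g⁻¹
      rw [hg m]; group
  have hCconj : ∀ (g : LAut W) (φ : LAut M), Lift ι g φ → ∀ k ∈ Cent, g * k * g⁻¹ ∈ Cent := by
    intro g φ hl k hk
    rw [hCmem] at hk ⊢
    intro m
    have h1 : ι m = g * ι (φ⁻¹ m) * g⁻¹ := by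
      have := hl (φ⁻¹ m)
      rwa [app_inv] at this
    rw [h1]
    calc g * k * g⁻¹ * (g * ι (φ⁻¹ m) * g⁻¹) = g * (k * ι (φ⁻¹ m)) * g⁻¹ := by group
      _ = g * (ι (φ⁻¹ m) * k) * g⁻¹ := by rw [hk]
      _ = g * ι (φ⁻¹ m) * g⁻¹ * (g * k * g⁻¹) := by group
  set N : Subgroup (LAut W) := R ⊓ Cent with hN
  have hNp : IsPGroup r N := hR.to_le inf_le_left
  have hNcop : (Nat.card N).Coprime 6 := pgroup_coprime6 hr hr5 N hNp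
  have hNa : ∀ k ∈ N, cj a k ∈ N := by
    intro k hk
    obtain ⟨hk1, hk2⟩ := Subgroup.mem_inf.1 hk
    exact Subgroup.mem_inf.2 ⟨hRa k hk1, hCconj a aM haM k hk2⟩
  have hNt : ∀ k ∈ N, cj t k ∈ N := by
    intro k hk
    obtain ⟨hk1, hk2⟩ := Subgroup.mem_inf.1 hk
    exact Subgroup.mem_inf.2 ⟨hRt k hk1, hCconj t tM htM k hk2⟩
  have hZg : ∀ (g : LAut W) (ψ : LAut M), Lift ι g ψ → (∀ x ∈ R, g * x * g⁻¹ ∈ R) →
      ∀ φ ∈ Z, ψ * φ * ψ⁻¹ ∈ Z := by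
    rintro g ψ hl hg φ ⟨ρ, hρ, hlρ⟩
    exact ⟨g * ρ * g⁻¹, hg ρ hρ, (hl.mul hlρ).mul hl.inv⟩
  have hZa := hZg a aM haM hRa
  have hZt := hZg t tM htM hRt
  have hfixN : ∀ (g : LAut W) (ψ : LAut M), Lift ι g ψ → (∀ x ∈ R, g * x * g⁻¹ ∈ R) →
      ∀ (ρ : LAut W) (φ : LAut M), ρ ∈ R → Lift ι ρ φ → ψ * φ * ψ⁻¹ = φ →
      ρ⁻¹ * (g * ρ * g⁻¹) ∈ N := by
    intro g ψ hl hg ρ φ hρ hlρ hfix
    refine Subgroup.mem_inf.2 ⟨R.mul_mem (R.inv_mem hρ) (hg ρ hρ), ?_⟩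
    rw [← hL1]
    have := hlρ.inv.mul ((hl.mul hlρ).mul hl.inv)
    rw [hfix, inv_mul_cancel] at this
    exact this
  have hZfp : ∀ φ ∈ Z, aM * φ * aM⁻¹ = φ → tM * φ * tM⁻¹ = φ → φ = 1 := by
    rintro φ ⟨ρ, hρ, hlρ⟩ hfa hft
    obtain ⟨k, hk, hk1, hk2⟩ := fp_coset_S3 (rel_conj h) N hNcop hNa hNt ρ
      (hfixN a aM haM hRa ρ φ hρ hlρ hfa) (hfixN t tM htM hRt ρ φ hρ hlρ hft)
    obtain ⟨hkR, hkC⟩ := Subgroup.mem_inf.1 hk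
    have hρk : ρ * k = 1 := hRfp _ (R.mul_mem hρ hkR) hk1 hk2
    have hρC : ρ ∈ Cent := by
      have : ρ = k⁻¹ := eq_inv_of_mul_eq_one_left hρk
      rw [this]; exact Cent.inv_mem hkC
    exact Lift.unique hinj hlρ ((hL1 ρ).2 hρC)
  have hZc : ∀ x ∈ Z, ∀ y ∈ Z, x * y = y * x :=
    SA.{v} (Nat.card M + Nat.card Z) M aM tM r Z hS hr hr5 hZp hMr hZa hZt hZfp le_rfl
  -- the group E
  set E : Subgroup (LAut W) := imS ι hι ⊤ with hE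
  have hEc : ∀ x ∈ E, ∀ y ∈ E, x * y = y * x := by
    rintro _ ⟨m, -, rfl⟩ _ ⟨m', -, rfl⟩
    rw [← hι, ← hι, add_comm]
  have hEcard : Nat.card E = Nat.card M := by
    symm
    refine Nat.card_congr (Equiv.ofBijective
      (fun m => (⟨ι m, ⟨m, AddSubgroup.mem_top m, rfl⟩⟩ : E)) ⟨?_, ?_⟩)
    · intro m m' hmm
      exact hinj (congrArg Subtype.val hmm)
    · rintro ⟨_, m, -, rfl⟩
      exact ⟨m, rfl⟩
  have hEcop : (Nat.card E).Coprime (Nat.card W) := by rw [hEcard]; exact hMW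
  have hM6 : (Nat.card M).Coprime 6 := Nat.Coprime.coprime_dvd_right (Dvd.intro _ rfl) hMr
  have hMr' : (Nat.card M).Coprime r :=
    Nat.Coprime.coprime_dvd_right (Dvd.intro_left 6 rfl) hMr
  have hEodd : (Nat.card E).Coprime 2 := by
    rw [hEcard]; exact Nat.Coprime.coprime_dvd_right (by norm_num : 2 ∣ 6) hM6
  have hEg : ∀ (g : LAut W) (ψ : LAut M), Lift ι g ψ → ∀ e ∈ E, g * e * g⁻¹ ∈ E := by
    rintro g ψ hl _ ⟨m, -, rfl⟩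
    exact ⟨ψ m, AddSubgroup.mem_top _, hl m⟩
  have hEa := hEg a aM haM
  have hEt := hEg t tM htM
  have hEfp' : ∀ e ∈ E, a * e * a⁻¹ = e → t * e * t⁻¹ = e → e = 1 := by
    rintro _ ⟨m, -, rfl⟩ h1 h2
    have e1 : aM m = m := hinj (by rw [haM']; exact h1)
    have e2 : tM m = m := hinj (by rw [htM']; exact h2)
    rw [hEfp m e1 e2]; exact iota_zero hι
  -- aM has no fixed points on Z
  have hZfa : ∀ φ ∈ Z, aM * φ * aM⁻¹ = φ → φ = 1 := by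
    rintro φ ⟨ρ₀, hρ₀, hlρ₀⟩ hfa
    haveI : Fact (Nat.Prime 3) := ⟨Nat.prime_three⟩
    have h3N : ¬ 3 ∣ Nat.card N := by
      intro h3
      have : (3 : ℕ) ∣ Nat.gcd (Nat.card N) 6 := Nat.dvd_gcd h3 (by norm_num)
      rw [Nat.Coprime.gcd_eq_one hNcop] at this
      exact absurd this (by norm_num)
    obtain ⟨k, hk, hk1⟩ := fp_coset 3 (cj a) (fun x => (rel_conj h).h3 x) N h3N hNa ρ₀
      (hfixN a aM haM hRa ρ₀ φ hρ₀ hlρ₀ hfa)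
    obtain ⟨hkR, hkC⟩ := Subgroup.mem_inf.1 hk
    have hk1' : a * (ρ₀ * k) * a⁻¹ = ρ₀ * k := hk1
    have hρR : ρ₀ * k ∈ R := R.mul_mem hρ₀ hkR
    have hρa : a * (ρ₀ * k) = (ρ₀ * k) * a := mul_inv_eq_iff_eq_mul.1 hk1'
    have hρt : t * (ρ₀ * k) * t⁻¹ = (ρ₀ * k)⁻¹ := by
      set C : Subgroup (LAut W) := R ⊓ Subgroup.centralizer {a} with hC
      have hCm : ∀ x, x ∈ C ↔ x ∈ R ∧ a * x = x * a := by
        intro x
        rw [hC, Subgroup.mem_inf, Subgroup.mem_centralizer_iff]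
        simp
      have hCt : ∀ x ∈ C, cj t x ∈ C := by
        intro x hx
        obtain ⟨hxR, hxa⟩ := (hCm x).1 hx
        exact (hCm _).2 ⟨hRt x hxR, conj_t_comm h x hxa⟩
      have hCfp : ∀ x ∈ C, cj t x = x → x = 1 := by
        intro x hx hxt
        obtain ⟨hxR, hxa⟩ := (hCm x).1 hx
        exact hRfp x hxR (mul_inv_eq_iff_eq_mul.2 hxa) hxt
      exact inv_of_fpf (cj t) (fun x => (rel_conj h).h2 x) C hCt hCfp _ ((hCm _).2 ⟨hρR, hρa⟩)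
    obtain ⟨j, hj⟩ := hR ⟨ρ₀ * k, hρR⟩
    have hj' : (ρ₀ * k) ^ (r ^ j) = 1 := congrArg Subtype.val hj
    have hρE : ∀ e ∈ E, (ρ₀ * k) * e * (ρ₀ * k)⁻¹ ∈ E := by
      obtain ⟨ψ, hψ⟩ := hRE _ hρR
      exact hEg _ ψ hψ
    have hcent := B0 h E hEc hEcop hEa hEt hEfp' (ρ₀ * k) hρE hρa hρt (r ^ j) hj'
      (Nat.Coprime.pow_left j (coprime6_of_prime r hr hr5))
      (by rw [hEcard]; exact Nat.Coprime.pow_left j hMr'.symm)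
    have hρC : ρ₀ * k ∈ Cent :=
      (hCmem _).2 (fun m => hcent _ ⟨m, AddSubgroup.mem_top m, rfl⟩)
    have hρ₀C : ρ₀ ∈ Cent := by
      have : ρ₀ = (ρ₀ * k) * k⁻¹ := by group
      rw [this]; exact Cent.mul_mem hρC (Cent.inv_mem hkC)
    exact Lift.unique hinj hlρ₀ ((hL1 ρ₀).2 hρ₀C)
  -- decomposition of M
  letI : Fintype Z := Fintype.ofFinite Z
  have hcopZ : (Fintype.card Z).Coprime (Nat.card M) := by
    rw [← Nat.card_eq_fintype_card]; exact pgroup_coprime hr Z hZp _ hMr'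
  have hcop3Z : (Fintype.card Z).Coprime 3 := by
    rw [← Nat.card_eq_fintype_card]
    exact pgroup_coprime hr Z hZp 3 (by rw [Nat.coprime_primes Nat.prime_three hr]; omega)
  obtain ⟨M1, hmem, D1, D2, -, D5, D6, D7⟩ := dec hS Z hZc hZa hZt hZfa hcopZ hcop3Z
  let KT : AddSubgroup M :=
    { carrier := {m | tr Z m = 0}
      add_mem' := by
        intro x y hx hy
        show tr Z (x + y) = 0
        rw [map_add, show tr Z x = 0 from hx, show tr Z y = 0 from hy, add_zero]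
      zero_mem' := map_zero _
      neg_mem' := by
        intro x hx
        show tr Z (-x) = 0
        rw [map_neg, show tr Z x = 0 from hx, neg_zero] }
  set E' := imS ι hι KT with hE'def
  set E₁ := imS ι hι M1 with hE₁
  set E₂ := imS ι hι (imA aM M1) with hE₂
  set E₃ := imS ι hι (imA (aM * aM) M1) with hE₃
  have hE'E : E' ≤ E := by
    rintro _ ⟨m, -, rfl⟩
    exact ⟨m, AddSubgroup.mem_top m, rfl⟩
  have h1' : E₁ ≤ E' := by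
    rintro _ ⟨m, hm, rfl⟩
    exact ⟨m, ((hmem m).1 hm).2, rfl⟩
  have h2 : E₂ ≤ E := by
    rintro _ ⟨m, -, rfl⟩
    exact ⟨m, AddSubgroup.mem_top m, rfl⟩
  have h3 : E₃ ≤ E := by
    rintro _ ⟨m, -, rfl⟩
    exact ⟨m, AddSubgroup.mem_top m, rfl⟩
  have c12 : ∀ e ∈ E₁, a * e * a⁻¹ ∈ E₂ := by
    rintro _ ⟨m, hm, rfl⟩
    exact ⟨aM m, ⟨m, hm, rfl⟩, haM' m⟩
  have c23 : ∀ e ∈ E₂, a * e * a⁻¹ ∈ E₃ := by
    rintro _ ⟨_, ⟨m, hm, rfl⟩, rfl⟩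
    exact ⟨aM (aM m), ⟨m, hm, rfl⟩, haM' _⟩
  have c31 : ∀ e ∈ E₃, a * e * a⁻¹ ∈ E₁ := by
    rintro _ ⟨_, ⟨m, hm, rfl⟩, rfl⟩
    refine ⟨m, hm, ?_⟩
    rw [← haM' ((aM * aM) m)]
    show ι m = ι (aM (aM (aM m)))
    rw [hS.a3]
  have ht1 : ∀ e ∈ E₁, t * e * t⁻¹ = e⁻¹ := by
    rintro _ ⟨m, hm, rfl⟩
    rw [← htM', D2 m hm, iota_neg hι]
  have ht23 : ∀ e ∈ E₂, t * e * t⁻¹ ∈ E₃ := by
    rintro _ ⟨_, ⟨m, hm, rfl⟩, rfl⟩
    refine ⟨(aM * aM) (-m), ⟨-m, M1.neg_mem hm, rfl⟩, ?_⟩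
    rw [← htM']
    congr 1
    show aM (aM (-m)) = tM (aM m)
    rw [hS.rel, D2 m hm]
  have ht32 : ∀ e ∈ E₃, t * e * t⁻¹ ∈ E₂ := by
    rintro _ ⟨_, ⟨m, hm, rfl⟩, rfl⟩
    refine ⟨aM (-m), ⟨-m, M1.neg_mem hm, rfl⟩, ?_⟩
    rw [← htM']
    congr 1
    show aM (-m) = tM (aM (aM m))
    rw [hS.rel2, D2 m hm]
  have hKTg : ∀ ψ : LAut M, (∀ z ∈ Z, ψ * z * ψ⁻¹ ∈ Z) → ∀ m, tr Z m = 0 → tr Z (ψ m) = 0 := by
    intro ψ hψ m hm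
    rw [← tr_conj Z ψ hψ, hm, map_zero]
  have hE'g : ∀ (g : LAut W) (ψ : LAut M), Lift ι g ψ → (∀ z ∈ Z, ψ * z * ψ⁻¹ ∈ Z) →
      ∀ e ∈ E', g * e * g⁻¹ ∈ E' := by
    rintro g ψ hl hψ _ ⟨m, hm, rfl⟩
    exact ⟨ψ m, hKTg ψ hψ m hm, hl m⟩
  have hE'a := hE'g a aM haM hZa
  have hE't := hE'g t tM htM hZt
  have hZself : ∀ φ ∈ Z, ∀ z ∈ Z, φ * z * φ⁻¹ ∈ Z :=
    fun φ hφ z hz => Z.mul_mem (Z.mul_mem hφ hz) (Z.inv_mem hφ)
  have hR' : ∀ ρ ∈ R, ∀ e ∈ E', ρ * e * ρ⁻¹ ∈ E' := by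
    intro ρ hρ
    obtain ⟨φ, hφ⟩ := hRE ρ hρ
    exact hE'g ρ φ hφ (hZself φ ⟨ρ, hρ, hφ⟩)
  have hZa' := norm_inv Z aM hZa
  have hR1 : ∀ ρ ∈ R, ∀ e ∈ E₁, ρ * e * ρ⁻¹ ∈ E₁ := by
    rintro ρ hρ _ ⟨m, hm, rfl⟩
    obtain ⟨φ, hφ⟩ := hRE ρ hρ
    exact ⟨φ m, D7 m hm φ ⟨ρ, hρ, hφ⟩, hφ m⟩
  have hR2 : ∀ ρ ∈ R, ∀ e ∈ E₂, ρ * e * ρ⁻¹ ∈ E₂ := by
    rintro ρ hρ _ ⟨_, ⟨m, hm, rfl⟩, rfl⟩
    obtain ⟨φ, hφ⟩ := hRE ρ hρ
    have hφZ : φ ∈ Z := ⟨ρ, hρ, hφ⟩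
    refine ⟨φ (aM m), ⟨(aM⁻¹ * φ * aM) m, D7 m hm _ (hZa' φ hφZ), ?_⟩, hφ _⟩
    show aM (aM⁻¹ (φ (aM m))) = φ (aM m)
    rw [app_inv]
  have hR3 : ∀ ρ ∈ R, ∀ e ∈ E₃, ρ * e * ρ⁻¹ ∈ E₃ := by
    rintro ρ hρ _ ⟨_, ⟨m, hm, rfl⟩, rfl⟩
    obtain ⟨φ, hφ⟩ := hRE ρ hρ
    have hφZ : φ ∈ Z := ⟨ρ, hρ, hφ⟩
    refine ⟨φ ((aM * aM) m), ⟨(aM⁻¹ * (aM⁻¹ * φ * aM) * aM) m,
      D7 m hm _ (hZa' _ (hZa' φ hφZ)), ?_⟩, hφ _⟩
    show aM (aM (aM⁻¹ (aM⁻¹ (φ (aM (aM m)))))) = φ (aM (aM m))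
    rw [app_inv, app_inv]
  have f4 : ∀ e ∈ E₂, ∀ P : Subgroup (LAut W),
      (∀ ρ ∈ R, e * (ρ * t * ρ⁻¹ * t⁻¹) * e⁻¹ * (ρ * t * ρ⁻¹ * t⁻¹)⁻¹ ∈ P) → e ∈ P := by
    rintro _ ⟨_, ⟨m, hm, rfl⟩, rfl⟩ P hP
    have hside : ∀ z ∈ Z, aM m - (z * tM * z⁻¹ * tM⁻¹) (aM m) ∈ preS ι hι P := by
      rintro z ⟨ρ, hρ, hlρ⟩
      show ι (aM m - (z * tM * z⁻¹ * tM⁻¹) (aM m)) ∈ P
      have hl : Lift ι (ρ * t * ρ⁻¹ * t⁻¹) (z * tM * z⁻¹ * tM⁻¹) :=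
        ((hlρ.mul htM).mul hlρ.inv).mul htM.inv
      rw [iota_sub hι, hl (aM m)]
      have e : ι (aM m) * (ρ * t * ρ⁻¹ * t⁻¹ * ι (aM m) * (ρ * t * ρ⁻¹ * t⁻¹)⁻¹)⁻¹ =
          ι (aM m) * (ρ * t * ρ⁻¹ * t⁻¹) * (ι (aM m))⁻¹ * (ρ * t * ρ⁻¹ * t⁻¹)⁻¹ := by group
      rw [e]; exact hP ρ hρ
    exact D5 m hm (preS ι hι P) hside
  have f5 : ∀ e ∈ E', ∀ P : Subgroup (LAut W),
      (∀ ρ ∈ R, e * (ρ * a * ρ⁻¹ * a⁻¹) * e⁻¹ * (ρ * a * ρ⁻¹ * a⁻¹)⁻¹ ∈ P) → e ∈ P := by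
    rintro _ ⟨m, hm, rfl⟩ P hP
    have hside : ∀ z ∈ Z, m - (z * aM * z⁻¹ * aM⁻¹) m ∈ preS ι hι P := by
      rintro z ⟨ρ, hρ, hlρ⟩
      show ι (m - (z * aM * z⁻¹ * aM⁻¹) m) ∈ P
      have hl : Lift ι (ρ * a * ρ⁻¹ * a⁻¹) (z * aM * z⁻¹ * aM⁻¹) :=
        ((hlρ.mul haM).mul hlρ.inv).mul haM.inv
      rw [iota_sub hι, hl m]
      have e : ι m * (ρ * a * ρ⁻¹ * a⁻¹ * ι m * (ρ * a * ρ⁻¹ * a⁻¹)⁻¹)⁻¹ =
          ι m * (ρ * a * ρ⁻¹ * a⁻¹) * (ι m)⁻¹ * (ρ * a * ρ⁻¹ * a⁻¹)⁻¹ := by group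
      rw [e]; exact hP ρ hρ
    exact D6 m hm (preS ι hι P) hside
  have hstar := star h E E' E₁ E₂ E₃ R hEc hEcop hEodd hE'E h1' h2 h3 c12 c23 c31 ht1 ht23 ht32
    hE'a hE't hR1 hR2 hR3 hR' f4 f5
  have hM1 : ∀ m ∈ M1, m = 0 := by
    intro m hm
    apply hinj
    rw [iota_zero hι]
    exact hstar _ ⟨m, hm, rfl⟩
  have hK0 : ∀ m, tr Z m = 0 → m = 0 := by
    intro m hm
    obtain ⟨u, hu, v, hv, w, hw, rfl⟩ := D1 m hm
    rw [hM1 u hu, hM1 v hv, hM1 w hw]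
    simp
  have hZ1 : ∀ φ ∈ Z, φ = 1 := by
    intro φ hφ
    ext m
    have h0 : tr Z (m - φ m) = 0 := by
      rw [map_sub, ← tr_conj Z φ (hZself φ hφ), tr_fix Z m φ hφ, sub_self]
    exact (sub_eq_zero.1 (hK0 _ h0)).symm
  intro ρ hρ m
  obtain ⟨φ, hφ⟩ := hRE ρ hρ
  have hφ1 := hZ1 φ ⟨ρ, hρ, hφ⟩
  rw [hφ1] at hφ
  exact (hCmem ρ).1 ((hL1 ρ).1 hφ) m

end Cfsg.Agent.Lib.Helper63.S3A
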