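import Mathlib
import Cfsg.Agent.Lib.Helper63.S3Grp

set_option autoImplicit false
open scoped Pointwise

namespace Cfsg.Agent.Lib.Helper63.S3A

/-- A group of order prime to 6 with an action of `S₃` has an invariant Sylow subgroup for every
prime. -/
theorem invSyl {G : Type*} [Group G] [Finite G] {α τ : G →* G} (hrel : Rel α τ)
    (hcop : (Nat.card G).Coprime 6) (r : ℕ) [Fact r.Prime] :
    ∃ P : Sylow r G, (∀ x ∈ P, α x ∈ P) ∧ (∀ x ∈ P, τ x ∈ P) := by
  classical
  let a : MulAut G :=
    { toFun := α, invFun := fun x => α (α x), left_inv := hrel.h3, right_inv := hrel.h3,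
      map_mul' := α.map_mul }
  let t : MulAut G :=
    { toFun := τ, invFun := τ, left_inv := hrel.h2, right_inv := hrel.h2,
      map_mul' := τ.map_mul }
  have haα : ∀ x, a x = α x := fun x => rfl
  have htτ : ∀ x, t x = τ x := fun x => rfl
  have ha3 : a * a * a = 1 := by
    ext x
    show α (α (α x)) = x
    exact hrel.h3 x
  have ht2 : t * t = 1 := by
    ext x
    show τ (τ x) = x
    exact hrel.h2 x
  have hat : a * t = t * a * a := by
    ext x
    show α (τ x) = τ (α (α x))
    exact hrel.ατ x
  have h2G : ¬ 2 ∣ Nat.card G := by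
    intro h2
    have : (2 : ℕ) ∣ Nat.gcd (Nat.card G) 6 := Nat.dvd_gcd h2 (by norm_num)
    rw [Nat.Coprime.gcd_eq_one hcop] at this
    exact absurd this (by norm_num)
  have h3G : ¬ 3 ∣ Nat.card G := by
    intro h3
    have : (3 : ℕ) ∣ Nat.gcd (Nat.card G) 6 := Nat.dvd_gcd h3 (by norm_num)
    rw [Nat.Coprime.gcd_eq_one hcop] at this
    exact absurd this (by norm_num)
  haveI : Finite (Sylow r G) := inferInstance
  have h3Ω : ¬ 3 ∣ Nat.card (Sylow r G) := by
    intro h3
    apply h3G
    have P : Sylow r G := default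
    exact h3.trans ((P.card_dvd_index).trans (Subgroup.index_dvd_card _))
  haveI : Fact (Nat.Prime 3) := ⟨Nat.prime_three⟩
  haveI : Fact (Nat.Prime 2) := ⟨Nat.prime_two⟩
  obtain ⟨P₀, hP₀⟩ := exists_fixed_of_iterate 3 (fun P : Sylow r G => a • P)
    (by
      intro P
      show a • a • a • P = P
      rw [← mul_smul, ← mul_smul, ha3, one_smul]) h3Ω
  have hP₀' : a • P₀ = P₀ := hP₀
  -- compatibility of the two actions
  have hcompat : ∀ (g : G) (P : Sylow r G), a • (g • P) = (a g) • (a • P) := by
    intro g P
    rw [Sylow.smul_def, Sylow.smul_def, ← mul_smul, ← mul_smul]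
    congr 1
    ext x
    show a (g * x * g⁻¹) = a g * a x * (a g)⁻¹
    rw [map_mul, map_mul, map_inv]
  let X : Set (Sylow r G) := {P | a • P = P}
  let C : Subgroup G :=
    { carrier := {g | a g = g}
      mul_mem' := by
        intro x y hx hy
        show a (x * y) = x * y
        rw [map_mul, show a x = x from hx, show a y = y from hy]
      one_mem' := map_one a
      inv_mem' := by
        intro x hx
        show a x⁻¹ = x⁻¹
        rw [map_inv, show a x = x from hx] }
  have hXorb : X = MulAction.orbit C P₀ := by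
    ext P
    constructor
    · intro hP
      have hP' : a • P = P := hP
      obtain ⟨g, hg⟩ := MulAction.exists_smul_eq G P₀ P
      set N : Subgroup G := MulAction.stabilizer G P₀ with hN
      have hNa : ∀ k ∈ N, a.toMonoidHom k ∈ N := by
        intro k hk
        rw [hN, MulAction.mem_stabilizer_iff] at hk ⊢
        show (a k) • P₀ = P₀
        have := hcompat k P₀
        rw [hk, hP₀'] at this
        exact this.symm
      have hgN : g⁻¹ * a.toMonoidHom g ∈ N := by
        rw [hN, MulAction.mem_stabilizer_iff]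
        show (g⁻¹ * a g) • P₀ = P₀
        have h1 := hcompat g P₀
        rw [hg, hP', hP₀'] at h1
        rw [mul_smul, ← h1, ← hg, inv_smul_smul]
      have h3N : ¬ 3 ∣ Nat.card N := fun h3 => h3G (h3.trans (Subgroup.card_subgroup_dvd_card N))
      obtain ⟨k, hk, hk1⟩ := fp_coset 3 a.toMonoidHom
        (by
          intro x
          show a (a (a x)) = x
          exact hrel.h3 x) N h3N hNa g hgN
      rw [MulAction.mem_orbit_iff]
      refine ⟨⟨g * k, hk1⟩, ?_⟩
      show (g * k) • P₀ = P
      rw [mul_smul, (MulAction.mem_stabilizer_iff.1 hk), hg]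
    · intro hP
      rw [MulAction.mem_orbit_iff] at hP
      obtain ⟨c, rfl⟩ := hP
      show a • ((c : G) • P₀) = (c : G) • P₀
      rw [hcompat, hP₀', show a (c : G) = c from c.2]
  have h2X : ¬ 2 ∣ Nat.card X := by
    intro h2
    apply h2G
    have e1 : Nat.card X = (MulAction.stabilizer C P₀).index := by
      rw [MulAction.index_stabilizer, ← hXorb, Nat.card_coe_set_eq]
    rw [e1] at h2
    exact h2.trans ((Subgroup.index_dvd_card _).trans (Subgroup.card_subgroup_dvd_card C))
  have hXt : ∀ P : X, t • (P : Sylow r G) ∈ X := by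
    intro P
    have hP : a • (P : Sylow r G) = P := P.2
    show a • t • (P : Sylow r G) = t • (P : Sylow r G)
    rw [← mul_smul, hat, mul_smul, mul_smul, hP, hP]
  obtain ⟨P, hP⟩ := exists_fixed_of_iterate 2 (fun P : X => (⟨t • (P : Sylow r G), hXt P⟩ : X))
    (by
      intro P
      apply Subtype.ext
      show t • t • (P : Sylow r G) = P
      rw [← mul_smul, ht2, one_smul]) h2X
  have hPt : t • (P : Sylow r G) = P := congrArg Subtype.val hP
  have hPa : a • (P : Sylow r G) = P := P.2
  refine ⟨P, ?_, ?_⟩
  · intro x hx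
    have h1 : a • x ∈ a • ((P : Sylow r G) : Subgroup G) := Subgroup.smul_mem_pointwise_smul x a _ hx
    rw [← Sylow.pointwise_smul_def, hPa] at h1
    exact h1
  · intro x hx
    have h1 : t • x ∈ t • ((P : Sylow r G) : Subgroup G) := Subgroup.smul_mem_pointwise_smul x t _ hx
    rw [← Sylow.pointwise_smul_def, hPt] at h1
    exact h1

end Cfsg.Agent.Lib.Helper63.S3A
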