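import Mathlib
import Cfsg.Agent.S0044
import Cfsg.Agent.S0009
import Cfsg.Agent.S0070
import Cfsg.Agent.Lib.Helper90.Frattini
import Cfsg.Agent.Lib.Helper71.Fitting
import Cfsg.Agent.Lib.Helper63.HallHigman
import Cfsg.Agent.Lib.Helper63.PLength
import Cfsg.Agent.Lib.Helper63.S3SB
import Cfsg.Agent.Lib.Helper63.S3Syl
import Cfsg.Agent.Lib.Helper63.S3AbMod

set_option autoImplicit false
open Cfsg
open scoped commutatorElement

namespace Cfsg.Agent.Lib.Helper63.S3A

universe u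

theorem dvd6_of_prime_lt5 (r : ℕ) (hr : r.Prime) (h : ¬ 5 ≤ r) : r ∣ 6 := by
  have h2 := hr.two_le
  interval_cases r
  · decide
  · decide
  · exfalso; revert hr; decide

theorem not_dvd_of_coprime6 {n r : ℕ} (hn : n.Coprime 6) (hr : r.Prime) (h : ¬ 5 ≤ r) :
    ¬ r ∣ n := by
  intro hd
  have := Nat.dvd_gcd hd (dvd6_of_prime_lt5 r hr h)
  rw [Nat.Coprime.gcd_eq_one hn] at this
  exact hr.one_lt.ne' (Nat.dvd_one.1 this)

theorem quot_rel {G : Type*} [Group G] {α τ : G →* G} (hrel : Rel α τ) (N : Subgroup G)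
    [N.Normal] (hNα : N ≤ N.comap α) (hNτ : N ≤ N.comap τ) :
    Rel (QuotientGroup.map N N α hNα) (QuotientGroup.map N N τ hNτ) := by
  refine ⟨fun y => ?_, fun y => ?_, fun y => ?_⟩
  · induction y using QuotientGroup.induction_on with
    | H x => simp only [QuotientGroup.map_mk, hrel.h3]
  · induction y using QuotientGroup.induction_on with
    | H x => simp only [QuotientGroup.map_mk, hrel.h2]
  · induction y using QuotientGroup.induction_on with
    | H x => simp only [QuotientGroup.map_mk, hrel.hr]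

theorem quot_fpf3 {G : Type*} [Group G] [Finite G] {α τ : G →* G} (hrel : Rel α τ)
    (hcop : (Nat.card G).Coprime 6) (hfpf : ∀ g, α g = g → τ g = g → g = 1)
    (N : Subgroup G) [N.Normal] (hNα : N ≤ N.comap α) (hNτ : N ≤ N.comap τ) :
    ∀ y : G ⧸ N, QuotientGroup.map N N α hNα y = y → QuotientGroup.map N N τ hNτ y = y →
      y = 1 := by
  intro y
  induction y using QuotientGroup.induction_on with
  | H x =>
    intro h1 h2
    rw [QuotientGroup.map_mk] at h1 h2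
    have e1 : x⁻¹ * α x ∈ N := by
      rw [← QuotientGroup.eq]; exact h1.symm
    have e2 : x⁻¹ * τ x ∈ N := by
      rw [← QuotientGroup.eq]; exact h2.symm
    obtain ⟨k, hk, hk1, hk2⟩ := fp_coset_S3 hrel N
      (Nat.Coprime.coprime_dvd_left (Subgroup.card_subgroup_dvd_card N) hcop)
      (fun k hk => hNα hk) (fun k hk => hNτ hk) x e1 e2
    have hxk : x * k = 1 := hfpf _ hk1 hk2
    have : x = k⁻¹ := eq_inv_of_mul_eq_one_left hxk
    rw [this]
    exact (QuotientGroup.eq_one_iff _).2 (N.inv_mem hk)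

theorem nil_of_le' {G : Type*} [Group G] {H K : Subgroup G} (hle : H ≤ K)
    (hK : Group.IsNilpotent K) : Group.IsNilpotent H := by
  haveI := hK
  refine Subgroup.isNilpotent_of_ker_le_center (Subgroup.inclusion hle) ?_
  rw [(MonoidHom.ker_eq_bot_iff _).2 (Subgroup.inclusion_injective hle)]
  exact bot_le

/-- the key step: the preimage of the `q`-core of `G/F` is central modulo `F` -/
theorem coreStep3 {G : Type u} [Group G] [Finite G] {α τ : G →* G} (hrel : Rel α τ)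
    (hcop : (Nat.card G).Coprime 6) (hfpf : ∀ g, α g = g → τ g = g → g = 1)
    (F : Subgroup G) [hFn : F.Normal] (hFab : ∀ a ∈ F, ∀ b ∈ F, a * b = b * a)
    (hFα : ∀ x ∈ F, α x ∈ F) (hFτ : ∀ x ∈ F, τ x ∈ F)
    (hFmax : ∀ C : Subgroup G, C.Normal → Group.IsNilpotent C → C ≤ F)
    (q : ℕ) (hq : q.Prime) (hq5 : 5 ≤ q)
    (T : Subgroup G) [hTn : T.Normal] (hTα : ∀ x ∈ T, α x ∈ T) (hTτ : ∀ x ∈ T, τ x ∈ T)
    (hTq : ∀ t ∈ T, ∃ j, t ^ (q ^ j) ∈ F) :
    ∀ g : G, ∀ t ∈ T, g * t * g⁻¹ * t⁻¹ ∈ F := by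
  classical
  haveI hqf : Fact q.Prime := ⟨hq⟩
  set N := Nat.card G with hN
  set m := N / q ^ N.factorization q with hm
  set i := N.factorization q with hi
  have hNpos : 0 < N := Nat.card_pos
  have hNm : q ^ i * m = N := Nat.ordProj_mul_ordCompl_eq_self N q
  have hmq : Nat.Coprime q m := Nat.coprime_ordCompl hq hNpos.ne'
  let V : Subgroup G :=
    { carrier := {v | v ∈ F ∧ v ^ m = 1}
      mul_mem' := by
        rintro a b ⟨ha, ha'⟩ ⟨hb, hb'⟩
        refine ⟨F.mul_mem ha hb, ?_⟩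
        have hc : Commute a b := hFab a ha b hb
        rw [hc.mul_pow, ha', hb', one_mul]
      one_mem' := ⟨F.one_mem, one_pow m⟩
      inv_mem' := by
        rintro a ⟨ha, ha'⟩
        exact ⟨F.inv_mem ha, by rw [inv_pow, ha', inv_one]⟩ }
  have hVF : V ≤ F := fun v hv => hv.1
  haveI hVn : V.Normal := ⟨by
    intro v hv g
    refine ⟨hFn.conj_mem v hv.1 g, ?_⟩
    rw [conj_pow, hv.2, mul_one, mul_inv_cancel]⟩
  have hVα : ∀ v ∈ V, α v ∈ V := fun v hv => ⟨hFα v hv.1, by rw [← map_pow, hv.2, map_one]⟩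
  have hVτ : ∀ v ∈ V, τ v ∈ V := fun v hv => ⟨hFτ v hv.1, by rw [← map_pow, hv.2, map_one]⟩
  have hVab : ∀ x ∈ V, ∀ y ∈ V, x * y = y * x := fun x hx y hy => hFab x hx.1 y hy.1
  have hVcop : (Nat.card V).Coprime q := by
    rw [Nat.coprime_comm, Nat.Prime.coprime_iff_not_dvd hq]
    intro hdvd
    obtain ⟨x, hx⟩ := exists_prime_orderOf_dvd_card' q hdvd
    have h1 : (x : G) ^ m = 1 := x.2.2
    have h2 : orderOf (x : G) = q := by rw [Subgroup.orderOf_coe]; exact hx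
    have h3 : q ∣ m := h2 ▸ orderOf_dvd_of_pow_eq_one h1
    exact (Nat.Prime.coprime_iff_not_dvd hq).1 hmq h3
  have hFV : ∀ u ∈ F, u ^ (q ^ i) ∈ V := by
    intro u hu
    refine ⟨F.pow_mem hu _, ?_⟩
    rw [← pow_mul, hNm]; exact pow_card_eq_one'
  have hTV : ∀ t ∈ T, ∃ j, t ^ (q ^ j) ∈ V := by
    intro t ht
    obtain ⟨j, hj⟩ := hTq t ht
    refine ⟨j + i, ?_⟩
    rw [pow_add, pow_mul]
    exact hFV _ hj
  -- the module
  have hWcop : (Nat.card (AbMod V hVab)).Coprime (6 * q) := by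
    rw [AbMod.card]
    exact Nat.Coprime.mul_right
      (Nat.Coprime.coprime_dvd_left (Subgroup.card_subgroup_dvd_card V) hcop) hVcop
  set ρ : G →* LAut (AbMod V hVab) := AbMod.conjHom with hρ
  let aW : LAut (AbMod V hVab) := AbMod.aut α (fun x => α (α x)) hVα
    (fun v hv => hVα _ (hVα v hv)) (fun x _ y _ => map_mul α x y) (fun v _ => hrel.h3 v)
    (fun v _ => hrel.h3 v)
  let tW : LAut (AbMod V hVab) := AbMod.aut τ τ hVτ hVτ (fun x _ y _ => map_mul τ x y)
    (fun v _ => hrel.h2 v) (fun v _ => hrel.h2 v)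
  have hS3 : S3 aW tW := by
    refine ⟨fun w => AbMod.ext ?_, fun w => AbMod.ext ?_, fun w => AbMod.ext ?_, ?_⟩
    · exact hrel.h3 w.val
    · exact hrel.h2 w.val
    · exact (hrel.αατ w.val).symm
    · intro w h1 h2
      apply AbMod.ext
      have e1 : α w.val = w.val := congrArg AbMod.val h1
      have e2 : τ w.val = w.val := congrArg AbMod.val h2
      exact hfpf w.val e1 e2
  have hρα : ∀ g, aW * ρ g * aW⁻¹ = ρ (α g) := by
    intro g
    refine LinearEquiv.ext (fun x => AbMod.ext ?_)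
    show α (g * α (α x.val) * g⁻¹) = α g * x.val * (α g)⁻¹
    rw [map_mul, map_mul, map_inv, hrel.h3]
  have hρτ : ∀ g, tW * ρ g * tW⁻¹ = ρ (τ g) := by
    intro g
    refine LinearEquiv.ext (fun x => AbMod.ext ?_)
    show τ (g * τ x.val * g⁻¹) = τ g * x.val * (τ g)⁻¹
    rw [map_mul, map_mul, map_inv, hrel.h2]
  have hker : ∀ g, ρ g = 1 ↔ ∀ v ∈ V, g * v = v * g := by
    intro g
    constructor
    · intro hg v hv
      have h0 := congrArg (fun e : LAut (AbMod V hVab) => (e (AbMod.mk v hv)).val) hg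
      have h1 : g * v * g⁻¹ = v := h0
      exact mul_inv_eq_iff_eq_mul.1 h1
    · intro hg
      refine LinearEquiv.ext (fun x => AbMod.ext ?_)
      show g * x.val * g⁻¹ = x.val
      exact mul_inv_eq_iff_eq_mul.2 (hg _ x.val_mem)
  have hFker : ∀ f ∈ F, ρ f = 1 := fun f hf => (hker f).2 (fun v hv => hFab f hf v hv.1)
  -- invariant subgroups have invariant fixed-point-free images
  have himg : ∀ H : Subgroup G, (∀ x ∈ H, α x ∈ H) → (∀ x ∈ H, τ x ∈ H) →
      (∀ x ∈ H.map ρ, aW * x * aW⁻¹ ∈ H.map ρ) ∧ (∀ x ∈ H.map ρ, tW * x * tW⁻¹ ∈ H.map ρ) ∧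
      (∀ x ∈ H.map ρ, aW * x * aW⁻¹ = x → tW * x * tW⁻¹ = x → x = 1) := by
    intro H hHα hHτ
    refine ⟨?_, ?_, ?_⟩
    · rintro _ ⟨g, hg, rfl⟩
      rw [hρα]; exact ⟨α g, hHα g hg, rfl⟩
    · rintro _ ⟨g, hg, rfl⟩
      rw [hρτ]; exact ⟨τ g, hHτ g hg, rfl⟩
    · rintro _ ⟨g, hg, rfl⟩ h1 h2
      rw [hρα] at h1
      rw [hρτ] at h2
      set N₁ : Subgroup G := H ⊓ ρ.ker with hN₁
      have hN₁cop : (Nat.card N₁).Coprime 6 :=
        Nat.Coprime.coprime_dvd_left (Subgroup.card_subgroup_dvd_card N₁) hcop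
      have hN₁α : ∀ k ∈ N₁, α k ∈ N₁ := by
        intro k hk
        obtain ⟨hk1, hk2⟩ := Subgroup.mem_inf.1 hk
        refine Subgroup.mem_inf.2 ⟨hHα k hk1, ?_⟩
        rw [MonoidHom.mem_ker] at hk2 ⊢
        rw [← hρα, hk2]; group
      have hN₁τ : ∀ k ∈ N₁, τ k ∈ N₁ := by
        intro k hk
        obtain ⟨hk1, hk2⟩ := Subgroup.mem_inf.1 hk
        refine Subgroup.mem_inf.2 ⟨hHτ k hk1, ?_⟩
        rw [MonoidHom.mem_ker] at hk2 ⊢
        rw [← hρτ, hk2]; group
      have hgα : g⁻¹ * α g ∈ N₁ := by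
        refine Subgroup.mem_inf.2 ⟨H.mul_mem (H.inv_mem hg) (hHα g hg), ?_⟩
        rw [MonoidHom.mem_ker, map_mul, map_inv, h1]; group
      have hgτ : g⁻¹ * τ g ∈ N₁ := by
        refine Subgroup.mem_inf.2 ⟨H.mul_mem (H.inv_mem hg) (hHτ g hg), ?_⟩
        rw [MonoidHom.mem_ker, map_mul, map_inv, h2]; group
      obtain ⟨k, hk, hk1, hk2⟩ := fp_coset_S3 hrel N₁ hN₁cop hN₁α hN₁τ g hgα hgτ
      have hgk : g * k = 1 := hfpf _ hk1 hk2
      have hk' : ρ k = 1 := MonoidHom.mem_ker.1 (Subgroup.mem_inf.1 hk).2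
      have h3 : ρ (g * k) = 1 := by rw [hgk, map_one]
      rw [map_mul, hk', mul_one] at h3
      exact h3
  have hSyl : ∀ r : ℕ, r.Prime → ∃ P : Subgroup G, IsPGroup r P ∧
      Nat.card P = r ^ N.factorization r ∧ (∀ x ∈ P, α x ∈ P) ∧ (∀ x ∈ P, τ x ∈ P) := by
    intro r hr
    haveI : Fact r.Prime := ⟨hr⟩
    obtain ⟨P, hPα, hPτ⟩ := invSyl hrel hcop r
    exact ⟨P, P.isPGroup', P.card_eq_multiplicity, hPα, hPτ⟩
  -- the image of T
  set E : Subgroup (LAut (AbMod V hVab)) := T.map ρ with hE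
  have hEq : IsPGroup q E := by
    rintro ⟨_, t, ht, rfl⟩
    obtain ⟨j, hj⟩ := hTq t ht
    refine ⟨j, Subtype.ext ?_⟩
    show (ρ t) ^ (q ^ j) = 1
    rw [← map_pow]; exact hFker _ hj
  have hEnorm : ∀ g : G, ∀ e ∈ E, ρ g * e * (ρ g)⁻¹ ∈ E := by
    rintro g _ ⟨t, ht, rfl⟩
    refine ⟨g * t * g⁻¹, hTn.conj_mem t ht g, ?_⟩
    rw [map_mul, map_mul, map_inv]
  have hEnorm' : ∀ g : G, ∀ e ∈ E, (ρ g)⁻¹ * e * ρ g ∈ E := by
    intro g e he
    have := hEnorm g⁻¹ e he
    rwa [map_inv, inv_inv] at this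
  obtain ⟨Pq, hPqp, hPqcard, hPqα, hPqτ⟩ := hSyl q hq
  set H : Subgroup G := Pq ⊔ T with hH
  have hHα : ∀ x ∈ H, α x ∈ H := by
    intro x hx
    have h1 : H.map α ≤ H := by
      rw [hH, Subgroup.map_sup]
      apply sup_le_sup
      · rintro _ ⟨y, hy, rfl⟩
        exact hPqα y hy
      · rintro _ ⟨y, hy, rfl⟩
        exact hTα y hy
    exact h1 ⟨x, hx, rfl⟩
  have hHτ : ∀ x ∈ H, τ x ∈ H := by
    intro x hx
    have h1 : H.map τ ≤ H := by
      rw [hH, Subgroup.map_sup]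
      apply sup_le_sup
      · rintro _ ⟨y, hy, rfl⟩
        exact hPqτ y hy
      · rintro _ ⟨y, hy, rfl⟩
        exact hTτ y hy
    exact h1 ⟨x, hx, rfl⟩
  obtain ⟨hQa, hQt, hQfp⟩ := himg H hHα hHτ
  have hQp : IsPGroup q (H.map ρ) := by
    rw [hH, Subgroup.map_sup]
    refine IsPGroup.to_sup_of_normal_right' (hPqp.map ρ) hEq ?_
    rintro _ ⟨g, hg, rfl⟩
    rw [Subgroup.mem_normalizer_iff]
    intro e
    constructor
    · exact hEnorm g e
    · intro he
      have := hEnorm' g _ he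
      have e2 : (ρ g)⁻¹ * (ρ g * e * (ρ g)⁻¹) * ρ g = e := by group
      rwa [e2] at this
  have hQc := SA.{u} (Nat.card (AbMod V hVab) + Nat.card (H.map ρ)) (AbMod V hVab) aW tW q
    (H.map ρ) hS3 hq hq5 hQp hWcop hQa hQt hQfp le_rfl
  have hEQ : E ≤ H.map ρ := Subgroup.map_mono le_sup_right
  have hEc : ∀ x ∈ E, ∀ y ∈ E, x * y = y * x := fun x hx y hy => hQc x (hEQ hx) y (hEQ hy)
  set C : Subgroup G := (Subgroup.centralizer (E : Set (LAut (AbMod V hVab)))).comap ρ with hC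
  have hCmem : ∀ g, g ∈ C ↔ ∀ e ∈ E, ρ g * e = e * ρ g := by
    intro g
    rw [hC, Subgroup.mem_comap, Subgroup.mem_centralizer_iff]
    constructor
    · intro h e he
      exact (h e he).symm
    · intro h e he
      exact (h e he).symm
  have hPqC : Pq ≤ C := by
    intro x hx
    rw [hCmem]
    intro e he
    exact hQc _ (Subgroup.mem_map_of_mem ρ ((le_sup_left : Pq ≤ H) hx)) _ (hEQ he)
  obtain ⟨hEa, hEt, hEfp⟩ := himg T hTα hTτ
  have hEa' := norm_inv E aW hEa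
  have hEt' := norm_inv E tW hEt
  have hPrC : ∀ r : ℕ, r.Prime → 5 ≤ r → r ≠ q → ∀ P : Subgroup G, IsPGroup r P →
      (∀ x ∈ P, α x ∈ P) → (∀ x ∈ P, τ x ∈ P) → P ≤ C := by
    intro r hr hr5 hrq P hPp hPα hPτ
    obtain ⟨hRa, hRt, hRfp⟩ := himg P hPα hPτ
    obtain ⟨k, hk⟩ := hEq.exists_card_eq
    have hqr : Nat.Coprime q r := (Nat.coprime_primes hq hr).2 (Ne.symm hrq)
    have hSB := SB_abstract (M := AbMod E hEc) hS3 (fun m => m.val) (fun m m' => rfl)
      (fun x y hxy => AbMod.ext hxy)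
      (AbMod.aut (fun e => aW * e * aW⁻¹) (fun e => aW⁻¹ * e * aW) hEa hEa'
        (fun x _ y _ => by group) (fun v _ => by group) (fun v _ => by group))
      (AbMod.aut (fun e => tW * e * tW⁻¹) (fun e => tW⁻¹ * e * tW) hEt hEt'
        (fun x _ y _ => by group) (fun v _ => by group) (fun v _ => by group))
      (fun m => rfl) (fun m => rfl)
      (by
        rw [AbMod.card, AbMod.card, hk]
        exact Nat.Coprime.pow_left k hVcop.symm)
      r hr hr5
      (by
        rw [AbMod.card, hk]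
        exact Nat.Coprime.pow_left k (Nat.Coprime.mul_right (coprime6_of_prime q hq hq5) hqr))
      (by
        intro m h1 h2
        apply AbMod.ext
        exact hEfp m.val m.val_mem (congrArg AbMod.val h1) (congrArg AbMod.val h2))
      (P.map ρ) (hPp.map ρ) hRa hRt hRfp
      (by
        rintro _ ⟨g, hg, rfl⟩
        exact ⟨AbMod.aut (fun e => ρ g * e * (ρ g)⁻¹) (fun e => (ρ g)⁻¹ * e * ρ g) (hEnorm g)
          (hEnorm' g) (fun x _ y _ => by group) (fun v _ => by group) (fun v _ => by group),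
          fun m => rfl⟩)
    intro x hx
    rw [hCmem]
    intro e he
    exact hSB (ρ x) ⟨x, hx, rfl⟩ (AbMod.mk e he)
  have hCtop : C = ⊤ := by
    apply Subgroup.eq_top_of_card_eq
    apply Nat.dvd_antisymm (Subgroup.card_subgroup_dvd_card C)
    have hC0 : Nat.card C ≠ 0 := Nat.card_pos.ne'
    rw [← Nat.factorization_le_iff_dvd hNpos.ne' hC0]
    intro r
    by_cases hr : r.Prime
    · by_cases hr5 : 5 ≤ r
      · by_cases hrq : r = q
        · rw [hrq]
          have h1 : Nat.card Pq ∣ Nat.card C := Subgroup.card_dvd_of_le hPqC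
          rw [hPqcard] at h1
          exact (Nat.Prime.pow_dvd_iff_le_factorization hq hC0).1 h1
        · obtain ⟨P, hPp, hPcard, hPα, hPτ⟩ := hSyl r hr
          have h1 : Nat.card P ∣ Nat.card C :=
            Subgroup.card_dvd_of_le (hPrC r hr hr5 hrq P hPp hPα hPτ)
          rw [hPcard] at h1
          exact (Nat.Prime.pow_dvd_iff_le_factorization hr hC0).1 h1
      · rw [Nat.factorization_eq_zero_of_not_dvd (not_dvd_of_coprime6 hcop hr hr5)]
        exact Nat.zero_le _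
    · rw [Nat.factorization_eq_zero_of_not_prime _ hr]
      exact Nat.zero_le _
  -- conclusion
  set C₂ : Subgroup G := T ⊓ ρ.ker with hC₂
  haveI hC₂n : C₂.Normal := inferInstance
  have hC₂nil : Group.IsNilpotent C₂ := by
    set Qv : Subgroup (G ⧸ V) := T.map (QuotientGroup.mk' V) with hQv
    have hQvp : IsPGroup q Qv := by
      rintro ⟨_, t, ht, rfl⟩
      obtain ⟨j, hj⟩ := hTV t ht
      refine ⟨j, Subtype.ext ?_⟩
      show (QuotientGroup.mk' V t) ^ (q ^ j) = 1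
      rw [← map_pow]; exact (QuotientGroup.eq_one_iff _).2 hj
    let φ : C₂ →* Qv := ((QuotientGroup.mk' V).comp C₂.subtype).codRestrict Qv
      (fun x => ⟨x.1, (inf_le_left : C₂ ≤ T) x.2, rfl⟩)
    haveI : Group.IsNilpotent Qv := hQvp.isNilpotent
    refine Subgroup.isNilpotent_of_ker_le_center φ ?_
    intro x hx
    rw [MonoidHom.mem_ker] at hx
    have hxV : (x : G) ∈ V := by
      have h1 : QuotientGroup.mk' V (x : G) = 1 := congrArg Subtype.val hx
      exact (QuotientGroup.eq_one_iff _).1 h1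
    rw [Subgroup.mem_center_iff]
    intro y
    apply Subtype.ext
    have hy : ρ (y : G) = 1 := MonoidHom.mem_ker.1 (Subgroup.mem_inf.1 y.2).2
    exact (hker _).1 hy x hxV
  have hC₂F := hFmax C₂ hC₂n hC₂nil
  intro g t ht
  apply hC₂F
  refine Subgroup.mem_inf.2 ⟨T.mul_mem (hTn.conj_mem t ht g) (T.inv_mem ht), ?_⟩
  rw [MonoidHom.mem_ker, map_mul, map_mul, map_mul, map_inv, map_inv]
  have hg : g ∈ C := by rw [hCtop]; exact Subgroup.mem_top g
  have h1 := (hCmem g).1 hg (ρ t) ⟨t, ht, rfl⟩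
  rw [h1]; group

end Cfsg.Agent.Lib.Helper63.S3A
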