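import Mathlib
import Cfsg.Agent.Lib.Helper63.S3Top

set_option autoImplicit false
open Cfsg
open scoped commutatorElement

namespace Cfsg.Agent.Lib.Helper63.S3A

universe u

/-- the `MulEquiv` of an endomorphism of order dividing three -/
def equivOf3 {G : Type*} [Group G] (α : G →* G) (h3 : ∀ x, α (α (α x)) = x) : G ≃* G :=
  { toFun := α
    invFun := fun x => α (α x)
    left_inv := h3
    right_inv := h3
    map_mul' := α.map_mul }

/-- the `MulEquiv` of an endomorphism of order dividing two -/
def equivOf2 {G : Type*} [Group G] (τ : G →* G) (h2 : ∀ x, τ (τ x) = x) : G ≃* G :=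
  { toFun := τ
    invFun := τ
    left_inv := h2
    right_inv := h2
    map_mul' := τ.map_mul }

theorem frat_free3 {G : Type u} [Group G] [Finite G] (hG : Group.IsSolvable G)
    {α τ : G →* G} (hrel : Rel α τ) (hcop : (Nat.card G).Coprime 6)
    (hfpf : ∀ g, α g = g → τ g = g → g = 1) (hΦ : frattini G = ⊥) :
    commutator G ≤ fittingSubgroup G := by
  set F := fittingSubgroup G with hF
  haveI hFn : F.Normal := Cfsg.Agent.Lib.Helper71.fittingSubgroup_normal
  have hFnil : Group.IsNilpotent F := Cfsg.Agent.Lib.Helper71.fittingSubgroup_isNilpotent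
  have hFab := Cfsg.Agent.Lib.Helper90.comm_of_nilpotent_normal_of_frattini_eq_bot hΦ F hFnil
  have hFmax : ∀ C : Subgroup G, C.Normal → Group.IsNilpotent C → C ≤ F := fun C hC hn => by
    haveI := hC; exact Cfsg.Agent.Lib.Helper71.le_fittingSubgroup C hn
  have hFe : ∀ e : G ≃* G, ∀ x ∈ F, e x ∈ F := by
    intro e x hx
    have hmapn : (F.map e.toMonoidHom).Normal := hFn.map e.toMonoidHom e.surjective
    have hmapnil : Group.IsNilpotent (F.map e.toMonoidHom) :=
      Group.nilpotent_of_mulEquiv (F.equivMapOfInjective e.toMonoidHom e.injective)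
    exact hFmax _ hmapn hmapnil ⟨x, hx, rfl⟩
  have hFα : ∀ x ∈ F, α x ∈ F := fun x hx => hFe (equivOf3 α hrel.h3) x hx
  have hFτ : ∀ x ∈ F, τ x ∈ F := fun x hx => hFe (equivOf2 τ hrel.h2) x hx
  have hFα' : F ≤ F.comap α := fun x hx => hFα x hx
  have hFτ' : F ≤ F.comap τ := fun x hx => hFτ x hx
  set αb : G ⧸ F →* G ⧸ F := QuotientGroup.map F F α hFα' with hαb
  set τb : G ⧸ F →* G ⧸ F := QuotientGroup.map F F τ hFτ' with hτb
  have hαbmk : ∀ g : G, αb (g : G ⧸ F) = ((α g : G) : G ⧸ F) := fun g => rfl
  have hτbmk : ∀ g : G, τb (g : G ⧸ F) = ((τ g : G) : G ⧸ F) := fun g => rfl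
  have hrelb : Rel αb τb := quot_rel hrel F hFα' hFτ'
  have hcopb : (Nat.card (G ⧸ F)).Coprime 6 :=
    Nat.Coprime.coprime_dvd_left (Subgroup.card_quotient_dvd_card F) hcop
  haveI : Group.IsSolvable G := hG
  haveI : Group.IsSolvable (G ⧸ F) := inferInstance
  have hcore : ∀ q : Nat.Primes, pCore (q : ℕ) (G ⧸ F) ≤ Subgroup.center (G ⧸ F) := by
    intro q
    haveI : Fact (q : ℕ).Prime := ⟨q.2⟩
    have hPq := Cfsg.Agent.Lib.Helper63.pCore_isPGroup' (q : ℕ) (G ⧸ F)
    by_cases hq5 : 5 ≤ (q : ℕ)
    · intro x hx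
      rw [Subgroup.mem_center_iff]
      intro y
      induction x using QuotientGroup.induction_on with
      | H t =>
        induction y using QuotientGroup.induction_on with
        | H g =>
          haveI hchar : (pCore (q : ℕ) (G ⧸ F)).Characteristic :=
            Cfsg.Agent.Lib.Helper63.pCore_characteristic' _ _
          haveI hPn : (pCore (q : ℕ) (G ⧸ F)).Normal := Subgroup.normal_of_characteristic _
          set T := (pCore (q : ℕ) (G ⧸ F)).comap (QuotientGroup.mk' F) with hT
          haveI : T.Normal := hPn.comap _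
          have hTe : ∀ e : G ⧸ F ≃* G ⧸ F, ∀ z ∈ pCore (q : ℕ) (G ⧸ F),
              e z ∈ pCore (q : ℕ) (G ⧸ F) := by
            intro e z hz
            exact Subgroup.characteristic_iff_map_le.1 hchar e ⟨z, hz, rfl⟩
          have hTα : ∀ y ∈ T, α y ∈ T := by
            intro y hy
            exact hTe (equivOf3 αb hrelb.h3) _ hy
          have hTτ : ∀ y ∈ T, τ y ∈ T := by
            intro y hy
            exact hTe (equivOf2 τb hrelb.h2) _ hy
          have hTq : ∀ y ∈ T, ∃ j, y ^ ((q : ℕ) ^ j) ∈ F := by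
            intro y hy
            obtain ⟨j, hj⟩ := hPq ⟨QuotientGroup.mk' F y, hy⟩
            refine ⟨j, ?_⟩
            have h1 : (QuotientGroup.mk' F y) ^ ((q : ℕ) ^ j) = 1 := congrArg Subtype.val hj
            rw [← map_pow] at h1
            exact (QuotientGroup.eq_one_iff _).1 h1
          have hc := coreStep3 hrel hcop hfpf F hFab hFα hFτ hFmax (q : ℕ) q.2 hq5 T hTα hTτ hTq
            g t hx
          have h1 : ((g * t * g⁻¹ * t⁻¹ : G) : G ⧸ F) = 1 := (QuotientGroup.eq_one_iff _).2 hc
          rw [QuotientGroup.mk_mul, QuotientGroup.mk_mul, QuotientGroup.mk_mul,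
            QuotientGroup.mk_inv, QuotientGroup.mk_inv] at h1
          calc (g : G ⧸ F) * (t : G ⧸ F)
              = ((g : G ⧸ F) * (t : G ⧸ F) * (g : G ⧸ F)⁻¹ * (t : G ⧸ F)⁻¹) *
                  ((t : G ⧸ F) * (g : G ⧸ F)) := by group
            _ = (t : G ⧸ F) * (g : G ⧸ F) := by rw [h1, one_mul]
    · have hbot : pCore (q : ℕ) (G ⧸ F) = ⊥ := by
        rw [← Subgroup.card_eq_one]
        obtain ⟨k, hk⟩ := IsPGroup.iff_card.1 hPq
        rw [hk]
        rcases Nat.eq_zero_or_pos k with h0 | hpos
        · rw [h0, pow_zero]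
        · exfalso
          have hd : (q : ℕ) ∣ Nat.card (G ⧸ F) := by
            have h1 : (q : ℕ) ∣ Nat.card (pCore (q : ℕ) (G ⧸ F)) := by
              rw [hk]; exact dvd_pow_self _ hpos.ne'
            exact h1.trans (Subgroup.card_subgroup_dvd_card _)
          exact not_dvd_of_coprime6 hcopb q.2 hq5 hd
      rw [hbot]; exact bot_le
  have hfit : fittingSubgroup (G ⧸ F) ≤ Subgroup.center (G ⧸ F) := by
    rw [Cfsg.Agent.S0009.result]
    exact iSup_le hcore
  have hcomm : ∀ a b : G ⧸ F, a * b = b * a := by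
    intro a b
    have hcent : a ∈ Subgroup.centralizer (fittingSubgroup (G ⧸ F) : Set (G ⧸ F)) := by
      rw [Subgroup.mem_centralizer_iff]
      intro y hy
      have := Subgroup.mem_center_iff.1 (hfit hy) a
      exact this.symm
    have haF : a ∈ fittingSubgroup (G ⧸ F) := Cfsg.Agent.S0044.result hcent
    have := Subgroup.mem_center_iff.1 (hfit haF) b
    exact this.symm
  rw [commutator_eq_closure, Subgroup.closure_le]
  rintro g ⟨a, b, rfl⟩
  rw [SetLike.mem_coe, ← QuotientGroup.eq_one_iff, commutatorElement_def]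
  simp only [QuotientGroup.mk_mul, QuotientGroup.mk_inv]
  rw [hcomm (a : G ⧸ F) (b : G ⧸ F)]; group

theorem mainS : ∀ n : ℕ, ∀ (G : Type u) [Group G] [Finite G], Nat.card G ≤ n →
    Group.IsSolvable G → ∀ α τ : G →* G, Rel α τ → (Nat.card G).Coprime 6 →
    (∀ g, α g = g → τ g = g → g = 1) → Group.IsNilpotent (commutator G) := by
  intro n
  induction n with
  | zero =>
    intro G _ _ hc
    have := Nat.card_pos (α := G)
    omega
  | succ n ih =>
    intro G _ _ hcard hG α τ hrel hcop hfpf
    by_cases hΦ : frattini G = ⊥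
    · have hle := frat_free3 hG hrel hcop hfpf hΦ
      exact nil_of_le' hle Cfsg.Agent.Lib.Helper71.fittingSubgroup_isNilpotent
    · haveI hΦn : (frattini G).Normal := Subgroup.normal_of_characteristic _
      have hΦe : ∀ e : G ≃* G, ∀ x ∈ frattini G, e x ∈ frattini G := by
        intro e x hx
        exact Subgroup.characteristic_iff_map_le.1 inferInstance e ⟨x, hx, rfl⟩
      have hΦα : frattini G ≤ (frattini G).comap α :=
        fun x hx => hΦe (equivOf3 α hrel.h3) x hx
      have hΦτ : frattini G ≤ (frattini G).comap τ :=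
        fun x hx => hΦe (equivOf2 τ hrel.h2) x hx
      have hcardlt : Nat.card (G ⧸ frattini G) ≤ n := by
        have h1 := Subgroup.card_eq_card_quotient_mul_card_subgroup (frattini G)
        have h2 : 1 < Nat.card (frattini G) := (Subgroup.one_lt_card_iff_ne_bot _).2 hΦ
        have h3 : 0 < Nat.card (G ⧸ frattini G) := Nat.card_pos
        nlinarith
      haveI : Group.IsSolvable G := hG
      have hnil := ih (G ⧸ frattini G) hcardlt inferInstance
        (QuotientGroup.map (frattini G) (frattini G) α hΦα)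
        (QuotientGroup.map (frattini G) (frattini G) τ hΦτ)
        (quot_rel hrel (frattini G) hΦα hΦτ)
        (Nat.Coprime.coprime_dvd_left (Subgroup.card_quotient_dvd_card (frattini G)) hcop)
        (quot_fpf3 hrel hcop hfpf (frattini G) hΦα hΦτ)
      set N := commutator G ⊔ frattini G with hN
      haveI : N.Normal := inferInstance
      have hmap : N.map (QuotientGroup.mk' (frattini G)) = commutator (G ⧸ frattini G) := by
        rw [hN, Subgroup.map_sup, QuotientGroup.map_mk'_self, sup_bot_eq, commutator_def,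
          commutator_def, Subgroup.map_commutator,
          Subgroup.map_top_of_surjective _ (QuotientGroup.mk'_surjective (frattini G))]
      have hNnil : Group.IsNilpotent N := by
        apply Cfsg.Agent.S0070.nilpotent_of_frattini_quotient N le_sup_right
        rw [hmap]; exact hnil
      exact nil_of_le' le_sup_left hNnil

end Cfsg.Agent.Lib.Helper63.S3A
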