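import Mathlib
import Cfsg.Agent.Lib.Helper97.HHRing
import Cfsg.Agent.Lib.Helper97.HHCent

set_option autoImplicit false

namespace Cfsg.Agent.Lib.Helper63.SG

open Cfsg.Agent.Lib.Helper97.HH
open Polynomial
open scoped commutatorElement

/-- orbit counting for a permutation all of whose nontrivial powers have a unique fixed point -/
theorem orbit_countN {Ω : Type*} [Finite Ω] (σ : Equiv.Perm Ω) {N : ℕ} (hN : 0 < N)
    (hσN : σ ^ N = 1) (q₀ : Ω) (hq₀ : σ q₀ = q₀)
    (hfix : ∀ j, 0 < j → j < N → ∀ q, (σ ^ j) q = q → q = q₀) :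
    Nat.card (Quotient (MulAction.orbitRel (Subgroup.zpowers σ) Ω)) * N = Nat.card Ω + N - 1 := by
  classical
  have hfΩ : Fintype Ω := Fintype.ofFinite Ω
  have hfG : Fintype (Subgroup.zpowers σ) := Fintype.ofFinite _
  have hburn := MulAction.sum_card_fixedBy_eq_card_orbits_mul_card_group (Subgroup.zpowers σ) Ω
  have hq₀fix : ∀ a : Subgroup.zpowers σ, a • q₀ = q₀ := by
    intro a
    have h1 : (⟨σ, Subgroup.mem_zpowers σ⟩ : Subgroup.zpowers σ) ∈ MulAction.stabilizer (Subgroup.zpowers σ) q₀ :=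
      hq₀
    have h2 : Subgroup.zpowers (⟨σ, Subgroup.mem_zpowers σ⟩ : Subgroup.zpowers σ) ≤
        MulAction.stabilizer (Subgroup.zpowers σ) q₀ := by
      rw [Subgroup.zpowers_le]
      exact h1
    obtain ⟨k, hk⟩ := Subgroup.mem_zpowers_iff.mp a.2
    have h3 : a = (⟨σ, Subgroup.mem_zpowers σ⟩ : Subgroup.zpowers σ) ^ k := Subtype.ext hk.symm
    have h4 : a ∈ MulAction.stabilizer (Subgroup.zpowers σ) q₀ := by
      rw [h3]
      exact h2 (Subgroup.zpow_mem_zpowers _ k)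
    exact h4
  have hdvd : orderOf σ ∣ N := orderOf_dvd_of_pow_eq_one hσN
  have hopos : 0 < orderOf σ := Nat.pos_of_dvd_of_pos hdvd hN
  by_cases h1 : orderOf σ < N
  · have hall : ∀ q : Ω, q = q₀ := fun q => hfix (orderOf σ) hopos h1 q (by
      rw [pow_orderOf_eq_one]; rfl)
    have hsub : Subsingleton Ω := ⟨fun a b => (hall a).trans (hall b).symm⟩
    have hc1 : Nat.card Ω = 1 := Nat.card_eq_one_iff_unique.mpr ⟨hsub, ⟨q₀⟩⟩
    have hc2 : Nat.card (Quotient (MulAction.orbitRel (Subgroup.zpowers σ) Ω)) = 1 := by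
      apply Nat.card_eq_one_iff_unique.mpr
      refine ⟨⟨fun a b => ?_⟩, ⟨Quotient.mk'' q₀⟩⟩
      induction a using Quotient.inductionOn' with
      | _ a =>
        induction b using Quotient.inductionOn' with
        | _ b => rw [hall a, hall b]
    rw [hc1, hc2]
    omega
  · have hord : orderOf σ = N := le_antisymm (Nat.le_of_dvd hN hdvd) (not_lt.1 h1)
    have hcardG : Fintype.card (Subgroup.zpowers σ) = N := by
      rw [← Nat.card_eq_fintype_card, Nat.card_zpowers, hord]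
    have hfb : ∀ a : Subgroup.zpowers σ, a ≠ 1 → Fintype.card (MulAction.fixedBy Ω a) = 1 := by
      intro a ha
      rw [Fintype.card_eq_one_iff]
      refine ⟨⟨q₀, hq₀fix a⟩, ?_⟩
      rintro ⟨q, hq⟩
      apply Subtype.ext
      change q = q₀
      have hmem : (a : Equiv.Perm Ω) ∈ Submonoid.powers σ := mem_powers_iff_mem_zpowers.mpr a.2
      obtain ⟨n, hn⟩ := hmem
      have hn' : σ ^ n = (a : Equiv.Perm Ω) := hn
      have hn2 : σ ^ (n % N) = (a : Equiv.Perm Ω) := by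
        rw [← hn', ← hord, pow_mod_orderOf]
      have hpos : 0 < n % N := by
        rcases Nat.eq_zero_or_pos (n % N) with h0 | h0
        · exfalso
          apply ha
          apply Subtype.ext
          rw [← hn2, h0, pow_zero]
          rfl
        · exact h0
      apply hfix (n % N) hpos (Nat.mod_lt _ hN)
      rw [hn2]
      exact hq
    have hfb1 : Fintype.card (MulAction.fixedBy Ω (1 : Subgroup.zpowers σ)) = Fintype.card Ω := by
      apply Fintype.card_of_subtype Finset.univ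
      intro q
      simp
    have hsum : ∑ a : Subgroup.zpowers σ, Fintype.card (MulAction.fixedBy Ω a) =
        Fintype.card Ω + (N - 1) := by
      rw [← Finset.add_sum_erase Finset.univ _ (Finset.mem_univ (1 : Subgroup.zpowers σ)), hfb1]
      congr 1
      rw [Finset.sum_congr rfl (fun a ha => hfb a (Finset.ne_of_mem_erase ha)), Finset.sum_const,
        Finset.card_erase_of_mem (Finset.mem_univ _), Finset.card_univ, hcardG, smul_eq_mul,
        mul_one]
    rw [hsum, hcardG] at hburn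
    rw [Nat.card_eq_fintype_card, Nat.card_eq_fintype_card, ← hburn]
    omega
theorem card_sub_one_dvdN {Ω : Type*} [Finite Ω] (σ : Equiv.Perm Ω) {r : ℕ} (hr : 0 < r)
    (hσr : σ ^ r = 1) (q₀ : Ω) (hq₀ : σ q₀ = q₀)
    (hfix : ∀ j, 0 < j → j < r → ∀ q, (σ ^ j) q = q → q = q₀) :
    r ∣ Nat.card Ω - 1 := by
  have h := orbit_countN σ hr hσr q₀ hq₀ hfix
  have hpos : 0 < Nat.card Ω := Nat.card_pos_iff.mpr ⟨⟨q₀⟩, inferInstance⟩
  have hrpos := hr
  set k := Nat.card (Quotient (MulAction.orbitRel (Subgroup.zpowers σ) Ω)) with hk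
  have hk1 : 1 ≤ k := by
    by_contra hcon
    have hk0 : k = 0 := by omega
    rw [hk0] at h
    omega
  refine ⟨k - 1, ?_⟩
  have h2 : k * r = (k - 1) * r + r := by
    have h3 : k = (k - 1) + 1 := by omega
    calc k * r = ((k - 1) + 1) * r := by rw [← h3]
      _ = (k - 1) * r + r := by rw [add_mul, one_mul]
  rw [mul_comm r (k - 1)]
  omega

theorem equivariant_countN {Ω B : Type*} [Finite Ω] [Finite B] (σ : Equiv.Perm Ω) {r : ℕ}
    (hr : 0 < r) (hσr : σ ^ r = 1) (q₀ : Ω) (hq₀ : σ q₀ = q₀)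
    (hfix : ∀ j, 0 < j → j < r → ∀ q, (σ ^ j) q = q → q = q₀)
    (τ : Ω → B → B) :
    Nat.card {b : Ω → B // ∀ q, b (σ q) = τ q (b q)} ^ r ≤ Nat.card B ^ (Nat.card Ω + r - 1) := by
  classical
  have hinj : Function.Injective
      (fun (b : {b : Ω → B // ∀ q, b (σ q) = τ q (b q)})
        (o : Quotient (MulAction.orbitRel (Subgroup.zpowers σ) Ω)) => b.1 (Quotient.out o)) := by
    intro b b' hbb
    apply Subtype.ext
    funext q
    have key : ∀ (n : ℕ) (s : Ω), b.1 s = b'.1 s → b.1 ((σ ^ n) s) = b'.1 ((σ ^ n) s) := by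
      intro n s hs
      induction n with
      | zero => simpa using hs
      | succ n ih =>
        rw [pow_succ', Equiv.Perm.mul_apply, b.2, b'.2, ih]
    have hrel : Quotient.out (Quotient.mk (MulAction.orbitRel (Subgroup.zpowers σ) Ω) q) ∈
        MulAction.orbit (Subgroup.zpowers σ) q :=
      (MulAction.orbitRel_apply).mp (Quotient.mk_out (s := MulAction.orbitRel (Subgroup.zpowers σ) Ω) q)
    obtain ⟨g, hg⟩ := hrel
    have hg' : q = g⁻¹ • Quotient.out (Quotient.mk (MulAction.orbitRel (Subgroup.zpowers σ) Ω) q) := by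
      rw [← hg, inv_smul_smul]
    have hmem : (g⁻¹ : Subgroup.zpowers σ).1 ∈ Submonoid.powers σ :=
      mem_powers_iff_mem_zpowers.mpr (g⁻¹).2
    obtain ⟨n, hn⟩ := hmem
    have hn' : σ ^ n = (g⁻¹ : Subgroup.zpowers σ).1 := hn
    have hq : q = (σ ^ n) (Quotient.out (Quotient.mk (MulAction.orbitRel (Subgroup.zpowers σ) Ω) q)) := by
      rw [hn']
      exact hg'
    rw [hq]
    apply key
    exact congrFun hbb _
  have h1 := Nat.card_le_card_of_injective _ hinj
  rw [Nat.card_fun] at h1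
  calc Nat.card {b : Ω → B // ∀ q, b (σ q) = τ q (b q)} ^ r
      ≤ (Nat.card B ^ Nat.card (Quotient (MulAction.orbitRel (Subgroup.zpowers σ) Ω))) ^ r :=
        Nat.pow_le_pow_left h1 r
    _ = Nat.card B ^ (Nat.card Ω + r - 1) := by
        rw [← pow_mul, orbit_countN σ hr hσr q₀ hq₀ hfix]


theorem quotPerm_fixN {Qg : Type*} [Group Qg] (α : Qg ≃* Qg) (j : ℕ)
    (hαfpf : ∀ g, g⁻¹ * (α ^ j) g ∈ Subgroup.center Qg → g ∈ Subgroup.center Qg)
    (q : Qg ⧸ Subgroup.center Qg) (hq : (quotPerm α ^ j) q = q) : q = 1 := by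
  induction q using QuotientGroup.induction_on with
  | _ g =>
    rw [quotPerm_pow, QuotientGroup.eq] at hq
    have h1 : g⁻¹ * (α ^ j) g ∈ Subgroup.center Qg := by
      have := Subgroup.inv_mem _ hq
      rwa [mul_inv_rev, inv_inv] at this
    exact (QuotientGroup.eq_one_iff g).mpr (hαfpf g h1)

section
variable {R₀ Qg : Type*} [Ring R₀] [Finite R₀] [Group Qg] [Finite Qg]

theorem ring_coreN (ρ : Qg →* R₀) (α : Qg ≃* Qg) (ξ ξ' : R₀) (hξ : ξ * ξ' = 1) (hξ' : ξ' * ξ = 1)
    (hξρ : ∀ g, ξ * ρ g = ρ (α g) * ξ)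
    (hcomm : ∀ g h : Qg, ⁅g, h⁆ ∈ Subgroup.center Qg)
    (hcentral : ∀ z ∈ Subgroup.center Qg, ∀ T : R₀, ρ z * T = T * ρ z)
    (hunit : ∀ z ∈ Subgroup.center Qg, z ≠ 1 → ∀ S : R₀, ρ z * S = S → S = 0)
    (hinv : ∃ m₀ : ℕ, (Nat.card Qg : R₀) * (m₀ : R₀) = 1)
    {r : ℕ} (hr : 0 < r) (hαr : α ^ r = 1)
    (hαfpf : ∀ j, 0 < j → j < r → ∀ g, g⁻¹ * (α ^ j) g ∈ Subgroup.center Qg →
      g ∈ Subgroup.center Qg) :
    Nat.card (Subring.centralizer (Set.range ρ)) ^ Nat.card (Qg ⧸ Subgroup.center Qg) ≤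
        Nat.card R₀ ∧
      Nat.card (Subring.centralizer ({ξ} : Set R₀)) ^ r ≤
        Nat.card (Subring.centralizer (Set.range ρ)) ^
          (Nat.card (Qg ⧸ Subgroup.center Qg) + r - 1) := by
  classical
  have hfQ : Fintype Qg := Fintype.ofFinite Qg
  have hfΩ : Fintype (Qg ⧸ Subgroup.center Qg) := Fintype.ofFinite _
  set 𝔹 : Subring R₀ := Subring.centralizer (Set.range ρ) with h𝔹
  have hB : ∀ b : R₀, b ∈ 𝔹 ↔ ∀ g, ρ g * b = b * ρ g := by
    intro b
    rw [h𝔹, Subring.mem_centralizer_iff]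
    constructor
    · intro h g
      exact h (ρ g) ⟨g, rfl⟩
    · rintro h _ ⟨g, rfl⟩
      exact h g
  have hρinv : ∀ g : Qg, ρ g * ρ g⁻¹ = 1 := fun g => by rw [← map_mul, mul_inv_cancel, map_one]
  have hρinv' : ∀ g : Qg, ρ g⁻¹ * ρ g = 1 := fun g => by rw [← map_mul, inv_mul_cancel, map_one]
  let Φ : R₀ → R₀ := fun Y => ∑ h : Qg, ρ h * Y * ρ h⁻¹
  have hΦconj : ∀ (Y : R₀) (g : Qg), ρ g * Φ Y * ρ g⁻¹ = Φ Y := by
    intro Y g
    change ρ g * (∑ h : Qg, ρ h * Y * ρ h⁻¹) * ρ g⁻¹ = ∑ h : Qg, ρ h * Y * ρ h⁻¹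
    rw [Finset.mul_sum, Finset.sum_mul,
      ← Equiv.sum_comp (Equiv.mulLeft g) (fun h => ρ h * Y * ρ h⁻¹)]
    apply Finset.sum_congr rfl
    intro h _
    simp only [Equiv.coe_mulLeft, mul_inv_rev, map_mul, mul_assoc]
  have hΦB : ∀ Y : R₀, Φ Y ∈ 𝔹 := by
    intro Y
    rw [hB]
    intro g
    calc ρ g * Φ Y = ρ g * Φ Y * (ρ g⁻¹ * ρ g) := by rw [hρinv', mul_one]
      _ = (ρ g * Φ Y * ρ g⁻¹) * ρ g := by simp only [mul_assoc]
      _ = Φ Y * ρ g := by rw [hΦconj]
  have hΦmulB : ∀ (Y b : R₀), b ∈ 𝔹 → Φ (Y * b) = Φ Y * b := by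
    intro Y b hb
    change ∑ h : Qg, ρ h * (Y * b) * ρ h⁻¹ = (∑ h : Qg, ρ h * Y * ρ h⁻¹) * b
    rw [Finset.sum_mul]
    apply Finset.sum_congr rfl
    intro h _
    have h1 := (hB b).mp hb h⁻¹
    calc ρ h * (Y * b) * ρ h⁻¹ = ρ h * Y * (b * ρ h⁻¹) := by simp only [mul_assoc]
      _ = ρ h * Y * (ρ h⁻¹ * b) := by rw [h1]
      _ = ρ h * Y * ρ h⁻¹ * b := by simp only [mul_assoc]
  have hΦmulZ : ∀ (z : Qg), z ∈ Subgroup.center Qg → ∀ Y : R₀, Φ (ρ z * Y) = ρ z * Φ Y := by
    intro z hz Y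
    change ∑ h : Qg, ρ h * (ρ z * Y) * ρ h⁻¹ = ρ z * ∑ h : Qg, ρ h * Y * ρ h⁻¹
    rw [Finset.mul_sum]
    apply Finset.sum_congr rfl
    intro h _
    have h1 := hcentral z hz (ρ h)
    calc ρ h * (ρ z * Y) * ρ h⁻¹ = (ρ h * ρ z) * Y * ρ h⁻¹ := by simp only [mul_assoc]
      _ = (ρ z * ρ h) * Y * ρ h⁻¹ := by rw [h1]
      _ = ρ z * (ρ h * Y * ρ h⁻¹) := by simp only [mul_assoc]
  have hΦone : Φ 1 = (Nat.card Qg : R₀) := by
    change ∑ h : Qg, ρ h * 1 * ρ h⁻¹ = _
    simp only [mul_one, hρinv]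
    simp [Nat.card_eq_fintype_card]
  have hΦnc : ∀ g : Qg, g ∉ Subgroup.center Qg → Φ (ρ g) = 0 := by
    intro g hg
    have hex : ∃ h₀ : Qg, h₀ * g ≠ g * h₀ := by
      by_contra hcon
      push Not at hcon
      exact hg (Subgroup.mem_center_iff.mpr (fun h => hcon h))
    obtain ⟨h₀, hh₀⟩ := hex
    have hz'Z : ⁅h₀, g⁆ ∈ Subgroup.center Qg := hcomm h₀ g
    have hz'1 : ⁅h₀, g⁆ ≠ 1 := fun h => hh₀ (commutatorElement_eq_one_iff_mul_comm.mp h)
    apply hunit ⁅h₀, g⁆ hz'Z hz'1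
    change ρ ⁅h₀, g⁆ * ∑ h : Qg, ρ h * ρ g * ρ h⁻¹ = ∑ h : Qg, ρ h * ρ g * ρ h⁻¹
    rw [Finset.mul_sum, ← Equiv.sum_comp (Equiv.mulRight h₀) (fun h => ρ h * ρ g * ρ h⁻¹)]
    apply Finset.sum_congr rfl
    intro h _
    simp only [Equiv.coe_mulRight, ← map_mul]
    congr 1
    have hc : h * ⁅h₀, g⁆ = ⁅h₀, g⁆ * h := Subgroup.mem_center_iff.mp hz'Z h
    calc ⁅h₀, g⁆ * (h * g * h⁻¹) = (⁅h₀, g⁆ * h) * g * h⁻¹ := by group
      _ = h * ⁅h₀, g⁆ * g * h⁻¹ := by rw [hc]
      _ = h * h₀ * g * (h * h₀)⁻¹ := by rw [commutatorElement_def]; group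
  have hΦc : ∀ z : Qg, z ∈ Subgroup.center Qg → Φ (ρ z) = (Nat.card Qg : R₀) * ρ z := by
    intro z hz
    have h1 := hΦmulZ z hz 1
    rw [mul_one, hΦone] at h1
    rw [h1]
    exact (Nat.cast_comm _ _).symm
  let t : Qg ⧸ Subgroup.center Qg → Qg := fun q => Quotient.out q
  have ht : ∀ q, (QuotientGroup.mk (t q) : Qg ⧸ Subgroup.center Qg) = q :=
    fun q => QuotientGroup.out_eq' q
  obtain ⟨m₀, hm₀⟩ := hinv
  have hm₀' : (m₀ : R₀) * (Nat.card Qg : R₀) = 1 := by
    rw [← hm₀]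
    exact Nat.cast_comm _ _
  have hcancel : ∀ a b : R₀, (Nat.card Qg : R₀) * a = (Nat.card Qg : R₀) * b → a = b := by
    intro a b hab
    calc a = (m₀ : R₀) * ((Nat.card Qg : R₀) * a) := by rw [← mul_assoc, hm₀', one_mul]
      _ = (m₀ : R₀) * ((Nat.card Qg : R₀) * b) := by rw [hab]
      _ = b := by rw [← mul_assoc, hm₀', one_mul]
  refine ⟨?_, ?_⟩
  · -- the coset representatives are independent over the commutant
    let Λ : ((Qg ⧸ Subgroup.center Qg) → 𝔹) → R₀ := fun b => ∑ q, ρ (t q) * (b q).1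
    have hΛinj : Function.Injective Λ := by
      intro b b' hbb
      funext q₀
      have key : ∀ c : (Qg ⧸ Subgroup.center Qg) → 𝔹,
          Φ (ρ (t q₀)⁻¹ * Λ c) = (Nat.card Qg : R₀) * (c q₀).1 := by
        intro c
        change Φ (ρ (t q₀)⁻¹ * ∑ q, ρ (t q) * (c q).1) = _
        rw [Finset.mul_sum]
        have hΦsum : ∀ (f : (Qg ⧸ Subgroup.center Qg) → R₀), Φ (∑ q, f q) = ∑ q, Φ (f q) := by
          intro f
          change ∑ h : Qg, ρ h * (∑ q, f q) * ρ h⁻¹ = ∑ q, ∑ h : Qg, ρ h * f q * ρ h⁻¹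
          rw [Finset.sum_comm]
          apply Finset.sum_congr rfl
          intro h _
          rw [Finset.mul_sum, Finset.sum_mul]
        rw [hΦsum, Finset.sum_eq_single q₀]
        · rw [← mul_assoc, ← map_mul, inv_mul_cancel, map_one, one_mul]
          have h1 := hΦmulB 1 (c q₀).1 (c q₀).2
          rw [one_mul, hΦone] at h1
          exact h1
        · intro q _ hq
          rw [← mul_assoc, ← map_mul, hΦmulB _ _ (c q).2, hΦnc, zero_mul]
          intro hmem
          apply hq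
          rw [← ht q, ← ht q₀]
          exact (QuotientGroup.eq.mpr hmem).symm
        · intro h
          exact absurd (Finset.mem_univ _) h
      have h3 : (Nat.card Qg : R₀) * (b q₀).1 = (Nat.card Qg : R₀) * (b' q₀).1 := by
        rw [← key b, ← key b', hbb]
      exact Subtype.ext (hcancel _ _ h3)
    have h1 := Nat.card_le_card_of_injective Λ hΛinj
    rw [Nat.card_fun] at h1
    exact h1
  · -- elements commuting with `ξ` have equivariant coefficients
    set σ := quotPerm α with hσ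
    have hσr : σ ^ r = 1 := quotPerm_pow_eq_one α hαr
    have hσ1 : σ (1 : Qg ⧸ Subgroup.center Qg) = 1 := quotPerm_one α
    have hσfix : ∀ j, 0 < j → j < r → ∀ q, (σ ^ j) q = q → q = 1 :=
      fun j hj hjr => quotPerm_fixN α j (hαfpf j hj hjr)
    have hρα : ∀ g, ρ (α g) = ξ * ρ g * ξ' := by
      intro g
      rw [hξρ, mul_assoc, hξ, mul_one]
    have hΦξ : ∀ Y : R₀, Φ (ξ * Y * ξ') = ξ * Φ Y * ξ' := by
      intro Y
      change ∑ h : Qg, ρ h * (ξ * Y * ξ') * ρ h⁻¹ = ξ * (∑ h : Qg, ρ h * Y * ρ h⁻¹) * ξ'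
      rw [Finset.mul_sum, Finset.sum_mul,
        ← Equiv.sum_comp α.toEquiv (fun h => ρ h * (ξ * Y * ξ') * ρ h⁻¹)]
      apply Finset.sum_congr rfl
      intro h _
      change ρ (α h) * (ξ * Y * ξ') * ρ (α h)⁻¹ = ξ * (ρ h * Y * ρ h⁻¹) * ξ'
      rw [← map_inv α, hρα, hρα]
      calc ξ * ρ h * ξ' * (ξ * Y * ξ') * (ξ * ρ h⁻¹ * ξ')
          = ξ * ρ h * (ξ' * ξ) * Y * (ξ' * ξ) * ρ h⁻¹ * ξ' := by simp only [mul_assoc]
        _ = ξ * (ρ h * Y * ρ h⁻¹) * ξ' := by
          rw [hξ']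
          simp only [mul_one, mul_assoc]
    have hCmem : ∀ T : R₀, T ∈ Subring.centralizer ({ξ} : Set R₀) ↔ ξ * T = T * ξ := by
      intro T
      rw [Subring.mem_centralizer_iff]
      constructor
      · intro h
        exact h ξ rfl
      · rintro h _ rfl
        exact h
    let zq : (Qg ⧸ Subgroup.center Qg) → Qg := fun q => (α (t q))⁻¹ * t (σ q)
    have hzq : ∀ q, zq q ∈ Subgroup.center Qg := by
      intro q
      have h1 : (QuotientGroup.mk (α (t q)) : Qg ⧸ Subgroup.center Qg) =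
          QuotientGroup.mk (t (σ q)) := by
        rw [ht, ← quotPerm_mk, ht]
      exact QuotientGroup.eq.mp h1
    have hzq' : ∀ q, t (σ q) = α (t q) * zq q := by
      intro q
      change _ = α (t q) * ((α (t q))⁻¹ * t (σ q))
      rw [mul_inv_cancel_left]
    let τ : (Qg ⧸ Subgroup.center Qg) → 𝔹 → 𝔹 := fun q b =>
      if h : ρ (zq q)⁻¹ * (ξ * b.1 * ξ') ∈ 𝔹 then ⟨_, h⟩ else 0
    let β : Subring.centralizer ({ξ} : Set R₀) →
        {b : (Qg ⧸ Subgroup.center Qg) → 𝔹 // ∀ q, b (σ q) = τ q (b q)} :=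
      fun T => ⟨fun q => ⟨Φ (ρ (t q)⁻¹ * T.1), hΦB _⟩, by
        intro q
        have hT : ξ * T.1 = T.1 * ξ := (hCmem T.1).mp T.2
        have hT' : ξ' * T.1 = T.1 * ξ' := by
          calc ξ' * T.1 = ξ' * T.1 * (ξ * ξ') := by rw [hξ, mul_one]
            _ = ξ' * (T.1 * ξ) * ξ' := by simp only [mul_assoc]
            _ = ξ' * (ξ * T.1) * ξ' := by rw [hT]
            _ = T.1 * ξ' := by rw [← mul_assoc, hξ', one_mul]
        have hval : Φ (ρ (t (σ q))⁻¹ * T.1) =
            ρ (zq q)⁻¹ * (ξ * Φ (ρ (t q)⁻¹ * T.1) * ξ') := by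
          rw [hzq' q, mul_inv_rev, map_mul, mul_assoc, hΦmulZ _ (Subgroup.inv_mem _ (hzq q))]
          congr 1
          rw [← map_inv α, hρα, ← hΦξ]
          congr 1
          calc ξ * ρ (t q)⁻¹ * ξ' * T.1 = ξ * ρ (t q)⁻¹ * (ξ' * T.1) := by
                simp only [mul_assoc]
            _ = ξ * ρ (t q)⁻¹ * (T.1 * ξ') := by rw [hT']
            _ = ξ * (ρ (t q)⁻¹ * T.1) * ξ' := by simp only [mul_assoc]
        apply Subtype.ext
        change Φ (ρ (t (σ q))⁻¹ * T.1) = (τ q ⟨Φ (ρ (t q)⁻¹ * T.1), hΦB _⟩).1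
        simp only [τ]
        rw [dif_pos (by rw [← hval]; exact hΦB _)]
        exact hval⟩
    have hβ : ∀ (T : Subring.centralizer ({ξ} : Set R₀)) q,
        (((β T).1 q : 𝔹) : R₀) = Φ (ρ (t q)⁻¹ * T.1) := fun _ _ => rfl
    have hinvf : ∀ S : R₀,
        ∑ g : Qg, ρ (t (QuotientGroup.mk g)) * Φ (ρ (t (QuotientGroup.mk g))⁻¹ * S) =
          (Nat.card (Subgroup.center Qg) : R₀) * ((Nat.card Qg : R₀) * S) := by
      intro S
      have hstep1 : ∀ g : Qg,
          ρ (t (QuotientGroup.mk g)) * Φ (ρ (t (QuotientGroup.mk g))⁻¹ * S) =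
            ρ g * Φ (ρ g⁻¹ * S) := by
        intro g
        obtain ⟨w, hw, heq⟩ : ∃ w ∈ Subgroup.center Qg, t (QuotientGroup.mk g) = g * w := by
          refine ⟨g⁻¹ * t (QuotientGroup.mk g), ?_, by rw [mul_inv_cancel_left]⟩
          apply QuotientGroup.eq.mp
          rw [ht]
        rw [heq, mul_inv_rev, map_mul, map_mul, mul_assoc (ρ w⁻¹),
          hΦmulZ _ (Subgroup.inv_mem _ hw), mul_assoc (ρ g), ← mul_assoc (ρ w), hρinv, one_mul]
      rw [Finset.sum_congr rfl (fun g _ => hstep1 g)]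
      have hstep2 : ∑ g : Qg, ρ g * Φ (ρ g⁻¹ * S) = ∑ h : Qg, Φ (ρ h) * S * ρ h⁻¹ := by
        change ∑ g : Qg, ρ g * (∑ h : Qg, ρ h * (ρ g⁻¹ * S) * ρ h⁻¹) =
          ∑ h : Qg, (∑ g : Qg, ρ g * ρ h * ρ g⁻¹) * S * ρ h⁻¹
        simp only [Finset.mul_sum, Finset.sum_mul]
        rw [Finset.sum_comm]
        apply Finset.sum_congr rfl
        intro h _
        apply Finset.sum_congr rfl
        intro g _
        simp only [mul_assoc]
      rw [hstep2]
      have hstep3 : ∀ h : Qg, Φ (ρ h) * S * ρ h⁻¹ =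
          if h ∈ Subgroup.center Qg then (Nat.card Qg : R₀) * S else 0 := by
        intro h
        by_cases hh : h ∈ Subgroup.center Qg
        · rw [if_pos hh, hΦc h hh, mul_assoc, mul_assoc, ← mul_assoc (ρ h), hcentral h hh S,
            mul_assoc, hρinv, mul_one]
        · rw [if_neg hh, hΦnc h hh, zero_mul, zero_mul]
      rw [Finset.sum_congr rfl (fun h _ => hstep3 h), Finset.sum_ite, Finset.sum_const_zero,
        add_zero, Finset.sum_const, nsmul_eq_mul]
      congr 2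
      rw [Nat.card_eq_fintype_card, Fintype.card_subtype]
    have hm₁ : ((Nat.card (Qg ⧸ Subgroup.center Qg) * m₀ : ℕ) : R₀) *
        (Nat.card (Subgroup.center Qg) : R₀) = 1 := by
      have h1 := Subgroup.card_eq_card_quotient_mul_card_subgroup (Subgroup.center Qg)
      rw [← Nat.cast_mul]
      have h2 : Nat.card (Qg ⧸ Subgroup.center Qg) * m₀ * Nat.card (Subgroup.center Qg) =
          m₀ * Nat.card Qg := by
        rw [h1]
        ring
      rw [h2, Nat.cast_mul, hm₀']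
    have hβinj : Function.Injective β := by
      intro T T' hTT
      have hcoef : ∀ q, Φ (ρ (t q)⁻¹ * T.1) = Φ (ρ (t q)⁻¹ * T'.1) := by
        intro q
        rw [← hβ T q, ← hβ T' q, hTT]
      have h1 := hinvf T.1
      have h2 := hinvf T'.1
      rw [Finset.sum_congr rfl (fun g _ => by rw [hcoef])] at h1
      rw [h2] at h1
      have h3 : (Nat.card Qg : R₀) * T'.1 = (Nat.card Qg : R₀) * T.1 := by
        calc (Nat.card Qg : R₀) * T'.1
            = ((Nat.card (Qg ⧸ Subgroup.center Qg) * m₀ : ℕ) : R₀) *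
                ((Nat.card (Subgroup.center Qg) : R₀) * ((Nat.card Qg : R₀) * T'.1)) := by
              rw [← mul_assoc, hm₁, one_mul]
          _ = ((Nat.card (Qg ⧸ Subgroup.center Qg) * m₀ : ℕ) : R₀) *
                ((Nat.card (Subgroup.center Qg) : R₀) * ((Nat.card Qg : R₀) * T.1)) := by
              rw [h1]
          _ = (Nat.card Qg : R₀) * T.1 := by rw [← mul_assoc, hm₁, one_mul]
      exact Subtype.ext (hcancel _ _ h3).symm
    have h1 := Nat.card_le_card_of_injective β hβinj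
    have h2 := equivariant_countN σ hr hσr 1 hσ1 hσfix τ
    exact (Nat.pow_le_pow_left h1 r).trans h2

end

theorem field_coreN {K M Qg : Type*} [Field K] [Finite K] [AddCommGroup M] [Finite M]
    [Nontrivial M] [Group Qg] [Finite Qg]
    (φ : K →+* AddMonoid.End M) (ρ : Qg →* AddMonoid.End M) (α : Qg ≃* Qg)
    (ξ ξ' : AddMonoid.End M)
    (hξ : ξ * ξ' = 1) (hξ' : ξ' * ξ = 1) (hξρ : ∀ g, ξ * ρ g = ρ (α g) * ξ)
    (hφρ : ∀ k g, φ k * ρ g = ρ g * φ k) (hφξ : ∀ k, φ k * ξ = ξ * φ k)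
    (hscal : ∀ z ∈ Subgroup.center Qg, ∃ k, ρ z = φ k)
    {p r : ℕ} (hp : p.Prime) (hr : 0 < r) (hpr : Nat.Coprime r p)
    (hQcop : ¬ p ∣ Nat.card Qg)
    (hcomm : ∀ g h : Qg, ⁅g, h⁆ ∈ Subgroup.center Qg)
    (hαr : α ^ r = 1)
    (hαfpf : ∀ j, 0 < j → j < r → ∀ g, g⁻¹ * (α ^ j) g ∈ Subgroup.center Qg →
      g ∈ Subgroup.center Qg)
    (hξr : ξ ^ r = 1)
    (hexp : ∀ m : M, p • m = 0)
    (hfixZ : ∀ z ∈ Subgroup.center Qg, z ≠ 1 → ∀ m : M, ρ z m = m → m = 0)
    (hfixX : ∀ m : M, ξ m = m → m = 0) :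
    Nat.card (Qg ⧸ Subgroup.center Qg) ≤ (r - 1) ^ 2 := by
  classical
  letI mod : Module K M := Module.compHom M φ
  have hsmul : ∀ (k : K) (m : M), k • m = φ k m := fun _ _ => rfl
  have hfinMod : Module.Finite K M := Module.Finite.of_finite
  have hfinE : Finite (Module.End K M) :=
    Finite.of_injective (fun f : Module.End K M => (f : M → M)) DFunLike.coe_injective
  have hφξ' : ∀ k, φ k * ξ' = ξ' * φ k := by
    intro k
    calc φ k * ξ' = (ξ' * ξ) * φ k * ξ' := by rw [hξ', one_mul]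
      _ = ξ' * (ξ * φ k) * ξ' := by simp only [mul_assoc]
      _ = ξ' * (φ k * ξ) * ξ' := by rw [hφξ]
      _ = ξ' * φ k := by rw [mul_assoc, mul_assoc, hξ, mul_one]
  let lin : (T : AddMonoid.End M) → (∀ k, φ k * T = T * φ k) → Module.End K M := fun T hT =>
    { toFun := T
      map_add' := fun a b => map_add T a b
      map_smul' := fun k m => by
        rw [RingHom.id_apply, hsmul, hsmul]
        change (T * φ k) m = (φ k * T) m
        rw [hT] }
  have hlin : ∀ T hT m, lin T hT m = T m := fun _ _ _ => rfl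
  let ρL : Qg →* Module.End K M :=
    { toFun := fun g => lin (ρ g) (fun k => hφρ k g)
      map_one' := LinearMap.ext (fun m => by
        change ρ 1 m = m
        rw [map_one]
        rfl)
      map_mul' := fun a b => LinearMap.ext (fun m => by
        change ρ (a * b) m = ρ a (ρ b m)
        rw [map_mul]
        rfl) }
  have hρL : ∀ g m, ρL g m = ρ g m := fun _ _ => rfl
  let ξL : Module.End K M := lin ξ hφξ
  let ξL' : Module.End K M := lin ξ' hφξ'
  have hpR : (p : Module.End K M) = 0 := by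
    apply LinearMap.ext
    intro m
    rw [Module.End.natCast_apply]
    exact hexp m
  have hcopn : Nat.Coprime (Nat.card Qg) p :=
    ((Nat.Prime.coprime_iff_not_dvd hp).mpr hQcop).symm
  obtain ⟨m₀, -, hm₀⟩ := Nat.exists_mul_mod_eq_one_of_coprime hcopn hp.one_lt
  have hm₀R : (Nat.card Qg : Module.End K M) * (m₀ : Module.End K M) = 1 := by
    have h6 : Nat.card Qg * m₀ = p * (Nat.card Qg * m₀ / p) + 1 := by
      have := Nat.div_add_mod (Nat.card Qg * m₀) p
      rw [hm₀] at this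
      exact this.symm
    have h7 : ((Nat.card Qg * m₀ : ℕ) : Module.End K M) = 1 := by
      rw [h6]
      push_cast
      rw [hpR, zero_mul, zero_add]
    rw [← Nat.cast_mul, h7]
  obtain ⟨hF1, hF2⟩ := ring_coreN ρL α ξL ξL'
    (LinearMap.ext (fun m => by
      change (ξ * ξ') m = m
      rw [hξ]
      rfl))
    (LinearMap.ext (fun m => by
      change (ξ' * ξ) m = m
      rw [hξ']
      rfl))
    (fun g => LinearMap.ext (fun m => by
      change (ξ * ρ g) m = (ρ (α g) * ξ) m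
      rw [hξρ]))
    hcomm
    (fun z hz T => LinearMap.ext (fun m => by
      obtain ⟨k, hk⟩ := hscal z hz
      change ρ z (T m) = T (ρ z m)
      rw [hk, ← hsmul, ← hsmul, T.map_smul]))
    (fun z hz hz1 S hS => LinearMap.ext (fun m => by
      apply hfixZ z hz hz1
      have := congrArg (fun T : Module.End K M => T m) hS
      exact this))
    ⟨m₀, hm₀R⟩ hr hαr hαfpf
  -- the characteristic
  have hpK : (p : K) = 0 := by
    by_contra hne
    obtain ⟨m, hm⟩ := exists_ne (0 : M)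
    apply hm
    have h1 : (p : K) • m = 0 := by
      rw [Nat.cast_smul_eq_nsmul]
      exact hexp m
    exact (smul_eq_zero.mp h1).resolve_left hne
  have hrK : (r : K) ≠ 0 := by
    intro h0
    have hcop' : Nat.Coprime r p := hpr
    obtain ⟨a, -, ha⟩ := Nat.exists_mul_mod_eq_one_of_coprime hcop' hp.one_lt
    have h6 : r * a = p * (r * a / p) + 1 := by
      have := Nat.div_add_mod (r * a) p
      rw [ha] at this
      exact this.symm
    have h7 := congrArg (fun n : ℕ => (n : K)) h6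
    simp only [Nat.cast_mul, Nat.cast_add, Nat.cast_one, h0, hpK, zero_mul, zero_add] at h7
    exact zero_ne_one h7
  -- the polynomial `1 + X + ... + X^(r-1)`
  set g : K[X] := ∑ i ∈ Finset.range r, (X : K[X]) ^ i with hg
  have hgdvd : g ∣ X ^ r - 1 := ⟨X - 1, by rw [mul_comm]; exact (mul_geom_sum X r).symm⟩
  have hsq : Squarefree g := by
    have h1 : (X ^ r - C (1 : K)).Separable := separable_X_pow_sub_C (1 : K) hrK one_ne_zero
    rw [map_one] at h1
    exact Squarefree.squarefree_of_dvd hgdvd h1.squarefree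
  have hgdeg : g.natDegree ≤ r - 1 := by
    apply Polynomial.natDegree_sum_le_of_forall_le
    intro i hi
    rw [natDegree_X_pow]
    have := Finset.mem_range.mp hi
    omega
  have hpowL : ∀ (n : ℕ) (m : M), (ξL ^ n) m = (ξ ^ n) m := by
    intro n
    induction n with
    | zero =>
      intro m
      rfl
    | succ n ih =>
      intro m
      rw [pow_succ, pow_succ, Module.End.mul_apply, ih]
      rfl
  have hξLr : ξL ^ r = 1 := LinearMap.ext (fun m => by
    rw [hpowL, hξr]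
    rfl)
  have haeval : aeval ξL g = 0 := by
    have h1 : aeval ξL g = ∑ i ∈ Finset.range r, ξL ^ i := by
      rw [hg, map_sum]
      apply Finset.sum_congr rfl
      intro i _
      rw [map_pow, aeval_X]
    rw [h1]
    have h2 : ξL * ∑ i ∈ Finset.range r, ξL ^ i = ∑ i ∈ Finset.range r, ξL ^ i := by
      have := mul_geom_sum ξL r
      rw [hξLr, sub_self, sub_mul, one_mul, sub_eq_zero] at this
      exact this
    apply LinearMap.ext
    intro m
    apply hfixX
    have := congrArg (fun T : Module.End K M => T m) h2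
    exact this
  obtain ⟨N, c, hMN, hcC, hNc⟩ := centralizer_bound ξL g hsq haeval
  have hK2 : 1 < Nat.card K := Finite.one_lt_card
  have hN : N = Module.finrank K M := by
    have h1 : Nat.card M = Nat.card K ^ Module.finrank K M :=
      Module.natCard_eq_pow_finrank (K := K) (V := M)
    rw [hMN] at h1
    exact Nat.pow_right_injective hK2 h1
  have hR₀ : Nat.card (Module.End K M) = Nat.card K ^ (N * N) := by
    rw [hN, Module.natCard_eq_pow_finrank (K := K) (V := M →ₗ[K] M), Module.finrank_linearMap]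
  have hCle : Nat.card {T : Module.End K M // T * ξL = ξL * T} ≤
      Nat.card (Subring.centralizer ({ξL} : Set (Module.End K M))) := by
    apply Nat.card_le_card_of_injective (fun T => (⟨T.1, by
      rw [Subring.mem_centralizer_iff]
      rintro _ rfl
      exact T.2.symm⟩ : Subring.centralizer ({ξL} : Set (Module.End K M))))
    intro T T' h
    have h' : T.1 = T'.1 :=
      congrArg (fun S : Subring.centralizer ({ξL} : Set (Module.End K M)) => S.1) h
    exact Subtype.ext h'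
  have hntE : Nontrivial (Module.End K M) := by
    refine ⟨⟨0, 1, ?_⟩⟩
    intro h01
    obtain ⟨m, hm⟩ := exists_ne (0 : M)
    apply hm
    have := congrArg (fun T : Module.End K M => T m) h01
    exact this.symm
  have ha2 : 1 < Nat.card (Subring.centralizer (Set.range ρL)) := Finite.one_lt_card
  rw [hR₀] at hF1
  have hchain : Nat.card (Subring.centralizer (Set.range ρL)) ^
        (Nat.card (Qg ⧸ Subgroup.center Qg) * r) ≤
      Nat.card (Subring.centralizer (Set.range ρL)) ^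
        ((Nat.card (Qg ⧸ Subgroup.center Qg) + r - 1) * (r - 1)) := by
    calc Nat.card (Subring.centralizer (Set.range ρL)) ^ (Nat.card (Qg ⧸ Subgroup.center Qg) * r)
        = (Nat.card (Subring.centralizer (Set.range ρL)) ^
            Nat.card (Qg ⧸ Subgroup.center Qg)) ^ r := by rw [pow_mul]
      _ ≤ (Nat.card K ^ (N * N)) ^ r := Nat.pow_le_pow_left hF1 r
      _ ≤ (Nat.card K ^ ((r - 1) * c)) ^ r :=
          Nat.pow_le_pow_left (Nat.pow_le_pow_right (by omega)
            (hNc.trans (Nat.mul_le_mul_right c hgdeg))) r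
      _ = (Nat.card K ^ c) ^ (r * (r - 1)) := by
          rw [← pow_mul, ← pow_mul]
          congr 1
          ring
      _ ≤ (Nat.card (Subring.centralizer ({ξL} : Set (Module.End K M)))) ^ (r * (r - 1)) :=
          Nat.pow_le_pow_left (hcC.trans hCle) _
      _ = ((Nat.card (Subring.centralizer ({ξL} : Set (Module.End K M)))) ^ r) ^ (r - 1) := by
          rw [pow_mul]
      _ ≤ (Nat.card (Subring.centralizer (Set.range ρL)) ^
            (Nat.card (Qg ⧸ Subgroup.center Qg) + r - 1)) ^ (r - 1) :=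
          Nat.pow_le_pow_left hF2 _
      _ = Nat.card (Subring.centralizer (Set.range ρL)) ^
            ((Nat.card (Qg ⧸ Subgroup.center Qg) + r - 1) * (r - 1)) := by rw [← pow_mul]
  have h1 : Nat.card (Qg ⧸ Subgroup.center Qg) * r ≤
      (Nat.card (Qg ⧸ Subgroup.center Qg) + r - 1) * (r - 1) :=
    (Nat.pow_le_pow_iff_right ha2).mp hchain
  have hr1 : 1 ≤ r := hr
  generalize Nat.card (Qg ⧸ Subgroup.center Qg) = ω at h1 ⊢
  obtain ⟨s, hs⟩ : ∃ s, r = s + 1 := ⟨r - 1, by omega⟩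
  rw [hs] at h1 ⊢
  have h2 : ω + (s + 1) - 1 = ω + s := by omega
  rw [h2, Nat.add_sub_cancel] at h1
  rw [Nat.add_sub_cancel]
  nlinarith

theorem hh_core_genN {M Qg : Type*} [AddCommGroup M] [Finite M] [Nontrivial M] [Group Qg]
    [Finite Qg]
    (ρ : Qg →* AddMonoid.End M) (α : Qg ≃* Qg) (ξ ξ' : AddMonoid.End M)
    (hξ : ξ * ξ' = 1) (hξ' : ξ' * ξ = 1) (hξρ : ∀ g, ξ * ρ g = ρ (α g) * ξ)
    {p r : ℕ} (hp : p.Prime) (hr : 0 < r) (hpr : Nat.Coprime r p)
    (hQcop : ¬ p ∣ Nat.card Qg)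
    (hcomm : ∀ g h : Qg, ⁅g, h⁆ ∈ Subgroup.center Qg)
    (hαr : α ^ r = 1)
    (hαfpf : ∀ j, 0 < j → j < r → ∀ g, g⁻¹ * (α ^ j) g ∈ Subgroup.center Qg →
      g ∈ Subgroup.center Qg)
    (hαZ : ∀ z ∈ Subgroup.center Qg, α z = z)
    (hξr : ξ ^ r = 1)
    (hexp : ∀ m : M, p • m = 0)
    (hfaithZ : ∀ z ∈ Subgroup.center Qg, ρ z = 1 → z = 1)
    (hfixX : ∀ m : M, ξ m = m → m = 0)
    (hirr : ∀ W : AddSubgroup M, (∀ g, ∀ x ∈ W, ρ g x ∈ W) → (∀ x ∈ W, ξ x ∈ W) →
      W = ⊥ ∨ W = ⊤) :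
    IsCyclic (Subgroup.center Qg) ∧ Nat.card (Qg ⧸ Subgroup.center Qg) ≤ (r - 1) ^ 2 := by
  classical
  have hfR : Finite (AddMonoid.End M) :=
    Finite.of_injective (fun f : AddMonoid.End M => (f : M → M)) DFunLike.coe_injective
  have hζρ : ∀ z ∈ Subgroup.center Qg, ∀ g, ρ g * ρ z = ρ z * ρ g := by
    intro z hz g
    rw [← map_mul, ← map_mul]
    congr 1
    exact Subgroup.mem_center_iff.mp hz g
  have hζξ : ∀ z ∈ Subgroup.center Qg, ξ * ρ z = ρ z * ξ := by
    intro z hz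
    rw [hξρ, hαZ z hz]
  set 𝔽 : Subring (AddMonoid.End M) :=
    Subring.closure (ρ '' (Subgroup.center Qg : Set Qg)) with h𝔽
  letI cr : CommRing 𝔽 := Subring.closureCommRingOfComm (by
    rintro a ⟨z, hz, rfl⟩ b ⟨z', hz', rfl⟩
    exact hζρ z' hz' z)
  have h𝔽comm : ∀ (a : AddMonoid.End M), a ∈ 𝔽 → (∀ g, ρ g * a = a * ρ g) ∧ ξ * a = a * ξ := by
    intro a ha
    have hle : 𝔽 ≤ Subring.centralizer (Set.range ρ ∪ {ξ}) := by
      rw [h𝔽, Subring.closure_le]
      rintro _ ⟨z, hz, rfl⟩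
      rw [SetLike.mem_coe, Subring.mem_centralizer_iff]
      rintro _ (⟨g, rfl⟩ | rfl)
      · exact hζρ z hz g
      · exact hζξ z hz
    have h1 := Subring.mem_centralizer_iff.mp (hle ha)
    exact ⟨fun g => h1 (ρ g) (Or.inl ⟨g, rfl⟩), h1 ξ (Or.inr rfl)⟩
  have hnzd : NoZeroDivisors 𝔽 := by
    refine ⟨?_⟩
    intro a b hab
    have hab' : a.1 * b.1 = 0 := congrArg Subtype.val hab
    let K₀ : AddSubgroup M :=
      { carrier := {x | a.1 x = 0}
        add_mem' := fun {u v} hu hv => by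
          change a.1 (u + v) = 0
          rw [map_add, hu, hv, add_zero]
        zero_mem' := map_zero _
        neg_mem' := fun {u} hu => by
          change a.1 (-u) = 0
          rw [map_neg, hu, neg_zero] }
    rcases hirr K₀ (by
      intro g x hx
      have hx' : a.1 x = 0 := hx
      change a.1 (ρ g x) = 0
      have h6 : a.1 (ρ g x) = (a.1 * ρ g) x := rfl
      rw [h6, ← (h𝔽comm a.1 a.2).1 g]
      change ρ g (a.1 x) = 0
      rw [hx', map_zero]) (by
      intro x hx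
      have hx' : a.1 x = 0 := hx
      change a.1 (ξ x) = 0
      have h6 : a.1 (ξ x) = (a.1 * ξ) x := rfl
      rw [h6, ← (h𝔽comm a.1 a.2).2]
      change ξ (a.1 x) = 0
      rw [hx', map_zero]) with hk | hk
    · right
      apply Subtype.ext
      ext m
      have h6 : b.1 m ∈ K₀ := by
        change (a.1 * b.1) m = 0
        rw [hab']
        rfl
      rw [hk] at h6
      exact AddSubgroup.mem_bot.mp h6
    · left
      apply Subtype.ext
      ext m
      have h6 : m ∈ K₀ := by rw [hk]; trivial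
      exact h6
  have hnA : Nontrivial 𝔽 := by
    refine ⟨⟨0, 1, ?_⟩⟩
    intro h01
    obtain ⟨m, hm⟩ := exists_ne (0 : M)
    apply hm
    have h6 : ((0 : 𝔽) : AddMonoid.End M) m = ((1 : 𝔽) : AddMonoid.End M) m := by rw [h01]
    exact h6.symm
  have hdomF : IsDomain 𝔽 := NoZeroDivisors.to_isDomain 𝔽
  have hmemF : ∀ z ∈ Subgroup.center Qg, ρ z ∈ 𝔽 := fun z hz =>
    Subring.subset_closure ⟨z, hz, rfl⟩
  -- the centre is cyclic
  have hcyc : IsCyclic (Subgroup.center Qg) := by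
    let f : Subgroup.center Qg →* 𝔽 :=
      { toFun := fun z => ⟨ρ z.1, hmemF z.1 z.2⟩
        map_one' := Subtype.ext (map_one ρ)
        map_mul' := fun a b => Subtype.ext (map_mul ρ a.1 b.1) }
    have hf : Function.Injective f := by
      rw [injective_iff_map_eq_one]
      intro z hz
      have h1 : ρ z.1 = 1 := congrArg Subtype.val hz
      exact Subtype.ext (hfaithZ z.1 z.2 h1)
    exact isCyclic_of_injective_ringHom f hf
  refine ⟨hcyc, ?_⟩
  have hfin : Fintype 𝔽 := Fintype.ofFinite 𝔽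
  letI fld : Field 𝔽 := Fintype.fieldOfDomain 𝔽
  have hscal : ∀ z ∈ Subgroup.center Qg, ∃ k : 𝔽, ρ z = 𝔽.subtype k :=
    fun z hz => ⟨⟨ρ z, hmemF z hz⟩, rfl⟩
  have hfixZ : ∀ z ∈ Subgroup.center Qg, z ≠ 1 → ∀ m : M, ρ z m = m → m = 0 := by
    intro z hz hz1 m hm
    let K₁ : AddSubgroup M :=
      { carrier := {x | ρ z x = x}
        add_mem' := fun {u v} hu hv => by
          have hu' : ρ z u = u := hu
          have hv' : ρ z v = v := hv
          change ρ z (u + v) = u + v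
          rw [map_add, hu', hv']
        zero_mem' := map_zero _
        neg_mem' := fun {u} hu => by
          have hu' : ρ z u = u := hu
          change ρ z (-u) = -u
          rw [map_neg, hu'] }
    rcases hirr K₁ (by
      intro g x hx
      have hx' : ρ z x = x := hx
      change ρ z (ρ g x) = ρ g x
      have h6 : ρ z (ρ g x) = (ρ z * ρ g) x := rfl
      rw [h6, ← hζρ z hz g]
      change ρ g (ρ z x) = ρ g x
      rw [hx']) (by
      intro x hx
      have hx' : ρ z x = x := hx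
      change ρ z (ξ x) = ξ x
      have h6 : ρ z (ξ x) = (ρ z * ξ) x := rfl
      rw [h6, ← hζξ z hz]
      change ξ (ρ z x) = ξ x
      rw [hx']) with hk | hk
    · have h6 : m ∈ K₁ := hm
      rw [hk] at h6
      exact AddSubgroup.mem_bot.mp h6
    · exfalso
      apply hz1
      apply hfaithZ z hz
      ext m'
      have h6 : m' ∈ K₁ := by rw [hk]; trivial
      exact h6
  exact field_coreN (K := 𝔽) 𝔽.subtype ρ α ξ ξ' hξ hξ' hξρ
    (fun k g => ((h𝔽comm k.1 k.2).1 g).symm) (fun k => ((h𝔽comm k.1 k.2).2).symm)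
    hscal hp hr hpr hQcop hcomm hαr hαfpf hξr hexp hfixZ hfixX

end Cfsg.Agent.Lib.Helper63.SG
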