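import Mathlib

set_option autoImplicit false

namespace Cfsg.Agent.Lib.Helper63.SH

/-- a finite field with an involutive automorphism inverting an element `a` with `a² ≠ 1`
has `k²` elements with `a ^ (k + 1) = 1` -/
theorem star_core {K : Type*} [Field K] [Finite K] (st : K →+* K)
    (hss : ∀ x, st (st x) = x) (hdbl : ∀ x : K, x + x = 0 → x = 0)
    (a a' : K) (haa' : a * a' = 1) (hsa : st a = a') (hne : a * a ≠ 1) :
    ∃ k : ℕ, Nat.card K = k * k ∧ a ^ (k + 1) = 1 := by
  classical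
  have hsa' : st a' = a := by rw [← hsa, hss]
  obtain ⟨s₀, hs₀d⟩ : ∃ s : K, s = a - a' := ⟨_, rfl⟩
  have hs₀ : st s₀ = -s₀ := by rw [hs₀d, map_sub, hsa, hsa']; ring
  have hs₀ne : s₀ ≠ 0 := by
    intro h
    rw [hs₀d] at h
    have h1 : a = a' := sub_eq_zero.mp h
    apply hne
    rw [← h1] at haa'
    exact haa'
  let K₀ : Set K := {x | st x = x}
  obtain ⟨k, hk⟩ : ∃ k : ℕ, k = Nat.card K₀ := ⟨_, rfl⟩
  have hcardF : Nat.card K = k * k := by
    apply le_antisymm
    · have hΦ : Function.Injective (fun x : K => ((⟨x + st x, by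
          show st (x + st x) = x + st x
          rw [map_add, hss, add_comm]⟩ : K₀), (⟨(x - st x) * s₀, by
          show st ((x - st x) * s₀) = (x - st x) * s₀
          rw [map_mul, map_sub, hss, hs₀]; ring⟩ : K₀))) := by
        intro x y hxy
        have h1 : x + st x = y + st y := congrArg (fun p : K₀ × K₀ => (p.1 : K)) hxy
        have h2' : (x - st x) * s₀ = (y - st y) * s₀ :=
          congrArg (fun p : K₀ × K₀ => (p.2 : K)) hxy
        have h3 : x - st x = y - st y := mul_right_cancel₀ hs₀ne h2'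
        have h4 : (x - y) + (x - y) = 0 := by
          have : (x - y) + (x - y) = (x + st x) + (x - st x) - ((y + st y) + (y - st y)) := by
            ring
          rw [this, h1, h3, sub_self]
        exact sub_eq_zero.mp (hdbl _ h4)
      have := Nat.card_le_card_of_injective _ hΦ
      rw [Nat.card_prod, ← hk] at this
      exact this
    · have hΨ : Function.Injective (fun p : K₀ × K₀ => (p.1 : K) + (p.2 : K) * s₀) := by
        rintro ⟨⟨a, ha⟩, ⟨b, hb⟩⟩ ⟨⟨a', ha'⟩, ⟨b', hb'⟩⟩ hxy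
        have ha1 : st a = a := ha
        have hb1 : st b = b := hb
        have ha1' : st a' = a' := ha'
        have hb1' : st b' = b' := hb'
        have h1 : a + b * s₀ = a' + b' * s₀ := hxy
        have h2' : a - b * s₀ = a' - b' * s₀ := by
          have := congrArg st h1
          rw [map_add, map_add, map_mul, map_mul, ha1, hb1, ha1', hb1', hs₀] at this
          rw [sub_eq_add_neg, sub_eq_add_neg, ← mul_neg, ← mul_neg]
          exact this
        have h4 : (a - a') + (a - a') = 0 := by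
          have : (a - a') + (a - a') =
              (a + b * s₀) + (a - b * s₀) - ((a' + b' * s₀) + (a' - b' * s₀)) := by ring
          rw [this, h1, h2', sub_self]
        have h5 : a = a' := sub_eq_zero.mp (hdbl _ h4)
        have h6 : b * s₀ = b' * s₀ := by
          rw [h5] at h1
          exact add_left_cancel h1
        have h7 : b = b' := mul_right_cancel₀ hs₀ne h6
        subst h5; subst h7; rfl
      have := Nat.card_le_card_of_injective _ hΨ
      rw [Nat.card_prod, ← hk] at this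
      exact this
  refine ⟨k, hcardF, ?_⟩
  let H : Subgroup Kˣ :=
    { carrier := {u | st (u : K) = u}
      mul_mem' := fun {u v} hu hv => by
        have hu' : st (u : K) = u := hu
        have hv' : st (v : K) = v := hv
        show st ((u * v : Kˣ) : K) = ((u * v : Kˣ) : K)
        rw [Units.val_mul, map_mul, hu', hv']
      one_mem' := by
        show st ((1 : Kˣ) : K) = ((1 : Kˣ) : K)
        rw [Units.val_one, map_one]
      inv_mem' := fun {u} hu => by
        have hu' : st (u : K) = u := hu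
        show st ((u⁻¹ : Kˣ) : K) = ((u⁻¹ : Kˣ) : K)
        rw [Units.val_inv_eq_inv_val, map_inv₀, hu'] }
  have h0K : (0 : K) ∈ K₀ := map_zero st
  have h1K : (1 : K) ∈ K₀ := map_one st
  have hHcard : Nat.card H = k - 1 := by
    have e : H ≃ ↥(K₀ \ {0}) :=
      { toFun := fun u => ⟨(u.1 : K), ⟨u.2, Units.ne_zero u.1⟩⟩
        invFun := fun x => ⟨Units.mk0 x.1 x.2.2, x.2.1⟩
        left_inv := fun u => Subtype.ext (Units.ext rfl)
        right_inv := fun x => Subtype.ext rfl }
    rw [Nat.card_congr e, Nat.card_coe_set_eq, Set.ncard_diff_singleton_of_mem h0K,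
      ← Nat.card_coe_set_eq, ← hk]
  have hUcard : Nat.card Kˣ = k * k - 1 := by rw [Nat.card_units, hcardF]
  have hk2 : 2 ≤ k := by
    rw [hk]
    have hnt : Nontrivial K₀ :=
      ⟨⟨⟨0, h0K⟩, ⟨1, h1K⟩, fun h => zero_ne_one (congrArg Subtype.val h)⟩⟩
    exact Finite.one_lt_card_iff_nontrivial.mpr hnt
  have hidx : H.index = k + 1 := by
    have h1 := H.card_mul_index
    rw [hHcard, hUcard] at h1
    have h2 : k * k - 1 = (k - 1) * (k + 1) := by
      obtain ⟨j, hj⟩ : ∃ j, k = j + 1 := ⟨k - 1, by omega⟩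
      rw [hj, Nat.add_sub_cancel]
      have : (j + 1) * (j + 1) = j * (j + 1 + 1) + 1 := by ring
      rw [this, Nat.add_sub_cancel]
    rw [h2] at h1
    exact Nat.eq_of_mul_eq_mul_left (by omega) h1
  have hfixpow : ∀ w : K, w ≠ 0 → st (w ^ (k + 1)) = w ^ (k + 1) := by
    intro w hw
    have h1 : (Units.mk0 w hw) ^ H.index ∈ H := Subgroup.pow_index_mem H _
    rw [hidx] at h1
    have h2 : st (((Units.mk0 w hw) ^ (k + 1) : Kˣ) : K) =
        (((Units.mk0 w hw) ^ (k + 1) : Kˣ) : K) := h1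
    rwa [Units.val_pow_eq_pow_val, Units.val_mk0] at h2
  obtain ⟨w, hwd⟩ : ∃ w : K, w = 1 + a := ⟨_, rfl⟩
  have hw0 : w ≠ 0 := by
    intro h
    rw [hwd] at h
    have h1 : a = -1 := by linear_combination h
    apply hne
    rw [h1]; ring
  have hwst : w = a * st w := by
    rw [hwd, map_add, map_one, hsa, mul_add, mul_one, haa', add_comm]
  have h3 := hfixpow w hw0
  have h4 : w ^ (k + 1) = a ^ (k + 1) * w ^ (k + 1) := by
    conv_lhs => rw [hwst, mul_pow, ← map_pow, h3]
  have h5 : w ^ (k + 1) ≠ 0 := pow_ne_zero _ hw0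
  have h6 : a ^ (k + 1) * w ^ (k + 1) = 1 * w ^ (k + 1) := by rw [one_mul]; exact h4.symm
  exact mul_right_cancel₀ h5 h6

/-- an irreducible module for a cyclic `2`-group whose involution acts as `-1`, carrying a
nonzero invariant skew pairing, has `k²` elements with `2 ^ n ∣ k + 1` -/
theorem lb_add {B C : Type*} [AddCommGroup B] [Finite B] [Nontrivial B] [CommGroup C]
    (α α' : AddMonoid.End B) (hα : α * α' = 1) (hα' : α' * α = 1)
    (n : ℕ) (hn : 2 ≤ n)
    (hneg : ∀ b : B, (α ^ (2 ^ (n - 1))) b = -b)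
    (h2 : ∀ b : B, b + b = 0 → b = 0)
    (hirr : ∀ W : AddSubgroup B, (∀ x ∈ W, α x ∈ W) → W = ⊥ ∨ W = ⊤)
    (β : B → B → C)
    (hβl : ∀ a a' b, β (a + a') b = β a b * β a' b)
    (hβr : ∀ a b b', β a (b + b') = β a b * β a b')
    (hβs : ∀ a b, β a b * β b a = 1)
    (hβα : ∀ a b, β (α a) (α b) = β a b)
    (hβne : ∃ a b, β a b ≠ 1) :
    ∃ k : ℕ, Nat.card B = k * k ∧ 2 ^ n ∣ k + 1 := by
  classical
  have hfR : Finite (AddMonoid.End B) :=
    Finite.of_injective (fun f : AddMonoid.End B => (f : B → B)) DFunLike.coe_injective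
  have hαα' : ∀ b, α (α' b) = b := fun b => by
    have := congrArg (fun f : AddMonoid.End B => f b) hα
    exact this
  have hcomm0 : α * α' = α' * α := by rw [hα, hα']
  have hnotone : α ^ 2 ^ (n - 1) ≠ 1 := by
    intro h1
    obtain ⟨m, hm⟩ := exists_ne (0 : B)
    apply hm
    apply h2
    have h3 := hneg m
    rw [h1] at h3
    have h4 : m = -m := h3
    have h5 : m + m = m + -m := congrArg (fun t => m + t) h4
    rw [h5, add_neg_cancel]
  have hαsq : α * α ≠ 1 := by
    intro h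
    apply hnotone
    have e : 2 ^ (n - 1) = 2 * 2 ^ (n - 2) := by
      rw [← pow_succ']
      congr 1
      omega
    rw [e, pow_mul, pow_two, h, one_pow]
  have hαN : α ^ 2 ^ n = 1 := by
    have e : 2 ^ n = 2 ^ (n - 1) + 2 ^ (n - 1) := by
      have : n = (n - 1) + 1 := by omega
      conv_lhs => rw [this, pow_succ]
      ring
    ext b
    rw [e, pow_add]
    show (α ^ 2 ^ (n - 1)) ((α ^ 2 ^ (n - 1)) b) = b
    rw [hneg, hneg, neg_neg]
  set 𝔽 : Subring (AddMonoid.End B) := Subring.closure {α, α'} with h𝔽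
  letI cr : CommRing 𝔽 := Subring.closureCommRingOfComm (by
    rintro a (rfl | rfl) b (rfl | rfl)
    · rfl
    · exact hcomm0
    · exact hcomm0.symm
    · rfl)
  have hαmem : α ∈ 𝔽 := Subring.subset_closure (Or.inl rfl)
  have hα'mem : α' ∈ 𝔽 := Subring.subset_closure (Or.inr rfl)
  have h𝔽comm : ∀ (a : AddMonoid.End B), a ∈ 𝔽 → α * a = a * α := by
    intro a ha
    have hle : 𝔽 ≤ Subring.centralizer {α} := by
      rw [h𝔽, Subring.closure_le]
      rintro _ (rfl | rfl)
      · rw [SetLike.mem_coe, Subring.mem_centralizer_iff]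
        rintro _ rfl
        rfl
      · rw [SetLike.mem_coe, Subring.mem_centralizer_iff]
        rintro _ rfl
        exact hcomm0
    have h1 := Subring.mem_centralizer_iff.mp (hle ha)
    exact h1 α rfl
  have hker : ∀ (a : AddMonoid.End B), a ∈ 𝔽 → a ≠ 0 → ∀ x, a x = 0 → x = 0 := by
    intro a ha ha0 x hx
    let K₀ : AddSubgroup B :=
      { carrier := {x | a x = 0}
        add_mem' := fun {u v} hu hv => by
          change a (u + v) = 0
          rw [map_add, hu, hv, add_zero]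
        zero_mem' := map_zero _
        neg_mem' := fun {u} hu => by
          change a (-u) = 0
          rw [map_neg, hu, neg_zero] }
    rcases hirr K₀ (by
      intro x hx
      have hx' : a x = 0 := hx
      change a (α x) = 0
      have h6 : a (α x) = (a * α) x := rfl
      rw [h6, ← h𝔽comm a ha]
      change α (a x) = 0
      rw [hx', map_zero]) with hk | hk
    · have h6 : x ∈ K₀ := hx
      rw [hk] at h6
      exact AddSubgroup.mem_bot.mp h6
    · exfalso
      apply ha0
      ext m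
      have h6 : m ∈ K₀ := by rw [hk]; trivial
      exact h6
  have hnzd : NoZeroDivisors 𝔽 := by
    refine ⟨?_⟩
    intro a b hab
    have hab' : a.1 * b.1 = 0 := congrArg Subtype.val hab
    by_cases ha : a = 0
    · exact Or.inl ha
    · right
      apply Subtype.ext
      ext m
      have ha' : a.1 ≠ 0 := fun h => ha (Subtype.ext h)
      have h6 : a.1 (b.1 m) = 0 := by
        change (a.1 * b.1) m = 0
        rw [hab']; rfl
      exact hker a.1 a.2 ha' _ h6
  have hnA : Nontrivial 𝔽 := by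
    refine ⟨⟨0, 1, ?_⟩⟩
    intro h01
    obtain ⟨m, hm⟩ := exists_ne (0 : B)
    apply hm
    have h6 : ((0 : 𝔽) : AddMonoid.End B) m = ((1 : 𝔽) : AddMonoid.End B) m := by rw [h01]
    exact h6.symm
  have hdomF : IsDomain 𝔽 := NoZeroDivisors.to_isDomain 𝔽
  have hfin : Fintype 𝔽 := Fintype.ofFinite 𝔽
  have hinj : ∀ (a : AddMonoid.End B), a ∈ 𝔽 → a ≠ 0 → Function.Injective a := by
    intro a ha ha0
    rw [injective_iff_map_eq_zero]
    intro x hx
    exact hker a ha ha0 x hx
  have hsurj : ∀ (a : AddMonoid.End B), a ∈ 𝔽 → a ≠ 0 → Function.Surjective a :=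
    fun a ha ha0 => Finite.injective_iff_surjective.mp (hinj a ha ha0)
  have hβ0l : ∀ b, β 0 b = 1 := by
    intro b
    have h := hβl 0 0 b
    rw [add_zero] at h
    exact mul_left_cancel (a := β 0 b) (by rw [mul_one]; exact h.symm)
  have hβ0r : ∀ a, β a 0 = 1 := by
    intro a
    have h := hβr a 0 0
    rw [add_zero] at h
    exact mul_left_cancel (a := β a 0) (by rw [mul_one]; exact h.symm)
  have hβnl : ∀ a b, β (-a) b = (β a b)⁻¹ := by
    intro a b
    have h := hβl a (-a) b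
    rw [add_neg_cancel, hβ0l] at h
    exact eq_inv_of_mul_eq_one_right h.symm
  have hβnr : ∀ a b, β a (-b) = (β a b)⁻¹ := by
    intro a b
    have h := hβr a b (-b)
    rw [add_neg_cancel, hβ0r] at h
    exact eq_inv_of_mul_eq_one_right h.symm
  have hex : ∀ T ∈ 𝔽, ∃ T' ∈ 𝔽, ∀ a b, β (T a) b = β a (T' b) := by
    intro T hT
    rw [h𝔽] at hT
    induction hT using Subring.closure_induction with
    | mem x hx =>
      rcases hx with rfl | rfl
      · refine ⟨α', hα'mem, fun a b => ?_⟩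
        rw [← hβα a (α' b), hαα']
      · refine ⟨α, hαmem, fun a b => ?_⟩
        rw [← hβα (x a) b, hαα']
    | zero => exact ⟨0, 𝔽.zero_mem, fun a b => by
        show β 0 b = β a 0
        rw [hβ0l, hβ0r]⟩
    | one => exact ⟨1, 𝔽.one_mem, fun a b => rfl⟩
    | add x y hx hy ihx ihy =>
      obtain ⟨x', hx', hxx⟩ := ihx
      obtain ⟨y', hy', hyy⟩ := ihy
      refine ⟨x' + y', 𝔽.add_mem hx' hy', fun a b => ?_⟩
      show β (x a + y a) b = β a (x' b + y' b)
      rw [hβl, hβr, hxx, hyy]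
    | neg x hx ihx =>
      obtain ⟨x', hx', hxx⟩ := ihx
      refine ⟨-x', 𝔽.neg_mem hx', fun a b => ?_⟩
      show β (-(x a)) b = β a (-(x' b))
      rw [hβnl, hβnr, hxx]
    | mul x y hx hy ihx ihy =>
      obtain ⟨x', hx', hxx⟩ := ihx
      obtain ⟨y', hy', hyy⟩ := ihy
      refine ⟨y' * x', 𝔽.mul_mem hy' hx', fun a b => ?_⟩
      show β (x (y a)) b = β a (y' (x' b))
      rw [hxx, hyy]
  have huniq : ∀ T' ∈ 𝔽, ∀ T'' ∈ 𝔽, (∀ a b, β a (T' b) = β a (T'' b)) → T' = T'' := by
    intro T' hT' T'' hT'' h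
    by_contra hne
    have hD : T' - T'' ∈ 𝔽 := 𝔽.sub_mem hT' hT''
    have hD0 : T' - T'' ≠ 0 := fun h0 => hne (sub_eq_zero.mp h0)
    obtain ⟨a, c, hac⟩ := hβne
    obtain ⟨b, hb⟩ := hsurj _ hD hD0 c
    apply hac
    rw [← hb]
    show β a (T' b - T'' b) = 1
    rw [sub_eq_add_neg, hβr, hβnr, h a b, mul_inv_cancel]
  have hex' : ∀ T : 𝔽, ∃ T' : 𝔽, ∀ a b, β (T.1 a) b = β a (T'.1 b) := by
    intro T
    obtain ⟨T', hT', h⟩ := hex T.1 T.2
    exact ⟨⟨T', hT'⟩, h⟩
  choose st hst using hex'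
  have hstu : ∀ T S : 𝔽, (∀ a b, β (T.1 a) b = β a (S.1 b)) → st T = S := by
    intro T S h
    apply Subtype.ext
    apply huniq _ (st T).2 _ S.2
    intro a b
    rw [← hst T a b, h a b]
  have hst_add : ∀ x y : 𝔽, st (x + y) = st x + st y := by
    intro x y
    apply hstu
    intro a b
    show β (x.1 a + y.1 a) b = β a ((st x).1 b + (st y).1 b)
    rw [hβl, hβr, hst x, hst y]
  have hst_mul : ∀ x y : 𝔽, st (x * y) = st x * st y := by
    intro x y
    rw [mul_comm (st x) (st y)]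
    apply hstu
    intro a b
    show β (x.1 (y.1 a)) b = β a ((st y).1 ((st x).1 b))
    rw [hst x, hst y]
  have hst_one : st 1 = 1 := hstu 1 1 (fun a b => rfl)
  have hst_zero : st 0 = 0 := hstu 0 0 (fun a b => by
    show β 0 b = β a 0
    rw [hβ0l, hβ0r])
  have hst_st : ∀ x : 𝔽, st (st x) = x := by
    intro x
    apply hstu
    intro a b
    have h1 := hβs ((st x).1 a) b
    have h2' := hβs (x.1 b) a
    have h3 := hst x b a
    rw [h3] at h2'
    calc β ((st x).1 a) b = β ((st x).1 a) b * (β b ((st x).1 a) * β a (x.1 b)) := by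
          rw [h2', mul_one]
      _ = β a (x.1 b) := by rw [← mul_assoc, h1, one_mul]
  obtain ⟨stH, hstH⟩ : ∃ f : 𝔽 →+* 𝔽, ∀ x, f x = st x :=
    ⟨{ toFun := st, map_one' := hst_one, map_mul' := hst_mul, map_zero' := hst_zero,
       map_add' := hst_add }, fun _ => rfl⟩
  have hss : ∀ x : 𝔽, stH (stH x) = x := by
    intro x
    rw [hstH, hstH, hst_st]
  obtain ⟨a𝔽, ha𝔽⟩ : ∃ x : 𝔽, x.1 = α := ⟨⟨α, hαmem⟩, rfl⟩
  obtain ⟨a'𝔽, ha'𝔽⟩ : ∃ x : 𝔽, x.1 = α' := ⟨⟨α', hα'mem⟩, rfl⟩
  have haa' : a𝔽 * a'𝔽 = 1 := by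
    apply Subtype.ext
    show a𝔽.1 * a'𝔽.1 = 1
    rw [ha𝔽, ha'𝔽, hα]
  have hsa : stH a𝔽 = a'𝔽 := by
    rw [hstH]
    apply hstu
    intro a b
    rw [ha𝔽, ha'𝔽, ← hβα a (α' b), hαα']
  have hsq : a𝔽 * a𝔽 ≠ 1 := by
    intro h
    apply hαsq
    have h1 := congrArg Subtype.val h
    have h3 : a𝔽.1 * a𝔽.1 = 1 := h1
    rw [ha𝔽] at h3
    exact h3
  have hdbl : ∀ x : 𝔽, x + x = 0 → x = 0 := by
    intro x hx
    apply Subtype.ext
    ext b
    show x.1 b = 0
    apply h2
    have h1 := congrArg (fun f : 𝔽 => f.1 b) hx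
    exact h1
  have hpowval : ∀ (x : 𝔽) (j : ℕ), (x ^ j).1 = x.1 ^ j := by
    intro x j
    induction j with
    | zero => rfl
    | succ j ih =>
      rw [pow_succ, pow_succ, ← ih]
      rfl
  have hmain : ∃ k : ℕ, Nat.card 𝔽 = k * k ∧ a𝔽 ^ (k + 1) = 1 := by
    letI fld : Field 𝔽 := Fintype.fieldOfDomain 𝔽
    exact star_core (K := 𝔽) stH hss hdbl a𝔽 a'𝔽 haa' hsa hsq
  have hBF : Nat.card 𝔽 = Nat.card B := by
    obtain ⟨b₀, hb₀⟩ := exists_ne (0 : B)
    apply Nat.card_eq_of_bijective (fun T : 𝔽 => T.1 b₀)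
    constructor
    · intro T S hTS
      by_contra hne
      have hD0 : T.1 - S.1 ≠ 0 := fun h0 => hne (Subtype.ext (sub_eq_zero.mp h0))
      apply hb₀
      apply hker (T.1 - S.1) (𝔽.sub_mem T.2 S.2) hD0
      show T.1 b₀ - S.1 b₀ = 0
      exact sub_eq_zero.mpr hTS
    · let I : AddSubgroup B :=
        { carrier := {b | ∃ T : 𝔽, T.1 b₀ = b}
          add_mem' := by
            rintro _ _ ⟨T, rfl⟩ ⟨S, rfl⟩
            exact ⟨T + S, rfl⟩
          zero_mem' := ⟨0, rfl⟩
          neg_mem' := by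
            rintro _ ⟨T, rfl⟩
            exact ⟨-T, rfl⟩ }
      rcases hirr I (by
        rintro _ ⟨T, rfl⟩
        exact ⟨a𝔽 * T, by
          show a𝔽.1 (T.1 b₀) = α (T.1 b₀)
          rw [ha𝔽]⟩) with hI | hI
      · exfalso
        apply hb₀
        have h6 : b₀ ∈ I := ⟨1, rfl⟩
        rw [hI] at h6
        exact AddSubgroup.mem_bot.mp h6
      · intro b
        have h6 : b ∈ I := by rw [hI]; trivial
        exact h6
  obtain ⟨k, hk1, hk2⟩ := hmain
  refine ⟨k, by rw [← hBF, hk1], ?_⟩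
  have hαk : α ^ (k + 1) = 1 := by
    have h7 := congrArg Subtype.val hk2
    rw [hpowval, ha𝔽] at h7
    exact h7
  haveI : Fact (Nat.Prime 2) := ⟨Nat.prime_two⟩
  have hord : orderOf α = 2 ^ (n - 1 + 1) := orderOf_eq_prime_pow hnotone (by
    rw [Nat.sub_add_cancel (by omega)]; exact hαN)
  rw [Nat.sub_add_cancel (by omega)] at hord
  rw [← hord]
  exact orderOf_dvd_of_pow_eq_one hαk

end Cfsg.Agent.Lib.Helper63.SH
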