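import Mathlib
import Cfsg.Agent.S3784
import Cfsg.Agent.Lib.Helper63.SGCount
import Cfsg.Agent.Lib.Helper63.SHLB
import Cfsg.Agent.Lib.Helper63.S3AbMod

set_option autoImplicit false

namespace Cfsg.Agent.Lib.Helper63.SH

open Cfsg.Agent.Lib.Helper97.HH
open Cfsg.Agent.Lib.Helper63.S3A
open scoped commutatorElement

theorem fix_pow_two {Ω : Type*} (s : Equiv.Perm Ω) (n : ℕ) (hn : 0 < n) (hs : s ^ 2 ^ n = 1)
    (j : ℕ) (hj0 : 0 < j) (hj : j < 2 ^ n) (x : Ω) (hx : (s ^ j) x = x) :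
    (s ^ 2 ^ (n - 1)) x = x := by
  obtain ⟨e, m, hm, hjem⟩ := Nat.exists_eq_two_pow_mul_odd (Nat.pos_iff_ne_zero.mp hj0)
  have he : e < n := by
    by_contra hcon
    have h1 : 2 ^ n ≤ 2 ^ e := Nat.pow_le_pow_right (by norm_num) (not_lt.mp hcon)
    have h2 : 2 ^ e ≤ j := by
      rw [hjem]
      exact Nat.le_mul_of_pos_right _ hm.pos
    omega
  have h1 : ∀ i : ℕ, ((s ^ j) ^ i) x = x := by
    intro i
    induction i with
    | zero => rfl
    | succ i ih => rw [pow_succ, Equiv.Perm.mul_apply, hx, ih]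
  have h2 := h1 (2 ^ (n - 1 - e))
  have h3 : (s ^ j) ^ 2 ^ (n - 1 - e) = s ^ 2 ^ (n - 1) := by
    obtain ⟨q, hq⟩ := hm
    rw [← pow_mul, hjem, hq]
    have e1 : 2 ^ e * (2 * q + 1) * 2 ^ (n - 1 - e) = 2 ^ n * q + 2 ^ (n - 1) := by
      have e2 : 2 ^ e * 2 ^ (n - 1 - e) = 2 ^ (n - 1) := by
        rw [← pow_add]; congr 1; omega
      have e3 : 2 ^ n = 2 * 2 ^ (n - 1) := by
        rw [← pow_succ']; congr 1; omega
      rw [e3, ← e2]; ring
    rw [e1, pow_add, pow_mul, hs, one_pow, one_mul]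
  rw [h3] at h2
  exact h2

theorem burnside_bound {Ω : Type*} [Finite Ω] (s : Equiv.Perm Ω) {n : ℕ} (hn : 0 < n)
    (hs : s ^ 2 ^ n = 1) (hs' : s ^ 2 ^ (n - 1) ≠ 1) :
    Nat.card (Quotient (MulAction.orbitRel (Subgroup.zpowers s) Ω)) * 2 ^ n ≤
      Nat.card Ω + (2 ^ n - 2) * Nat.card {x : Ω // (s ^ 2 ^ (n - 1)) x = x} +
        Nat.card {x : Ω // s x = x} := by
  classical
  have hfΩ : Fintype Ω := Fintype.ofFinite Ω
  have hfG : Fintype (Subgroup.zpowers s) := Fintype.ofFinite _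
  have hburn := MulAction.sum_card_fixedBy_eq_card_orbits_mul_card_group (Subgroup.zpowers s) Ω
  haveI : Fact (Nat.Prime 2) := ⟨Nat.prime_two⟩
  have hord : orderOf s = 2 ^ n := by
    have := orderOf_eq_prime_pow hs' (by rw [Nat.sub_add_cancel hn]; exact hs)
    rwa [Nat.sub_add_cancel hn] at this
  have hcardG : Fintype.card (Subgroup.zpowers s) = 2 ^ n := by
    rw [← Nat.card_eq_fintype_card, Nat.card_zpowers, hord]
  have hs1 : s ≠ 1 := by
    intro h
    apply hs'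
    rw [h, one_pow]
  obtain ⟨s₀, hs₀⟩ : ∃ s₀ : Subgroup.zpowers s, (s₀ : Equiv.Perm Ω) = s :=
    ⟨⟨s, Subgroup.mem_zpowers s⟩, rfl⟩
  have hs₀1 : s₀ ≠ 1 := by
    intro h
    apply hs1
    rw [← hs₀, h]
    rfl
  have hfb1 : Fintype.card (MulAction.fixedBy Ω (1 : Subgroup.zpowers s)) = Nat.card Ω := by
    rw [Nat.card_eq_fintype_card]
    apply Fintype.card_of_subtype Finset.univ
    intro q
    simp
  have hfbs : Fintype.card (MulAction.fixedBy Ω s₀) = Nat.card {x : Ω // s x = x} := by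
    rw [← Nat.card_eq_fintype_card]
    apply Nat.card_congr
    exact
      { toFun := fun q => ⟨q.1, by
          have h1 : (s₀ : Equiv.Perm Ω) q.1 = q.1 := q.2
          rw [hs₀] at h1
          exact h1⟩
        invFun := fun q => ⟨q.1, by
          show (s₀ : Equiv.Perm Ω) q.1 = q.1
          rw [hs₀]
          exact q.2⟩
        left_inv := fun q => rfl
        right_inv := fun q => rfl }
  have hfb : ∀ a : Subgroup.zpowers s, a ≠ 1 →
      Fintype.card (MulAction.fixedBy Ω a) ≤ Nat.card {x : Ω // (s ^ 2 ^ (n - 1)) x = x} := by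
    intro a ha
    rw [← Nat.card_eq_fintype_card]
    have hmem : (a : Equiv.Perm Ω) ∈ Submonoid.powers s := mem_powers_iff_mem_zpowers.mpr a.2
    obtain ⟨m, hm⟩ := hmem
    have hm' : s ^ m = (a : Equiv.Perm Ω) := hm
    have hm2 : s ^ (m % 2 ^ n) = (a : Equiv.Perm Ω) := by
      rw [← hm', ← hord, pow_mod_orderOf]
    have hpos : 0 < m % 2 ^ n := by
      rcases Nat.eq_zero_or_pos (m % 2 ^ n) with h0 | h0
      · exfalso
        apply ha
        apply Subtype.ext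
        rw [← hm2, h0, pow_zero]
        rfl
      · exact h0
    apply Nat.card_le_card_of_injective
      (fun q : MulAction.fixedBy Ω a => (⟨q.1, by
        apply fix_pow_two s n hn hs (m % 2 ^ n) hpos (Nat.mod_lt _ (by positivity)) q.1
        rw [hm2]
        exact q.2⟩ : {x : Ω // (s ^ 2 ^ (n - 1)) x = x}))
    intro q q' hqq
    have h := congrArg (fun t : {x : Ω // (s ^ 2 ^ (n - 1)) x = x} => (t : Ω)) hqq
    exact Subtype.ext h
  have hsum : ∑ a : Subgroup.zpowers s, Fintype.card (MulAction.fixedBy Ω a) ≤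
      Nat.card Ω + (Nat.card {x : Ω // s x = x} +
        (2 ^ n - 2) * Nat.card {x : Ω // (s ^ 2 ^ (n - 1)) x = x}) := by
    rw [← Finset.add_sum_erase Finset.univ _ (Finset.mem_univ (1 : Subgroup.zpowers s)), hfb1]
    apply Nat.add_le_add_left
    have hmem : s₀ ∈ Finset.univ.erase (1 : Subgroup.zpowers s) :=
      Finset.mem_erase.mpr ⟨hs₀1, Finset.mem_univ _⟩
    rw [← Finset.add_sum_erase _ _ hmem, hfbs]
    apply Nat.add_le_add_left
    calc ∑ a ∈ (Finset.univ.erase (1 : Subgroup.zpowers s)).erase s₀,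
          Fintype.card (MulAction.fixedBy Ω a)
        ≤ ∑ _a ∈ (Finset.univ.erase (1 : Subgroup.zpowers s)).erase s₀,
          Nat.card {x : Ω // (s ^ 2 ^ (n - 1)) x = x} := by
          apply Finset.sum_le_sum
          intro a ha
          exact hfb a (Finset.ne_of_mem_erase (Finset.mem_of_mem_erase ha))
      _ = (2 ^ n - 2) * Nat.card {x : Ω // (s ^ 2 ^ (n - 1)) x = x} := by
          rw [Finset.sum_const, Finset.card_erase_of_mem hmem,
            Finset.card_erase_of_mem (Finset.mem_univ _), Finset.card_univ, hcardG, smul_eq_mul,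
            Nat.sub_sub]
  rw [hcardG] at hburn
  have hb2 : Nat.card (Quotient (MulAction.orbitRel (Subgroup.zpowers s) Ω)) * 2 ^ n =
      ∑ a : Subgroup.zpowers s, Fintype.card (MulAction.fixedBy Ω a) := by
    rw [Nat.card_eq_fintype_card]
    exact hburn.symm
  rw [hb2]
  calc ∑ a : Subgroup.zpowers s, Fintype.card (MulAction.fixedBy Ω a)
      ≤ _ := hsum
    _ = _ := by ring

theorem arith_irr {r N i j : ℕ} (hN : 0 < N) (hi : N ∣ r ^ i - 1) (hj : N ∣ r ^ j - 1)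
    (hr : 1 < r) (hi0 : 0 < i) (hij : i < j) : (N + 1) * (N + 1) ≤ r ^ j := by
  have hri : 1 < r ^ i := Nat.one_lt_pow (by omega) hr
  have hrd : 1 < r ^ (j - i) := Nat.one_lt_pow (by omega) hr
  have h1 : N + 1 ≤ r ^ i := by
    have := Nat.le_of_dvd (by omega) hi
    omega
  have hmod1 : 1 ≡ r ^ i [MOD N] := (Nat.modEq_iff_dvd' (by omega)).mpr hi
  have hmod2 : 1 ≡ r ^ j [MOD N] :=
    (Nat.modEq_iff_dvd' (Nat.one_le_pow _ _ (by omega))).mpr hj
  have hsplit : r ^ j = r ^ i * r ^ (j - i) := by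
    rw [← pow_add]; congr 1; omega
  have hmod3 : 1 ≡ r ^ (j - i) [MOD N] := by
    have h3 : r ^ i * r ^ (j - i) ≡ 1 * r ^ (j - i) [MOD N] := (hmod1.symm).mul_right _
    rw [← hsplit, one_mul] at h3
    exact hmod2.trans h3
  have h2 : N + 1 ≤ r ^ (j - i) := by
    have hd : N ∣ r ^ (j - i) - 1 := (Nat.modEq_iff_dvd' (by omega)).mp hmod3
    have := Nat.le_of_dvd (by omega) hd
    omega
  rw [hsplit]
  exact Nat.mul_le_mul h1 h2

theorem arith_bound {n P F M Om : ℕ} (hn : 0 < n)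
    (hP : 0 < P) (hFP : F ≤ P) (hPM : P * M ≤ Om)
    (hOm : Om * 2 ^ n ≤ (2 ^ n - 1) * (Om + (2 ^ n - 2) * P + F)) :
    M ≤ (2 ^ n - 1) * (2 ^ n - 1) := by
  obtain ⟨N', hN'⟩ : ∃ N', 2 ^ n = N' + 2 := by
    have h2 : 2 ^ 1 ≤ 2 ^ n := Nat.pow_le_pow_right (by norm_num) hn
    exact ⟨2 ^ n - 2, by omega⟩
  rw [hN'] at hOm ⊢
  have e1 : N' + 2 - 1 = N' + 1 := by omega
  have e2 : N' + 2 - 2 = N' := by omega
  rw [e1, e2] at hOm
  rw [e1]
  have h1 : Om ≤ (N' + 1) * (N' * P + F) := by nlinarith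
  have h2 : P * M ≤ P * ((N' + 1) * (N' + 1)) := by
    nlinarith [Nat.mul_le_mul_left (N' + 1) hFP]
  exact Nat.le_of_mul_le_mul_left h2 hP

theorem arith_num {r n P F M Om k j : ℕ} (hr : r.Prime) (hr2 : r ≠ 2) (hn : 0 < n)
    (hM : M = r ^ j) (hM1 : 1 < M) (hk : M = k * k) (hkd : 2 ^ n ∣ k + 1)
    (hP : 0 < P) (hFP : F ≤ P) (hPM : P * M ≤ Om)
    (hOm : Om * 2 ^ n ≤ (2 ^ n - 1) * (Om + (2 ^ n - 2) * P + F)) :
    r + 1 = 2 ^ n ∧ F = P := by
  have h3 := arith_bound hn hP hFP hPM hOm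
  obtain ⟨N', hN'⟩ : ∃ N', 2 ^ n = N' + 2 := by
    have h2 : 2 ^ 1 ≤ 2 ^ n := Nat.pow_le_pow_right (by norm_num) hn
    exact ⟨2 ^ n - 2, by omega⟩
  rw [hN'] at hOm hkd h3
  have e1 : N' + 2 - 1 = N' + 1 := by omega
  have e2 : N' + 2 - 2 = N' := by omega
  rw [e1, e2] at hOm
  rw [e1] at h3
  have h1 : Om ≤ (N' + 1) * (N' * P + F) := by nlinarith
  have hk0 : 0 < k := by
    rcases Nat.eq_zero_or_pos k with h0 | h0
    · rw [h0] at hk; omega
    · exact h0
  have h4 : k ≤ N' + 1 := by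
    rw [hk] at h3
    exact Nat.mul_self_le_mul_self_iff.mp h3
  have h5 : N' + 2 ≤ k + 1 := Nat.le_of_dvd (by omega) hkd
  have hkN : k = N' + 1 := by omega
  have hMN : M = (N' + 1) * (N' + 1) := by rw [hk, hkN]
  have hFP' : F = P := by
    have h6 : P * ((N' + 1) * (N' + 1)) ≤ (N' + 1) * (N' * P + F) := by
      rw [← hMN]; exact hPM.trans h1
    have h7 : (N' + 1) * (P * (N' + 1)) ≤ (N' + 1) * (N' * P + F) := by
      calc (N' + 1) * (P * (N' + 1)) = P * ((N' + 1) * (N' + 1)) := by ring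
        _ ≤ _ := h6
    have h8 : P * (N' + 1) ≤ N' * P + F := Nat.le_of_mul_le_mul_left h7 (by omega)
    have h9 : P ≤ F := by nlinarith
    omega
  refine ⟨?_, hFP'⟩
  have hdvd : N' + 1 ∣ r ^ j := by
    rw [← hM, hMN]; exact dvd_mul_right _ _
  obtain ⟨a, -, ha⟩ := (Nat.dvd_prime_pow hr).mp hdvd
  have ha0 : a ≠ 0 := by
    intro h0
    rw [h0, pow_zero] at ha
    rw [hMN, ha] at hM1
    omega
  have heq : 2 ^ n = r ^ a + 1 := by rw [hN', ← ha]
  rcases Cfsg.Agent.S3784.result 2 r n a Nat.prime_two hr hn (by omega) heq with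
    ⟨-, ha1, -, h⟩ | ⟨hr2', -⟩ | ⟨-, h8⟩
  · rw [hN']; exact h.trans hN'
  · exact absurd hr2' hr2
  · exfalso
    have h9 : r ∣ 2 ^ 3 := by
      have : r ∣ r ^ a := dvd_pow_self r ha0
      rw [h8] at this
      exact this
    have := (Nat.prime_dvd_prime_iff_eq hr Nat.prime_two).mp (hr.dvd_of_dvd_pow h9)
    exact hr2 this

theorem semireg_dvd {Ω : Type*} [Group Ω] [Finite Ω] (s : Equiv.Perm Ω) (L : Subgroup Ω)
    (N : ℕ) (hN : 0 < N) (hsN : s ^ N = 1) (hL : ∀ x ∈ L, s x ∈ L) (h1 : s 1 = 1)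
    (hfix : ∀ j, 0 < j → j < N → ∀ x ∈ L, (s ^ j) x = x → x = 1) :
    N ∣ Nat.card L - 1 := by
  classical
  have hbij : Function.Bijective (fun x : L => (⟨s x.1, hL x.1 x.2⟩ : L)) := by
    apply Finite.injective_iff_bijective.mp
    intro x y hxy
    exact Subtype.ext (s.injective (congrArg Subtype.val hxy))
  obtain ⟨sL, hsL⟩ : ∃ sL : Equiv.Perm L, ∀ x : L, ((sL x : L) : Ω) = s x.1 :=
    ⟨Equiv.ofBijective _ hbij, fun x => rfl⟩
  have hpow : ∀ (j : ℕ) (x : L), (((sL ^ j) x : L) : Ω) = (s ^ j) x.1 := by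
    intro j
    induction j with
    | zero => intro x; rfl
    | succ j ih =>
      intro x
      rw [pow_succ, Equiv.Perm.mul_apply, ih, hsL, pow_succ, Equiv.Perm.mul_apply]
  apply SG.card_sub_one_dvdN sL hN ?_ (1 : L) ?_ ?_
  · ext x
    rw [hpow, hsN]; rfl
  · apply Subtype.ext
    rw [hsL]
    exact h1
  · intro j hj0 hj q hq
    apply Subtype.ext
    have := congrArg Subtype.val hq
    rw [hpow] at this
    exact hfix j hj0 hj q.1 q.2 this

end Cfsg.Agent.Lib.Helper63.SH
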