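import Mathlib
import Cfsg.Agent.Lib.Helper63.SHArith

set_option autoImplicit false

namespace Cfsg.Agent.Lib.Helper63.SH

open Cfsg.Agent.Lib.Helper97.HH
open Cfsg.Agent.Lib.Helper63.S3A
open scoped commutatorElement
open scoped IsMulCommutative

theorem arith_core {Q : Type*} [Group Q] [Finite Q] {r n : ℕ} (hr : r.Prime) (hr2 : r ≠ 2)
    (hQ : IsPGroup r Q)
    (hcomm : ∀ g h : Q, ⁅g, h⁆ ∈ Subgroup.center Q)
    (hpow : ∀ g : Q, g ^ r ∈ Subgroup.center Q)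
    (α : Q ≃* Q) (hn : 0 < n) (hαN : α ^ 2 ^ n = 1)
    (hαZ : ∀ z ∈ Subgroup.center Q, α z = z)
    (hψ : ∃ g : Q, (α ^ 2 ^ (n - 1)) g ≠ g)
    (hcount : Nat.card (Q ⧸ Subgroup.center Q) ≤ (2 ^ n - 1) *
      Nat.card (Quotient (MulAction.orbitRel (Subgroup.zpowers (quotPerm α))
        (Q ⧸ Subgroup.center Q)))) :
    r + 1 = 2 ^ n ∧ ∀ g : Q, (α ^ 2 ^ (n - 1)) g = g → α g = g := by
  classical
  have hc' : ∀ a b : Q, a * b * a⁻¹ * b⁻¹ ∈ Subgroup.center Q := fun a b => hcomm a b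
  have hodd : ∀ (z : Q) (m : ℕ), z ^ 2 ^ m = 1 → z = 1 := by
    intro z m hz
    obtain ⟨k, hk⟩ := hQ z
    have h1 : orderOf z ∣ Nat.gcd (r ^ k) (2 ^ m) :=
      Nat.dvd_gcd (orderOf_dvd_of_pow_eq_one hk) (orderOf_dvd_of_pow_eq_one hz)
    have hcop : Nat.Coprime (r ^ k) (2 ^ m) :=
      Nat.Coprime.pow _ _ ((Nat.coprime_primes hr Nat.prime_two).mpr hr2)
    rw [hcop.gcd_eq_one] at h1
    exact orderOf_eq_one_iff.mp (Nat.dvd_one.mp h1)
  have hαpowZ : ∀ (j : ℕ), ∀ z ∈ Subgroup.center Q, (α ^ j) z = z := by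
    intro j
    induction j with
    | zero => intro z _; rfl
    | succ j ih =>
      intro z hz
      rw [pow_succ]
      show (α ^ j) (α z) = z
      rw [hαZ z hz, ih z hz]
  have hlift : ∀ (φ : Q ≃* Q) (m : ℕ), φ ^ 2 ^ m = 1 → (∀ z ∈ Subgroup.center Q, φ z = z) →
      ∀ g, g⁻¹ * φ g ∈ Subgroup.center Q → φ g = g := by
    intro φ m hφ hφZ g hg
    have h1 : ∀ i : ℕ, (φ ^ i) g = g * (g⁻¹ * φ g) ^ i := by
      intro i
      induction i with
      | zero => simp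
      | succ i ih =>
        have e : φ ^ (i + 1) = φ * φ ^ i := pow_succ' φ i
        rw [e]
        show φ ((φ ^ i) g) = _
        rw [ih, map_mul, map_pow, hφZ _ hg, pow_succ' (g⁻¹ * φ g) i, ← mul_assoc,
          mul_inv_cancel_left]
    have h2 := h1 (2 ^ m)
    rw [hφ] at h2
    have h3 : (g⁻¹ * φ g) ^ 2 ^ m = 1 := by
      have h4 : g * (g⁻¹ * φ g) ^ 2 ^ m = g * 1 := by
        rw [mul_one]; exact h2.symm
      exact mul_left_cancel h4
    have h5 := hodd _ m h3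
    exact (inv_mul_eq_one.mp h5).symm
  -- the commutator pairing
  obtain ⟨cm, hcm⟩ : ∃ cm : Q → Q → Subgroup.center Q,
      ∀ g h, ((cm g h : Subgroup.center Q) : Q) = g * h * g⁻¹ * h⁻¹ :=
    ⟨fun g h => ⟨g * h * g⁻¹ * h⁻¹, hc' g h⟩, fun _ _ => rfl⟩
  have hcen : ∀ (z : Subgroup.center Q) (x : Q), x * (z : Q) = (z : Q) * x := fun z x =>
    (Subgroup.mem_center_iff.mp z.2 x)
  have hc1 : ∀ g g' h, cm (g * g') h = cm g h * cm g' h := by
    intro g g' h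
    apply Subtype.ext
    rw [Subgroup.coe_mul, hcm, hcm]
    have e1 := hcen (cm g' h) g
    have e2 : g * g' * h * (g * g')⁻¹ * h⁻¹ =
        g * ((cm g' h : Subgroup.center Q) : Q) * (h * g⁻¹ * h⁻¹) := by
      rw [hcm]; group
    rw [e2, e1, hcen (cm g' h) (g * h * g⁻¹ * h⁻¹)]
    simp only [mul_assoc]
  have hc3 : ∀ g h, cm g h * cm h g = 1 := by
    intro g h
    apply Subtype.ext
    show ((cm g h : Subgroup.center Q) : Q) * ((cm h g : Subgroup.center Q) : Q) = 1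
    rw [hcm, hcm]; group
  have hinvcm : ∀ g h, cm g h = (cm h g)⁻¹ := fun g h => eq_inv_of_mul_eq_one_left (hc3 g h)
  have hc2 : ∀ g h h', cm g (h * h') = cm g h * cm g h' := by
    intro g h h'
    rw [hinvcm g (h * h'), hc1, mul_inv, ← hinvcm, ← hinvcm]
  have hc4r : ∀ g z, z ∈ Subgroup.center Q → cm g z = 1 := by
    intro g z hz
    apply Subtype.ext
    show ((cm g z : Subgroup.center Q) : Q) = 1
    rw [hcm, Subgroup.mem_center_iff.mp hz g]; group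
  have hc4l : ∀ z g, z ∈ Subgroup.center Q → cm z g = 1 := by
    intro z g hz
    rw [hinvcm, hc4r g z hz, inv_one]
  have hc5 : ∀ (φ : Q ≃* Q), (∀ z ∈ Subgroup.center Q, φ z = z) →
      ∀ g h, cm (φ g) (φ h) = cm g h := by
    intro φ hφZ g h
    apply Subtype.ext
    rw [hcm, hcm]
    have := hφZ _ (cm g h).2
    rw [hcm, map_mul, map_mul, map_mul, map_inv, map_inv] at this
    exact this
  obtain ⟨cΩ, hcΩ⟩ : ∃ c : (Q ⧸ Subgroup.center Q) → (Q ⧸ Subgroup.center Q) →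
      Subgroup.center Q, ∀ g h : Q, c (QuotientGroup.mk g) (QuotientGroup.mk h) = cm g h := by
    refine ⟨fun a b => Quotient.liftOn₂' a b cm ?_, fun g h => rfl⟩
    intro g h g' h' hg hh
    have hg' : g⁻¹ * g' ∈ Subgroup.center Q := QuotientGroup.leftRel_apply.mp hg
    have hh' : h⁻¹ * h' ∈ Subgroup.center Q := QuotientGroup.leftRel_apply.mp hh
    have e1 : cm g' h' = cm (g * (g⁻¹ * g')) (h * (h⁻¹ * h')) := by
      rw [show g * (g⁻¹ * g') = g' from by group, show h * (h⁻¹ * h') = h' from by group]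
    rw [e1, hc1, hc2, hc4r _ _ hh', hc4l _ _ hg', mul_one, mul_one]
  have hΩl : ∀ a a' b, cΩ (a * a') b = cΩ a b * cΩ a' b := by
    intro a a' b
    obtain ⟨g, rfl⟩ := QuotientGroup.mk_surjective a
    obtain ⟨g', rfl⟩ := QuotientGroup.mk_surjective a'
    obtain ⟨h, rfl⟩ := QuotientGroup.mk_surjective b
    rw [← QuotientGroup.mk_mul, hcΩ, hcΩ, hcΩ, hc1]
  have hΩr : ∀ a b b', cΩ a (b * b') = cΩ a b * cΩ a b' := by
    intro a b b'
    obtain ⟨g, rfl⟩ := QuotientGroup.mk_surjective a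
    obtain ⟨h, rfl⟩ := QuotientGroup.mk_surjective b
    obtain ⟨h', rfl⟩ := QuotientGroup.mk_surjective b'
    rw [← QuotientGroup.mk_mul, hcΩ, hcΩ, hcΩ, hc2]
  have hΩs : ∀ a b, cΩ a b * cΩ b a = 1 := by
    intro a b
    obtain ⟨g, rfl⟩ := QuotientGroup.mk_surjective a
    obtain ⟨h, rfl⟩ := QuotientGroup.mk_surjective b
    rw [hcΩ, hcΩ, hc3]
  have hΩ1l : ∀ b, cΩ 1 b = 1 := by
    intro b
    have h := hΩl 1 1 b
    rw [mul_one] at h
    exact mul_left_cancel (a := cΩ 1 b) (by rw [mul_one]; exact h.symm)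
  have hΩinvl : ∀ a b, cΩ a⁻¹ b = (cΩ a b)⁻¹ := by
    intro a b
    have h := hΩl a a⁻¹ b
    rw [mul_inv_cancel, hΩ1l] at h
    exact eq_inv_of_mul_eq_one_right h.symm
  have hZodd3 : ∀ c : Subgroup.center Q, c * c = 1 → c = 1 := by
    intro c hcc
    apply Subtype.ext
    apply hodd _ 1
    rw [pow_one, pow_two]
    exact congrArg Subtype.val hcc
  -- the permutation of the quotient
  obtain ⟨s, hs_def⟩ : ∃ s : Equiv.Perm (Q ⧸ Subgroup.center Q), s = quotPerm α := ⟨_, rfl⟩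
  rw [← hs_def] at hcount
  have hspow : ∀ (j : ℕ) (g : Q), (s ^ j) (QuotientGroup.mk g) = QuotientGroup.mk ((α ^ j) g) := by
    intro j g
    rw [hs_def]
    exact quotPerm_pow α j g
  have hsN : s ^ 2 ^ n = 1 := by
    rw [hs_def]
    exact quotPerm_pow_eq_one α hαN
  have hΩinv : ∀ (j : ℕ) a b, cΩ ((s ^ j) a) ((s ^ j) b) = cΩ a b := by
    intro j a b
    obtain ⟨g, rfl⟩ := QuotientGroup.mk_surjective a
    obtain ⟨h, rfl⟩ := QuotientGroup.mk_surjective b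
    rw [hspow, hspow, hcΩ, hcΩ]
    exact hc5 (α ^ j) (hαpowZ j) g h
  have hs_mul : ∀ (j : ℕ) (x y : Q ⧸ Subgroup.center Q),
      (s ^ j) (x * y) = (s ^ j) x * (s ^ j) y := by
    intro j x y
    obtain ⟨g, rfl⟩ := QuotientGroup.mk_surjective x
    obtain ⟨h, rfl⟩ := QuotientGroup.mk_surjective y
    rw [← QuotientGroup.mk_mul, hspow, hspow, hspow, map_mul, QuotientGroup.mk_mul]
  have hs_one : ∀ j : ℕ, (s ^ j) 1 = 1 := by
    intro j
    have h := hspow j (1 : Q)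
    rw [map_one] at h
    exact h
  have hs_inv : ∀ (j : ℕ) (x : Q ⧸ Subgroup.center Q), (s ^ j) x⁻¹ = ((s ^ j) x)⁻¹ := by
    intro j x
    have h := hs_mul j x x⁻¹
    rw [mul_inv_cancel, hs_one] at h
    exact eq_inv_of_mul_eq_one_right h.symm
  have h_s1 : s 1 = 1 := by
    have := hs_one 1
    rwa [pow_one] at this
  have hΩcomm : ∀ x y : Q ⧸ Subgroup.center Q, x * y = y * x := by
    intro x y
    obtain ⟨g, rfl⟩ := QuotientGroup.mk_surjective x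
    obtain ⟨h, rfl⟩ := QuotientGroup.mk_surjective y
    rw [← QuotientGroup.mk_mul, ← QuotientGroup.mk_mul, QuotientGroup.eq]
    have := hc' h⁻¹ g⁻¹
    rw [inv_inv, inv_inv] at this
    have e : (g * h)⁻¹ * (h * g) = h⁻¹ * g⁻¹ * h * g := by group
    rw [e]
    exact this
  have hΩexp : ∀ x : Q ⧸ Subgroup.center Q, x ^ r = 1 := by
    intro x
    obtain ⟨g, rfl⟩ := QuotientGroup.mk_surjective x
    rw [← QuotientGroup.mk_pow]
    exact (QuotientGroup.eq_one_iff _).mpr (hpow g)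
  have hΩodd : ∀ x : Q ⧸ Subgroup.center Q, x * x = 1 → x = 1 := by
    intro x hxx
    obtain ⟨t, ht⟩ := hr.odd_of_ne_two hr2
    have := hΩexp x
    rw [ht, pow_succ, pow_mul, pow_two, hxx, one_pow, one_mul] at this
    exact this
  have hψψ : ∀ x, (s ^ 2 ^ (n - 1)) ((s ^ 2 ^ (n - 1)) x) = x := by
    intro x
    have e : 2 ^ (n - 1) + 2 ^ (n - 1) = 2 ^ n := by
      have : n = (n - 1) + 1 := by omega
      conv_rhs => rw [this, pow_succ]
      ring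
    rw [← Equiv.Perm.mul_apply, ← pow_add, e, hsN]
    rfl
  have hψα : (α ^ 2 ^ (n - 1)) ^ 2 ^ 1 = 1 := by
    rw [← pow_mul, pow_one, ← pow_succ, Nat.sub_add_cancel hn, hαN]
  obtain ⟨g₀, hg₀⟩ := hψ
  have hx₀ : (s ^ 2 ^ (n - 1)) (QuotientGroup.mk g₀) ≠ QuotientGroup.mk g₀ := by
    intro h
    rw [hspow, QuotientGroup.eq] at h
    have h1 : g₀⁻¹ * (α ^ 2 ^ (n - 1)) g₀ ∈ Subgroup.center Q := by
      have := Subgroup.inv_mem _ h
      rwa [mul_inv_rev, inv_inv] at this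
    exact hg₀ (hlift _ 1 hψα (hαpowZ _) g₀ h1)
  let Ωp : Subgroup (Q ⧸ Subgroup.center Q) :=
    { carrier := {x | (s ^ 2 ^ (n - 1)) x = x}
      mul_mem' := fun {a b} ha hb => by
        have ha' : (s ^ 2 ^ (n - 1)) a = a := ha
        have hb' : (s ^ 2 ^ (n - 1)) b = b := hb
        show (s ^ 2 ^ (n - 1)) (a * b) = a * b
        rw [hs_mul, ha', hb']
      one_mem' := hs_one _
      inv_mem' := fun {a} ha => by
        have ha' : (s ^ 2 ^ (n - 1)) a = a := ha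
        show (s ^ 2 ^ (n - 1)) a⁻¹ = a⁻¹
        rw [hs_inv, ha'] }
  let Ωm : Subgroup (Q ⧸ Subgroup.center Q) :=
    { carrier := {x | (s ^ 2 ^ (n - 1)) x = x⁻¹}
      mul_mem' := fun {a b} ha hb => by
        have ha' : (s ^ 2 ^ (n - 1)) a = a⁻¹ := ha
        have hb' : (s ^ 2 ^ (n - 1)) b = b⁻¹ := hb
        show (s ^ 2 ^ (n - 1)) (a * b) = (a * b)⁻¹
        rw [hs_mul, ha', hb', mul_inv_rev, hΩcomm]
      one_mem' := by
        show (s ^ 2 ^ (n - 1)) 1 = 1⁻¹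
        rw [hs_one, inv_one]
      inv_mem' := fun {a} ha => by
        have ha' : (s ^ 2 ^ (n - 1)) a = a⁻¹ := ha
        show (s ^ 2 ^ (n - 1)) a⁻¹ = a⁻¹⁻¹
        rw [hs_inv, ha'] }
  have hmemp : ∀ x, x ∈ Ωp ↔ (s ^ 2 ^ (n - 1)) x = x := fun x => Iff.rfl
  have hmemm : ∀ x, x ∈ Ωm ↔ (s ^ 2 ^ (n - 1)) x = x⁻¹ := fun x => Iff.rfl
  obtain ⟨y₀, hy₀m, hy₀1⟩ : ∃ y, y ∈ Ωm ∧ y ≠ 1 := by
    refine ⟨(QuotientGroup.mk g₀)⁻¹ * (s ^ 2 ^ (n - 1)) (QuotientGroup.mk g₀), ?_, ?_⟩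
    · rw [hmemm, hs_mul, hs_inv, hψψ, mul_inv_rev, inv_inv]
    · intro h
      apply hx₀
      exact (inv_mul_eq_one.mp h).symm
  have hPM : Nat.card Ωp * Nat.card Ωm ≤ Nat.card (Q ⧸ Subgroup.center Q) := by
    rw [← Nat.card_prod]
    apply Nat.card_le_card_of_injective (fun p : Ωp × Ωm => (p.1 : Q ⧸ Subgroup.center Q) * p.2)
    rintro ⟨⟨a, ha⟩, ⟨b, hb⟩⟩ ⟨⟨a', ha'⟩, ⟨b', hb'⟩⟩ h
    have h1 : a * b = a' * b' := h
    have h2 : a'⁻¹ * a = b' * b⁻¹ := by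
      rw [inv_mul_eq_iff_eq_mul, ← mul_assoc, ← h1, mul_assoc, mul_inv_cancel, mul_one]
    have hc1' : a'⁻¹ * a ∈ Ωp := Ωp.mul_mem (Ωp.inv_mem ha') ha
    have hc2' : a'⁻¹ * a ∈ Ωm := by rw [h2]; exact Ωm.mul_mem hb' (Ωm.inv_mem hb)
    have h3 : (a'⁻¹ * a) * (a'⁻¹ * a) = 1 := by
      have e1 : (s ^ 2 ^ (n - 1)) (a'⁻¹ * a) = a'⁻¹ * a := hc1'
      have e2 : (s ^ 2 ^ (n - 1)) (a'⁻¹ * a) = (a'⁻¹ * a)⁻¹ := hc2'
      rw [e1] at e2
      exact mul_eq_one_iff_eq_inv.mpr e2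
    have h4 := hΩodd _ h3
    have h5 : a = a' := (inv_mul_eq_one.mp h4).symm
    have h6 : b = b' := by
      rw [h5] at h1
      exact mul_left_cancel h1
    subst h5; subst h6; rfl
  have hsemi : ∀ j, 0 < j → j < 2 ^ n → ∀ x ∈ Ωm, (s ^ j) x = x → x = 1 := by
    intro j hj0 hj x hx hfix
    have h1 := fix_pow_two s n hn hsN j hj0 hj x hfix
    have h2 : (s ^ 2 ^ (n - 1)) x = x⁻¹ := hx
    rw [h1] at h2
    exact hΩodd x (mul_eq_one_iff_eq_inv.mpr h2)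
  have hMpow : ∀ L : Subgroup (Q ⧸ Subgroup.center Q), ∃ i, Nat.card L = r ^ i := by
    intro L
    haveI : Fact r.Prime := ⟨hr⟩
    have hLp : IsPGroup r L := by
      intro x
      refine ⟨1, ?_⟩
      rw [pow_one]
      apply Subtype.ext
      rw [Subgroup.coe_pow]
      exact hΩexp x.1
    exact IsPGroup.iff_card.mp hLp
  have hsne : s ^ 2 ^ (n - 1) ≠ 1 := by
    intro h
    apply hx₀
    rw [h]; rfl
  have hburn := burnside_bound s hn hsN hsne
  have hPeq : Nat.card {x : Q ⧸ Subgroup.center Q // (s ^ 2 ^ (n - 1)) x = x} = Nat.card Ωp :=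
    rfl
  rw [hPeq] at hburn
  have hfixall : ∀ (q : Q ⧸ Subgroup.center Q), s q = q → ∀ i : ℕ, (s ^ i) q = q := by
    intro q hq i
    induction i with
    | zero => rfl
    | succ i ih => rw [pow_succ, Equiv.Perm.mul_apply, hq, ih]
  obtain ⟨ι, hι⟩ : ∃ ι : {x : Q ⧸ Subgroup.center Q // s x = x} → Ωp,
      ∀ q, ((ι q : Ωp) : Q ⧸ Subgroup.center Q) = q.1 :=
    ⟨fun q => ⟨q.1, hfixall q.1 q.2 _⟩, fun _ => rfl⟩
  have hιinj : Function.Injective ι := by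
    intro q q' hqq
    apply Subtype.ext
    rw [← hι q, ← hι q', hqq]
  have hF_le : Nat.card {x : Q ⧸ Subgroup.center Q // s x = x} ≤ Nat.card Ωp :=
    Nat.card_le_card_of_injective ι hιinj
  have hPpos : 0 < Nat.card Ωp := Nat.card_pos
  have hOm : Nat.card (Q ⧸ Subgroup.center Q) * 2 ^ n ≤ (2 ^ n - 1) *
      (Nat.card (Q ⧸ Subgroup.center Q) + (2 ^ n - 2) * Nat.card Ωp +
        Nat.card {x : Q ⧸ Subgroup.center Q // s x = x}) := by
    calc Nat.card (Q ⧸ Subgroup.center Q) * 2 ^ n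
        ≤ ((2 ^ n - 1) * Nat.card (Quotient (MulAction.orbitRel (Subgroup.zpowers s)
            (Q ⧸ Subgroup.center Q)))) * 2 ^ n := Nat.mul_le_mul_right _ hcount
      _ = (2 ^ n - 1) * (Nat.card (Quotient (MulAction.orbitRel (Subgroup.zpowers s)
            (Q ⧸ Subgroup.center Q))) * 2 ^ n) := by rw [mul_assoc]
      _ ≤ _ := Nat.mul_le_mul_left _ hburn
  have hMle : Nat.card Ωm ≤ (2 ^ n - 1) * (2 ^ n - 1) := arith_bound hn hPpos hF_le hPM hOm
  have hM1 : 1 < Nat.card Ωm := by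
    have hnt : Nontrivial Ωm :=
      ⟨⟨⟨y₀, hy₀m⟩, 1, fun h => hy₀1 (congrArg Subtype.val h)⟩⟩
    exact Finite.one_lt_card_iff_nontrivial.mpr hnt
  have hn2 : 2 ≤ n := by
    by_contra hcon
    have h1 : n = 1 := by omega
    rw [h1] at hMle
    norm_num at hMle
    omega
  have hcomm_s : ∀ x, (s ^ 2 ^ (n - 1)) (s x) = s ((s ^ 2 ^ (n - 1)) x) := by
    intro x
    rw [← Equiv.Perm.mul_apply, ← Equiv.Perm.mul_apply, ← pow_succ, ← pow_succ']
  have hs1inv : ∀ x, s x⁻¹ = (s x)⁻¹ := by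
    intro x
    have := hs_inv 1 x
    rwa [pow_one] at this
  have hs1mul : ∀ x y, s (x * y) = s x * s y := by
    intro x y
    have := hs_mul 1 x y
    rwa [pow_one] at this
  have hΩm_inv : ∀ x ∈ Ωm, s x ∈ Ωm := by
    intro x hx
    have hx' : (s ^ 2 ^ (n - 1)) x = x⁻¹ := hx
    rw [hmemm, hcomm_s, hx', hs1inv]
  have hMd : 2 ^ n ∣ Nat.card Ωm - 1 :=
    semireg_dvd s Ωm (2 ^ n) (by positivity) hsN hΩm_inv h_s1 hsemi
  have hirrΩm : ∀ L : Subgroup (Q ⧸ Subgroup.center Q), L ≤ Ωm → (∀ x ∈ L, s x ∈ L) →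
      L = ⊥ ∨ L = Ωm := by
    intro L hLm hLs
    by_contra hcon
    push Not at hcon
    obtain ⟨hL1, hL2⟩ := hcon
    obtain ⟨i, hi⟩ := hMpow L
    obtain ⟨j, hj⟩ := hMpow Ωm
    have hLd : 2 ^ n ∣ Nat.card L - 1 := semireg_dvd s L (2 ^ n) (by positivity) hsN hLs h_s1
      (fun j hj0 hj x hx => hsemi j hj0 hj x (hLm hx))
    have hi0 : 0 < i := by
      rcases Nat.eq_zero_or_pos i with h0 | h0
      · exfalso
        apply hL1
        rw [h0, pow_zero] at hi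
        exact Subgroup.eq_bot_of_card_eq L hi
      · exact h0
    have hij : i < j := by
      by_contra hge
      apply hL2
      apply Subgroup.eq_of_le_of_card_ge hLm
      rw [hi, hj]
      exact Nat.pow_le_pow_right hr.pos (not_lt.mp hge)
    rw [hi] at hLd
    have hMd' := hMd
    rw [hj] at hMd'
    have h7 := arith_irr (by positivity) hLd hMd' hr.one_lt hi0 hij
    have h8 : (2 ^ n + 1) * (2 ^ n + 1) ≤ (2 ^ n - 1) * (2 ^ n - 1) := by
      rw [← hj] at h7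
      exact h7.trans hMle
    have h9 : 2 ^ n - 1 < 2 ^ n + 1 := by omega
    exact absurd h8 (not_le.mpr (Nat.mul_lt_mul'' h9 h9))
  -- the module
  have hcm' : ∀ x ∈ Ωm, ∀ y ∈ Ωm, x * y = y * x := fun x _ y _ => hΩcomm x y
  obtain ⟨αB, hαBval⟩ : ∃ f : AddMonoid.End (AbMod Ωm hcm'), ∀ b, (f b).val = s b.val :=
    ⟨AddMonoidHom.mk' (fun b => AbMod.mk (s b.val) (hΩm_inv _ b.val_mem))
      (fun a b => AbMod.ext (hs1mul a.val b.val)), fun _ => rfl⟩
  have hαBpow : ∀ (j : ℕ) (b : AbMod Ωm hcm'), ((αB ^ j) b).val = (s ^ j) b.val := by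
    intro j
    induction j with
    | zero => intro b; rw [pow_zero, pow_zero]; rfl
    | succ j ih =>
      intro b
      rw [pow_succ]
      show ((αB ^ j) (αB b)).val = _
      rw [ih, hαBval, pow_succ, Equiv.Perm.mul_apply]
  have hαBN : αB ^ 2 ^ n = 1 := by
    ext b
    apply AbMod.ext
    rw [hαBpow, hsN]
    rfl
  have h2pos : 1 ≤ 2 ^ n := Nat.one_le_two_pow
  have hα : αB * αB ^ (2 ^ n - 1) = 1 := by
    rw [← pow_succ', Nat.sub_add_cancel h2pos, hαBN]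
  have hα' : αB ^ (2 ^ n - 1) * αB = 1 := by
    rw [← pow_succ, Nat.sub_add_cancel h2pos, hαBN]
  have hneg : ∀ b : AbMod Ωm hcm', (αB ^ 2 ^ (n - 1)) b = -b := by
    intro b
    apply AbMod.ext
    rw [hαBpow]
    exact b.val_mem
  have h2B : ∀ b : AbMod Ωm hcm', b + b = 0 → b = 0 := by
    intro b hb
    apply AbMod.ext
    show b.val = 1
    apply hΩodd
    have := congrArg AbMod.val hb
    exact this
  have hirrB : ∀ W : AddSubgroup (AbMod Ωm hcm'), (∀ x ∈ W, αB x ∈ W) → W = ⊥ ∨ W = ⊤ := by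
    intro W hW
    let L : Subgroup (Q ⧸ Subgroup.center Q) :=
      { carrier := {x | ∃ b ∈ W, AbMod.val b = x}
        mul_mem' := by
          rintro _ _ ⟨a, ha, rfl⟩ ⟨b, hb, rfl⟩
          exact ⟨a + b, W.add_mem ha hb, rfl⟩
        one_mem' := ⟨0, W.zero_mem, rfl⟩
        inv_mem' := by
          rintro _ ⟨a, ha, rfl⟩
          exact ⟨-a, W.neg_mem ha, rfl⟩ }
    have hLm : L ≤ Ωm := by
      rintro _ ⟨b, -, rfl⟩
      exact b.val_mem
    have hLs : ∀ x ∈ L, s x ∈ L := by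
      rintro _ ⟨b, hb, rfl⟩
      exact ⟨αB b, hW b hb, hαBval b⟩
    rcases hirrΩm L hLm hLs with h | h
    · left
      rw [eq_bot_iff]
      intro b hb
      rw [AddSubgroup.mem_bot]
      have h1 : b.val ∈ L := ⟨b, hb, rfl⟩
      rw [h] at h1
      exact AbMod.ext (Subgroup.mem_bot.mp h1)
    · right
      rw [eq_top_iff]
      intro b _
      have h1 : b.val ∈ L := by rw [h]; exact b.val_mem
      obtain ⟨b', hb', hbb⟩ := h1
      rw [← AbMod.ext hbb]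
      exact hb'
  have hβα : ∀ a b : AbMod Ωm hcm', cΩ (αB a).val (αB b).val = cΩ a.val b.val := by
    intro a b
    rw [hαBval, hαBval]
    have := hΩinv 1 a.val b.val
    rwa [pow_one] at this
  have hβne : ∃ a b : AbMod Ωm hcm', cΩ a.val b.val ≠ 1 := by
    by_contra hall
    push Not at hall
    apply hy₀1
    obtain ⟨g, rfl⟩ := QuotientGroup.mk_surjective y₀
    rw [QuotientGroup.eq_one_iff, Subgroup.mem_center_iff]
    intro h
    have hkey : cΩ (QuotientGroup.mk g) (QuotientGroup.mk h) = 1 := by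
      obtain ⟨x, hx⟩ : ∃ x : Q ⧸ Subgroup.center Q, x = QuotientGroup.mk h := ⟨_, rfl⟩
      rw [← hx]
      have hu : x * (s ^ 2 ^ (n - 1)) x ∈ Ωp := by
        rw [hmemp, hs_mul, hψψ, hΩcomm]
      have hv : x * ((s ^ 2 ^ (n - 1)) x)⁻¹ ∈ Ωm := by
        rw [hmemm, hs_mul, hs_inv, hψψ, mul_inv_rev, inv_inv, hΩcomm]
      have h1 : cΩ (QuotientGroup.mk g) (x * ((s ^ 2 ^ (n - 1)) x)⁻¹) = 1 :=
        hall (AbMod.mk _ hy₀m) (AbMod.mk _ hv)
      have h2 : cΩ (QuotientGroup.mk g) (x * (s ^ 2 ^ (n - 1)) x) = 1 := by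
        have e1 := hΩinv (2 ^ (n - 1)) (QuotientGroup.mk g) (x * (s ^ 2 ^ (n - 1)) x)
        have e2 : (s ^ 2 ^ (n - 1)) (QuotientGroup.mk g) = (QuotientGroup.mk g)⁻¹ := hy₀m
        have e3 : (s ^ 2 ^ (n - 1)) (x * (s ^ 2 ^ (n - 1)) x) = x * (s ^ 2 ^ (n - 1)) x := hu
        rw [e2, e3, hΩinvl] at e1
        exact hZodd3 _ (mul_eq_one_iff_eq_inv.mpr e1.symm)
      have h3 : cΩ (QuotientGroup.mk g) (x * x) = 1 := by
        have e : (x * (s ^ 2 ^ (n - 1)) x) * (x * ((s ^ 2 ^ (n - 1)) x)⁻¹) = x * x := by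
          calc (x * (s ^ 2 ^ (n - 1)) x) * (x * ((s ^ 2 ^ (n - 1)) x)⁻¹)
              = x * ((s ^ 2 ^ (n - 1)) x * x) * ((s ^ 2 ^ (n - 1)) x)⁻¹ := by group
            _ = x * (x * (s ^ 2 ^ (n - 1)) x) * ((s ^ 2 ^ (n - 1)) x)⁻¹ := by
                rw [hΩcomm ((s ^ 2 ^ (n - 1)) x) x]
            _ = x * x := by group
        rw [← e, hΩr, h1, h2, one_mul]
      rw [hΩr] at h3
      exact hZodd3 _ h3
    rw [hcΩ] at hkey
    have h5 : g * h * g⁻¹ * h⁻¹ = 1 := by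
      have := congrArg Subtype.val hkey
      rw [hcm] at this
      exact this
    have h6 : g * h = h * g := by
      have e : g * h * (h * g)⁻¹ = 1 := by rw [← h5]; group
      exact mul_inv_eq_one.mp e
    exact h6.symm
  haveI hntB : Nontrivial (AbMod Ωm hcm') :=
    ⟨⟨AbMod.mk y₀ hy₀m, 0, fun h => hy₀1 (congrArg AbMod.val h)⟩⟩
  obtain ⟨k, hk1, hk2⟩ := lb_add αB (αB ^ (2 ^ n - 1)) hα hα' n hn2 hneg h2B hirrB
    (fun a b => cΩ a.val b.val) (fun a a' b => hΩl _ _ _) (fun a b b' => hΩr _ _ _)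
    (fun a b => hΩs _ _) hβα hβne
  have hk1' : Nat.card Ωm = k * k := hk1
  obtain ⟨j, hj⟩ := hMpow Ωm
  obtain ⟨hres, hFP⟩ := arith_num hr hr2 hn hj hM1 hk1' hk2 hPpos hF_le hPM hOm
  refine ⟨hres, ?_⟩
  intro g hg
  have hιbij : Function.Bijective ι :=
    Function.Injective.bijective_of_nat_card_le hιinj (le_of_eq hFP.symm)
  have hgp : (QuotientGroup.mk g : Q ⧸ Subgroup.center Q) ∈ Ωp := by
    rw [hmemp, hspow, hg]
  obtain ⟨q, hq⟩ := hιbij.2 ⟨_, hgp⟩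
  have h1 : s (QuotientGroup.mk g) = QuotientGroup.mk g := by
    have h2 := hι q
    rw [hq] at h2
    have h3 := q.2
    rw [← h2] at h3
    exact h3
  have h4 := hspow 1 g
  rw [pow_one, pow_one, h1] at h4
  have h5 : g⁻¹ * α g ∈ Subgroup.center Q := QuotientGroup.eq.mp h4
  exact hlift α n hαN hαZ g h5

end Cfsg.Agent.Lib.Helper63.SH
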